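import Cfsg.Agent.MaxSub.OrthWreathThree.Basic
import Cfsg.Agent.OrthMax.Proper

/-!
Facts on `Om` for the tensor power of a three dimensional orthogonal space: perfect, generated by
squares, no proper normal subgroup outside the scalars, determinant one.
-/

set_option autoImplicit false
set_option linter.unusedSectionVars false

namespace Cfsg.Agent.MaxSub.OWT

open Matrix Cfsg.Geo QuadraticMap Module
open Cfsg.Agent.Classical (OQ BNondeg siegel EQ hypAdd)
open Cfsg.Agent.GeoClasses (oqToGL oqToGL_mulVec map_oqToGL_commutator)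
open scoped MatrixGroups Matrix

variable {F : Type*} [Field F]

section Forms

variable {V : Type*} [AddCommGroup V] [Module F V] [FiniteDimensional F V] {Q : QuadraticForm F V}

/-- A subgroup of the derived orthogonal group normalised by it is all of it or scalar. -/
theorem normal_commutator_OQ [Finite F] (hB : BNondeg Q) (hn : 7 ≤ finrank F V)
    (N : Subgroup (OQ Q)) (hN : ∀ y ∈ commutator (OQ Q), ∀ s ∈ N, y * s * y⁻¹ ∈ N)
    (hsc : ∃ g ∈ N, g ∈ commutator (OQ Q) ∧ ¬ ∃ c : F, ∀ v, g.1 v = c • v) :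
    commutator (OQ Q) ≤ N := by
  obtain ⟨e, f, -, -, ⟨he, hf, hef⟩, -⟩ := OrthGen.hasTwoPairs_of_five_le hB (by omega)
  have hfe : polar Q f e = 1 := by rw [polar_comm]; exact hef
  have hee : polar Q e e = 0 := by rw [OrthGen.polar_self_two, he, mul_zero]
  have hff : polar Q f f = 0 := by rw [OrthGen.polar_self_two, hf, mul_zero]
  let S : Submodule F V :=
    { carrier := {v | polar Q e v = 0 ∧ polar Q f v = 0}
      add_mem' := fun {a b} ha hb =>
        ⟨by rw [polar_add_right, ha.1, hb.1, add_zero], by rw [polar_add_right, ha.2, hb.2, add_zero]⟩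
      zero_mem' := ⟨polar_zero_right Q e, polar_zero_right Q f⟩
      smul_mem' := fun c {a} ha =>
        ⟨by rw [polar_smul_right, ha.1, smul_zero], by rw [polar_smul_right, ha.2, smul_zero]⟩ }
  have hmem : ∀ v : V, v - polar Q f v • e - polar Q e v • f ∈ S := fun v => by
    constructor <;>
    · simp only [polar_sub_right, polar_smul_right, hee, hff, hef, hfe, smul_eq_mul]
      ring
  let φ : ((F × F) × S) →ₗ[F] V :=
    (LinearMap.coprod (LinearMap.coprod (LinearMap.toSpanSingleton F V e) (LinearMap.toSpanSingleton F V f))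
      S.subtype)
  have hφ : ∀ x, φ x = x.1.1 • e + x.1.2 • f + (x.2 : V) := fun x => by simp [φ]
  have hinj : Function.Injective φ := by
    rw [← LinearMap.ker_eq_bot, LinearMap.ker_eq_bot']
    intro x hx
    rw [hφ] at hx
    have h1 := congrArg (polar Q f) hx
    have h2 := congrArg (polar Q e) hx
    simp only [polar_add_right, polar_smul_right, hee, hff, hef, hfe, x.2.2.1, x.2.2.2, smul_eq_mul,
      mul_zero, mul_one, zero_add, add_zero, polar_zero_right] at h1 h2
    rw [h1, h2, zero_smul, zero_smul, zero_add, zero_add] at hx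
    exact Prod.ext (Prod.ext h1 h2) (Subtype.ext hx)
  have hsurj : Function.Surjective φ := fun v =>
    ⟨((polar Q f v, polar Q e v), ⟨_, hmem v⟩), by rw [hφ]; module⟩
  let E := LinearEquiv.ofBijective φ ⟨hinj, hsurj⟩
  set R : QuadraticForm F S := Q.comp S.subtype with hRdef
  have hspec : ∀ x, Q (E x) = hypAdd R x := by
    intro x
    show Q (φ x) = _
    rw [hφ, Classical.hypAdd_apply, hRdef, QuadraticMap.comp_apply, Submodule.subtype_apply,
      Classical.qf_add, Classical.qf_add, QuadraticMap.map_smul, QuadraticMap.map_smul, he, hf,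
      polar_add_left, polar_smul_left, polar_smul_left, polar_smul_left, polar_smul_right, hef,
      x.2.2.1, x.2.2.2]
    simp
  have hRB : BNondeg R := by
    intro x hx
    refine Subtype.ext (hB x fun y => ?_)
    have h0 := hx ⟨_, hmem y⟩
    change polar Q (x : V) _ = 0 at h0
    rw [polar_sub_right, polar_sub_right, polar_smul_right, polar_smul_right, polar_comm Q (x : V) e,
      polar_comm Q (x : V) f, x.2.1, x.2.2, smul_zero, smul_zero, sub_zero, sub_zero] at h0
    exact h0
  have hdim : finrank F S + 2 = finrank F V := by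
    rw [← E.finrank_eq]
    simp [add_comm]
  let Θ := Classical.OQCongr E hspec
  have hEQ : commutator (OQ (hypAdd R)) = EQ (hypAdd R) :=
    GeoClasses.commutator_eq_EQ (Classical.bNondeg_hypAdd hRB) (by rw [E.finrank_eq]; omega)
  have hmap : (EQ (hypAdd R)).map Θ.toMonoidHom = commutator (OQ Q) := by
    rw [← hEQ]
    exact Classical.map_commutator_top_of_equiv Θ
  let j : ↥(EQ (hypAdd R)) →* OQ Q := Θ.toMonoidHom.comp (EQ (hypAdd R)).subtype
  have hj : ∀ x, j x ∈ commutator (OQ Q) := fun x => hmap ▸ ⟨x.1, x.2, rfl⟩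
  have hnormal : (N.comap j).Normal := ⟨fun s hs y => by
    show j (y * s * y⁻¹) ∈ N
    rw [map_mul, map_mul, map_inv]
    exact hN _ (hj y) _ hs⟩
  obtain ⟨g, hgN, hgc, hns⟩ := hsc
  obtain ⟨g₀, hg₀, hg₀e⟩ := hmap.symm ▸ hgc
  have htop := Classical.normal_eq_top_of_not_scalar hRB (OrthGen.hasTwoPairs_of_five_le hRB (by omega))
    (N.comap j) hnormal ⟨⟨g₀, hg₀⟩, by
      show Θ g₀ ∈ N
      exact hg₀e.symm ▸ hgN, by
      rintro ⟨c, hc⟩
      refine hns ⟨c, fun v => ?_⟩
      rw [← hg₀e]
      show E (g₀.1 (E.symm v)) = c • v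
      rw [hc, map_smul, E.apply_symm_apply]⟩
  intro x hx
  obtain ⟨x₀, hx₀, rfl⟩ := hmap.symm ▸ hx
  have : (⟨x₀, hx₀⟩ : ↥(EQ (hypAdd R))) ∈ N.comap j := htop ▸ Subgroup.mem_top _
  exact this

end Forms

variable {n : ℕ}

/-- The sum of squares as a quadratic form. -/
noncomputable def qQ (F : Type*) [Field F] (n : ℕ) : QuadraticForm F (Ix n → F) :=
  LinearMap.BilinMap.toQuadraticMap (LinearMap.mk₂ F (fun x y : Ix n → F => x ⬝ᵥ y) (fun x y z => add_dotProduct x y z)
    (fun c x y => smul_dotProduct c x y) (fun x y z => dotProduct_add x y z)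
    (fun c x y => dotProduct_smul c x y))

lemma qQ_coe : ⇑(qQ F n) = qs F (Ix n) := rfl

lemma qQ_polar (x y : Ix n → F) : polar (qQ F n) x y = 2 * (x ⬝ᵥ y) := by
  simp only [polar, qQ_coe, qs, add_dotProduct, dotProduct_add, dotProduct_comm y x]
  ring

lemma qQ_nondeg (h2 : (2 : F) ≠ 0) : BNondeg (qQ F n) := by
  intro x hx
  funext i
  have h := hx (Pi.single i 1)
  rw [qQ_polar, dotProduct_single, mul_one] at h
  exact (mul_eq_zero.1 h).resolve_left h2

lemma nine_le_card (hn : 2 ≤ n) : 9 ≤ Fintype.card (Ix n) := by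
  simp only [Fintype.card_fun, Fintype.card_fin]
  exact (Nat.pow_le_pow_right (by norm_num : 0 < 3) hn : 3 ^ 2 ≤ 3 ^ n)

theorem det_of_mem_Om {g : GL (Ix n) F} (hg : g ∈ Om F n) :
    (g : Matrix (Ix n) (Ix n) F).det = 1 := by
  obtain ⟨h, hh, rfl⟩ := hg
  have hle : Cfsg.Omega F (qs F (Ix n)) ≤
      (Matrix.GeneralLinearGroup.det.comp (Cfsg.isometryGroup F (qs F (Ix n))).subtype).ker :=
    Abelianization.commutator_subset_ker _
  exact congrArg Units.val (MonoidHom.mem_ker.1 (hle hh))

theorem neg_one_not_mem (h2 : (2 : F) ≠ 0) {g : GL (Ix n) F} (hg : g ∈ Om F n) :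
    (g : Matrix (Ix n) (Ix n) F) ≠ -1 := by
  intro h
  have hd := det_of_mem_Om hg
  rw [h, Matrix.det_neg, Matrix.det_one, mul_one] at hd
  have hodd : Odd (Fintype.card (Ix n)) := by
    simp only [Fintype.card_fun, Fintype.card_fin]
    exact Odd.pow ⟨1, rfl⟩
  rw [hodd.neg_one_pow] at hd
  exact h2 (by linear_combination -hd)

variable [Finite F]

theorem Om_perfect (h2 : (2 : F) ≠ 0) (hn : 2 ≤ n) : ⁅Om F n, Om F n⁆ = Om F n := by
  have := nine_le_card hn
  exact OrthMax.omega_perfect (Q := qQ F n) (qQ_nondeg h2) (by omega)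

theorem Om_le_of_squares (h2 : (2 : F) ≠ 0) (hn : 2 ≤ n) {W : Subgroup (GL (Ix n) F)}
    (hW : ∀ g ∈ Om F n, g * g ∈ W) : Om F n ≤ W := by
  have h5 : 5 ≤ Fintype.card (Ix n) := by have := nine_le_card hn; omega
  refine OrthMax.omega_le_of_roots (Q := qQ F n) (qQ_nondeg h2) h5 fun g _ u a hu ha hua hgv => ?_
  set b := (2 : F)⁻¹ • a with hb
  have hb0 : qQ F n b = 0 := by rw [hb, QuadraticMap.map_smul, ha, smul_zero]
  have hub : polar (qQ F n) u b = 0 := by rw [hb, polar_smul_right, hua, smul_zero]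
  obtain ⟨h, hh, hhv⟩ := OrthMax.exists_root (qQ_nondeg h2) h5 hu hb0 hub
  have huu : polar (qQ F n) u u = 0 := OrthMax.polar_self_zero hu
  have hbb : polar (qQ F n) b b = 0 := OrthMax.polar_self_zero hb0
  have hbu : polar (qQ F n) b u = 0 := by rw [polar_comm]; exact hub
  have : g = h * h := by
    refine Units.ext (Matrix.toLin'.injective (LinearMap.ext fun v => ?_))
    rw [toLin'_apply, toLin'_apply, hgv, Units.val_mul, ← mulVec_mulVec, hhv v, hhv]
    simp only [polar_add_right, polar_sub_right, polar_smul_right, huu, hbb, hub, hbu, smul_eq_mul,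
      mul_zero, sub_zero, add_zero]
    rw [hb]
    simp only [polar_smul_left, smul_eq_mul, smul_smul]
    have := h2
    match_scalars <;> field_simp <;> ring
  exact this ▸ hW h hh

theorem normal_full (h2 : (2 : F) ≠ 0) (hn : 2 ≤ n) {S : Subgroup (GL (Ix n) F)} (hS : S ≤ OG F n)
    (hnorm : ∀ y ∈ Om F n, ∀ s ∈ S, y * s * y⁻¹ ∈ S)
    (hex : ∃ s ∈ S, s ≠ 1 ∧ (s : Matrix (Ix n) (Ix n) F) ≠ -1) : Om F n ≤ S := by
  have h9 := nine_le_card hn
  have hB := qQ_nondeg (n := n) h2
  obtain ⟨s, hs, hs1, hsn⟩ := hex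
  obtain ⟨k, hkS, hkO, hk⟩ : ∃ k ∈ S, k ∈ Om F n ∧ k ≠ 1 := by
    by_contra hcon
    push Not at hcon
    obtain ⟨c, hc⟩ := OrthMax.exists_scalar_of_commute (Q := qQ F n) hB (by omega)
      (M := (s : Matrix (Ix n) (Ix n) F)) fun y hy => by
        have h := hcon (y * s * y⁻¹ * s⁻¹) (S.mul_mem (hnorm y hy s hs) (S.inv_mem hs))
          (commutator_mem_Om (Om_le_OG hy) (hS hs))
        rw [mul_inv_eq_one, mul_inv_eq_iff_eq_mul] at h
        exact (congrArg Units.val h).symm
    have hsq : c * c = 1 := by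
      have h := isometry_transpose_mul h2 (hS hs)
      rw [hc, transpose_smul, transpose_one, Matrix.smul_mul, one_mul, smul_smul] at h
      have := congrFun (congrFun h fun _ => 0) fun _ => 0
      simpa using this
    rcases mul_self_eq_one_iff.1 hsq with rfl | rfl
    · exact hs1 (Units.ext (by simpa using hc))
    · exact hsn (by simpa using hc)
  have hle := normal_commutator_OQ (Q := qQ F n) hB
    (by rw [Module.finrank_fintype_fun_eq_card]; omega) (S.comap (oqToGL (qQ F n)))
    (fun y hy x hx => by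
      show oqToGL (qQ F n) (y * x * y⁻¹) ∈ S
      rw [map_mul, map_mul, map_inv]
      exact hnorm _ (by rw [Om, ← qQ_coe, ← map_oqToGL_commutator]; exact ⟨y, hy, rfl⟩) _ hx) ?_
  · rw [Om, ← qQ_coe, ← map_oqToGL_commutator, Subgroup.map_le_iff_le_comap]
    exact hle
  · have hk' := hkO
    rw [Om, ← qQ_coe, ← map_oqToGL_commutator] at hk'
    obtain ⟨g, hg, rfl⟩ := hk'
    refine ⟨g, hkS, hg, ?_⟩
    rintro ⟨c, hc⟩
    have hmat : ((oqToGL (qQ F n) g : GL (Ix n) F) : Matrix (Ix n) (Ix n) F) = c • 1 :=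
      Matrix.toLin'.injective (LinearMap.ext fun v => by
        rw [toLin'_apply, toLin'_apply, oqToGL_mulVec, hc, smul_mulVec, one_mulVec])
    have hsq : c * c = 1 := by
      have h := isometry_transpose_mul h2 (Om_le_OG hkO)
      rw [hmat, transpose_smul, transpose_one, Matrix.smul_mul, one_mul, smul_smul] at h
      have := congrFun (congrFun h fun _ => 0) fun _ => 0
      simpa using this
    rcases mul_self_eq_one_iff.1 hsq with rfl | rfl
    · exact hk (Units.ext (by simpa using hmat))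
    · exact neg_one_not_mem h2 hkO (by simpa using hmat)

end Cfsg.Agent.MaxSub.OWT
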