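import Cfsg.Agent.MaxSub.OrthWreathThree.Basic
import Cfsg.Agent.MaxSub.TensorSquareThree.Matrices

/-!
The dichotomy for two factors of dimension three.
-/

set_option autoImplicit false
set_option linter.unusedSectionVars false
set_option linter.style.haveILetI false

namespace Cfsg.Agent.MaxSub.OWT

open Matrix Cfsg.Geo
open scoped MatrixGroups

variable {F : Type*} [Field F]

/-- The dot product is a symmetric form. -/
lemma isSymmetricForm_dot {ι : Type} [Fintype ι] [DecidableEq ι] :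
    IsSymmetricForm (F := F) (fun u v : ι → F => u ⬝ᵥ v) := by
  refine ⟨⟨fun x y v => add_dotProduct x y v, fun c x v => ?_, fun v x y => dotProduct_add v x y,
    fun c v x => ?_⟩, fun u v => dotProduct_comm u v, fun v hv => ?_⟩
  · simp
  · simp
  · obtain ⟨i, hi⟩ := Function.ne_iff.1 hv
    exact ⟨⟨Pi.single i 1, by simpa [single_one_dotProduct] using hi⟩,
      ⟨Pi.single i 1, by simpa [dotProduct_single_one] using hi⟩⟩

lemma polar_qs {ι : Type} [Fintype ι] (u v : ι → F) :
    QuadraticMap.polar (qs F ι) u v = 2 * (u ⬝ᵥ v) := by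
  simp only [QuadraticMap.polar, qs, add_dotProduct, dotProduct_add, dotProduct_comm v u]
  ring

lemma nondegenerate_qs (h2 : (2 : F) ≠ 0) {ι : Type} [Fintype ι] [DecidableEq ι] :
    IsNondegenerateQuadraticForm (qs F ι) := by
  refine ⟨fun c v => ?_, ⟨fun x y v => ?_, fun c x v => ?_, fun v x y => ?_, fun c v x => ?_⟩,
    fun v hv => ?_⟩
  · simp only [qs, smul_dotProduct, dotProduct_smul, smul_eq_mul]; ring
  · simp only [polar_qs, add_dotProduct]; ring
  · simp only [polar_qs, smul_dotProduct, smul_eq_mul]; ring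
  · simp only [polar_qs, dotProduct_add]; ring
  · simp only [polar_qs, dotProduct_smul, smul_eq_mul]; ring
  · obtain ⟨⟨x, hx⟩, ⟨y, hy⟩⟩ := (isSymmetricForm_dot (F := F)).nondegenerate v hv
    exact ⟨⟨x, by rw [polar_qs]; exact mul_ne_zero h2 hx⟩,
      ⟨y, by rw [polar_qs]; exact mul_ne_zero h2 hy⟩⟩

lemma gramMatrix_dot {ι : Type} [Fintype ι] [DecidableEq ι] :
    gramMatrix (fun u v : ι → F => u ⬝ᵥ v) = 1 := by
  ext a b
  simp [gramMatrix, Matrix.one_apply, Pi.single_apply, eq_comm]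

lemma prod_one_entry {t : ℕ} (a b : Ix t) :
    ∏ i, (1 : Matrix (Fin 3) (Fin 3) F) (a i) (b i) = if a = b then 1 else 0 := by
  by_cases h : a = b
  · subst h; simp
  · obtain ⟨i, hi⟩ := Function.ne_iff.1 h
    rw [if_neg h]
    exact Finset.prod_eq_zero (Finset.mem_univ i) (Matrix.one_apply_ne hi)

/-- The dichotomy for two factors. -/
theorem dicho_two [Finite F] (h2 : (2 : F) ≠ 0) (hq : 5 ≤ Nat.card F) : Dicho F 2 := by
  classical
  haveI := Fintype.ofFinite F
  have hq' : 5 ≤ Fintype.card F := by rwa [Fintype.card_eq_nat_card]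
  have hodd : Odd (Fintype.card F) := by
    refine Nat.odd_iff.2 (FiniteField.odd_card_of_char_ne_two fun h => h2 ?_)
    haveI := ringChar.charP F
    exact_mod_cast (CharP.cast_eq_zero_iff F (ringChar F) 2).2 (h ▸ dvd_rfl)
  have hT : IsTensorPowerFormStructure id (QuadraticMap.polar (qs F (Ix 2)))
      (fun u v : Fin 3 → F => u ⬝ᵥ v) (Equiv.refl (Ix 2)) 1 := by
    refine ⟨2, h2, fun x y => ?_⟩
    rw [Units.val_one, one_mulVec, one_mulVec, polar_qs, gramMatrix_dot]
    simp [prod_one_entry, dotProduct]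
  have hmax := TensorSquareThree.omega_tensor_square_maximal hodd hq' (nondegenerate_qs h2)
    (Equiv.refl (Ix 2)) 1 _ isSymmetricForm_dot hT
  have hst : tensorWreathSubgroup 3 2 (Equiv.refl (Ix 2)) (1 : GL (Ix 2) F) =
      tensorWreathStandard 3 2 F := by
    ext g
    constructor
    · rintro ⟨_, ⟨x, hx, rfl⟩, rfl⟩
      have hid : Units.mapEquiv (AlgEquiv.refl : Matrix (Ix 2) (Ix 2) F ≃ₐ[F] _).toMulEquiv x = x :=
        Units.ext rfl
      simpa [glReindex, hid] using hx
    · intro hg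
      exact ⟨g, ⟨g, hg, Units.ext (by simp [glReindex])⟩, by simp⟩
  rw [hst] at hmax
  intro X hX
  have hWO : WO F 2 = tensorWreathStandard 3 2 F ⊓ Om F 2 := by
    rw [WO, Wr, inf_assoc, inf_eq_right.2 Om_le_OG]
  rcases hmax.2 X (hWO ▸ hX.le) hX.top with h | h
  · exact Or.inl (fun g hg => ⟨(h ▸ hg : g ∈ tensorWreathStandard 3 2 F ⊓ Om F 2).1,
      hX.le_OG hg⟩)
  · exact Or.inr h

end Cfsg.Agent.MaxSub.OWT
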