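import Cfsg.Agent.GeoClasses.Tensor
import Cfsg.Agent.NotMax.PowerSites
import Cfsg.Prelude.Def_GeometricClasses

/-!
The standard model of a tensor power of a three dimensional orthogonal space: the form `x ⬝ᵥ x`
on `(Fin t → Fin 3) → F`, its wreath stabiliser, axes, rows and blocks.
-/

set_option autoImplicit false
set_option linter.unusedSectionVars false

namespace Cfsg.Agent.MaxSub.OWT

open Matrix Cfsg.Geo Cfsg.Agent.GeoClasses Cfsg.Agent.NotMax
open scoped MatrixGroups

variable {F : Type*} [Field F] {t n : ℕ}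

/-- The index set of the tensor power. -/
abbrev Ix (t : ℕ) := Fin t → Fin 3

/-- The sum of squares. -/
def qs (F : Type*) [Field F] (ι : Type) [Fintype ι] : (ι → F) → F := fun x => x ⬝ᵥ x

/-- Its isometries. -/
abbrev OG (F : Type*) [Field F] (t : ℕ) : Subgroup (GL (Ix t) F) :=
  Cfsg.isometryGroup F (qs F (Ix t))

/-- The derived group of the isometries. -/
abbrev Om (F : Type*) [Field F] (t : ℕ) : Subgroup (GL (Ix t) F) := omegaGL (qs F (Ix t))

/-- The isometries of one factor. -/
abbrev O3m (F : Type*) [Field F] : Subgroup (GL (Fin 3) F) := Cfsg.isometryGroup F (qs F (Fin 3))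

/-- The derived group of the isometries of one factor. -/
abbrev U3m (F : Type*) [Field F] : Subgroup (GL (Fin 3) F) := omegaGL (qs F (Fin 3))

/-- The isometries preserving the tensor decomposition. -/
def Wr (F : Type*) [Field F] (t : ℕ) : Subgroup (GL (Ix t) F) :=
  tensorWreathStandard 3 t F ⊓ OG F t

/-- The part of the stabiliser inside `Om`. -/
abbrev WO (F : Type*) [Field F] (t : ℕ) : Subgroup (GL (Ix t) F) := Wr F t ⊓ Om F t

/-- An overgroup of the stabiliser inside `Om`. -/
structure Good (X : Subgroup (GL (Ix t) F)) : Prop where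
  le : WO F t ≤ X
  top : X ≤ Om F t

/-- The dichotomy at `t` factors. -/
def Dicho (F : Type*) [Field F] (t : ℕ) : Prop :=
  ∀ X : Subgroup (GL (Ix t) F), Good X → X ≤ Wr F t ∨ X = Om F t

/-- The rotation by a half turn about a unit vector. -/
def ax (u : Fin 3 → F) : Matrix (Fin 3) (Fin 3) F := 2 • vecMulVec u u - 1

/-- The half turn about a coordinate vector. -/
def fr (F : Type*) [Field F] (i : Fin 3) : GL (Fin 3) F where
  val := diagonal fun j => if j = i then 1 else -1
  inv := diagonal fun j => if j = i then 1 else -1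
  val_inv := by
    rw [diagonal_mul_diagonal, ← diagonal_one]
    congr 1; funext j; split_ifs <;> simp
  inv_val := by
    rw [diagonal_mul_diagonal, ← diagonal_one]
    congr 1; funext j; split_ifs <;> simp

/-- The action of one factor. -/
def gs (r : Fin t) : GL (Fin 3) F →* GL (Ix t) F where
  toFun h :=
    { val := site r (h : Matrix (Fin 3) (Fin 3) F)
      inv := site r ((h⁻¹ : GL (Fin 3) F) : Matrix (Fin 3) (Fin 3) F)
      val_inv := by rw [site_mul, Units.mul_inv, site_one]
      inv_val := by rw [site_mul, Units.inv_mul, site_one] }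
  map_one' := Units.ext (site_one r)
  map_mul' g h := Units.ext (site_mul r _ _).symm

@[simp] lemma gs_val (r : Fin t) (h : GL (Fin 3) F) :
    ((gs r h : GL (Ix t) F) : Matrix (Ix t) (Ix t) F) = site r (h : Matrix (Fin 3) (Fin 3) F) := rfl

/-- A half turn about a unit vector. -/
def IsHalf (h : GL (Fin 3) F) : Prop :=
  ∃ u : Fin 3 → F, u ⬝ᵥ u = 1 ∧ (h : Matrix (Fin 3) (Fin 3) F) = ax u

/-- A half turn about a unit vector in one factor. -/
def IsAxisAt (r : Fin t) (g : GL (Ix t) F) : Prop := ∃ h, IsHalf h ∧ g = gs r h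

/-- A half turn about a unit vector in some factor. -/
def IsAxis (g : GL (Ix t) F) : Prop := ∃ r : Fin t, IsAxisAt r g

/-- The coordinate half turn `i` in the factor `r`. -/
def fa (r : Fin t) (i : Fin 3) : GL (Ix t) F := gs r (fr F i)

/-- Conjugation by `g` carries the axes of each factor to axes of the factor given by `π`. -/
def Moves (g : GL (Ix t) F) (π : Equiv.Perm (Fin t)) : Prop :=
  ∀ (r : Fin t) (x : GL (Ix t) F), IsAxisAt r x → IsAxisAt (π r) (g * x * g⁻¹)

/-- An involution of the stabiliser which is conjugate to an axis. -/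
def IsItem (g : GL (Ix t) F) : Prop :=
  g ∈ WO F t ∧ g * g = 1 ∧ ∃ c x : GL (Ix t) F, IsAxis x ∧ g = c * x * c⁻¹

/-- The first row of blocks is `w`, the others in the first column vanish. -/
def IsRow (g : GL (Ix (n + 1)) F) (w : Matrix (Ix n) (Ix n) F) : Prop :=
  ∀ (i : Fin 3) (u v : Ix n), (g : Matrix (Ix (n + 1)) (Ix (n + 1)) F)
    (Fin.cons i u : Ix (n + 1)) (Fin.cons 0 v : Ix (n + 1)) = if i = 0 then w u v else 0

/-- Block diagonal for the first factor. -/
def IsBlk (g : GL (Ix (n + 1)) F) (A : Fin 3 → Matrix (Ix n) (Ix n) F) : Prop :=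
  ∀ (i j : Fin 3) (u v : Ix n), (g : Matrix (Ix (n + 1)) (Ix (n + 1)) F)
    (Fin.cons i u : Ix (n + 1)) (Fin.cons j v : Ix (n + 1)) = if i = j then A i u v else 0

/-- A matrix on all factors but the first. -/
def liftMat (w : Matrix (Ix n) (Ix n) F) : Matrix (Ix (n + 1)) (Ix (n + 1)) F :=
  fun x y => if x 0 = y 0 then w (Fin.tail x) (Fin.tail y) else 0

lemma liftMat_mul (w w' : Matrix (Ix n) (Ix n) F) :
    liftMat (w * w') = liftMat w * liftMat w' := by
  ext x y
  rw [Matrix.mul_apply, sum_sigma_cons]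
  simp only [liftMat, Fin.cons_zero, Fin.tail_cons, ite_mul, mul_ite, mul_zero, zero_mul]
  by_cases h : x 0 = y 0
  · rw [if_pos h, Finset.sum_eq_single (x 0)]
    · simp [Matrix.mul_apply, h]
    · intro i _ hi; simp [hi.symm]
    · simp
  · rw [if_neg h, Finset.sum_eq_zero]
    intro i _
    refine Finset.sum_eq_zero fun u _ => ?_
    by_cases h1 : i = y 0
    · rw [if_pos h1, if_neg (fun h2 => h (h2.trans h1))]
    · rw [if_neg h1]

lemma liftMat_one : liftMat (1 : Matrix (Ix n) (Ix n) F) = 1 := by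
  ext x y
  simp only [liftMat, Matrix.one_apply]
  by_cases h : x = y
  · subst h; simp
  · rw [if_neg h]
    split_ifs with h0 h1
    · exact absurd (by rw [← Fin.cons_self_tail x, ← Fin.cons_self_tail y, h0, h1]) h
    · rfl
    · rfl

/-- The action on all factors but the first. -/
def liftG : GL (Ix n) F →* GL (Ix (n + 1)) F where
  toFun w :=
    { val := liftMat (w : Matrix (Ix n) (Ix n) F)
      inv := liftMat ((w⁻¹ : GL (Ix n) F) : Matrix (Ix n) (Ix n) F)
      val_inv := by rw [← liftMat_mul, Units.mul_inv, liftMat_one]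
      inv_val := by rw [← liftMat_mul, Units.inv_mul, liftMat_one] }
  map_one' := Units.ext liftMat_one
  map_mul' g h := Units.ext (liftMat_mul _ _)

@[simp] lemma liftG_val (w : GL (Ix n) F) :
    ((liftG w : GL (Ix (n + 1)) F) : Matrix (Ix (n + 1)) (Ix (n + 1)) F) =
      liftMat (w : Matrix (Ix n) (Ix n) F) := rfl

lemma qs_mulVec {ι : Type} [Fintype ι] [DecidableEq ι] (A : Matrix ι ι F) (u : ι → F) :
    qs F ι (A *ᵥ u) = u ⬝ᵥ (Aᵀ * A) *ᵥ u := by
  rw [qs, ← mulVec_mulVec, dotProduct_mulVec u Aᵀ, vecMul_transpose]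

lemma mem_isometry_of {ι : Type} [Fintype ι] [DecidableEq ι] (g : GL ι F)
    (h : (g : Matrix ι ι F)ᵀ * (g : Matrix ι ι F) = 1) :
    g ∈ Cfsg.isometryGroup F (qs F ι) := by
  intro u _
  show qs F ι ((g : Matrix ι ι F) *ᵥ u) = qs F ι u
  rw [qs_mulVec, h, one_mulVec]
  rfl

lemma isometry_transpose_mul {ι : Type} [Fintype ι] [DecidableEq ι] (h2 : (2 : F) ≠ 0)
    {g : GL ι F} (hg : g ∈ Cfsg.isometryGroup F (qs F ι)) :
    (g : Matrix ι ι F)ᵀ * (g : Matrix ι ι F) = 1 := by
  set A := (g : Matrix ι ι F)ᵀ * (g : Matrix ι ι F) with hA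
  have hsym : ∀ i j, A j i = A i j := fun i j => by
    rw [hA, ← transpose_apply ((g : Matrix ι ι F)ᵀ * _) i j, transpose_mul, transpose_transpose]
  have hq : ∀ u, u ⬝ᵥ A *ᵥ u = u ⬝ᵥ u := fun u => (qs_mulVec _ u).symm.trans (hg u u)
  have hii : ∀ k, A k k = 1 := fun k => by
    have h := hq (Pi.single k 1)
    rwa [mulVec_single_one, single_one_dotProduct, Matrix.col_apply, single_one_dotProduct,
      Pi.single_eq_same] at h
  ext i j
  rcases eq_or_ne i j with rfl | hij
  · rw [hii, one_apply_eq]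
  · have h := hq (Pi.single i 1 + Pi.single j 1)
    rw [mulVec_add, mulVec_single_one, mulVec_single_one, dotProduct_add, add_dotProduct,
      add_dotProduct, dotProduct_add, add_dotProduct, add_dotProduct, single_one_dotProduct,
      single_one_dotProduct, single_one_dotProduct, single_one_dotProduct, single_one_dotProduct,
      single_one_dotProduct, single_one_dotProduct, single_one_dotProduct, Pi.single_eq_same,
      Pi.single_eq_same, Pi.single_eq_of_ne hij, Pi.single_eq_of_ne hij.symm, Matrix.col_apply,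
      Matrix.col_apply, Matrix.col_apply, Matrix.col_apply, hii, hii, hsym i j] at h
    rw [one_apply_ne hij]
    exact (mul_eq_zero.1 (by linear_combination h : (2 : F) * A i j = 0)).resolve_left h2

lemma map_conj_self {g : GL (Ix t) F} (hg : g ∈ OG F t) :
    (OG F t).map (MulAut.conj g).toMonoidHom = OG F t := by
  refine le_antisymm (Subgroup.map_le_iff_le_comap.2 fun x hx => ?_) fun x hx => ⟨g⁻¹ * x * g, ?_, ?_⟩
  · exact (OG F t).mul_mem ((OG F t).mul_mem hg hx) ((OG F t).inv_mem hg)
  · exact (OG F t).mul_mem ((OG F t).mul_mem ((OG F t).inv_mem hg) hx) hg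
  · simp [mul_assoc]

lemma Om_le_OG : Om F t ≤ OG F t := Subgroup.map_subtype_le _

lemma Wr_le_OG : Wr F t ≤ OG F t := inf_le_right

lemma U3m_le : U3m F ≤ O3m F := Subgroup.map_subtype_le _

lemma Om_eq : Om F t = ⁅OG F t, OG F t⁆ := by
  rw [Om, omegaGL, Cfsg.Omega, commutator_def, Subgroup.map_commutator, ← MonoidHom.range_eq_map,
    Subgroup.range_subtype]

lemma commutator_mem_Om {g h : GL (Ix t) F} (hg : g ∈ OG F t) (hh : h ∈ OG F t) :
    g * h * g⁻¹ * h⁻¹ ∈ Om F t := by
  rw [Om_eq]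
  exact Subgroup.commutator_mem_commutator hg hh

lemma conj_mem_Om {g x : GL (Ix t) F} (hg : g ∈ OG F t) (hx : x ∈ Om F t) :
    g * x * g⁻¹ ∈ Om F t := by
  have h := Subgroup.mem_map_of_mem (MulAut.conj g).toMonoidHom hx
  rw [Om_eq, Subgroup.map_commutator, map_conj_self hg, ← Om_eq] at h
  exact h

lemma Good.le_OG {X : Subgroup (GL (Ix t) F)} (hX : Good X) : X ≤ OG F t :=
  hX.top.trans Om_le_OG

lemma conj_mem_WO {g x : GL (Ix t) F} (hg : g ∈ Wr F t) (hx : x ∈ WO F t) :
    g * x * g⁻¹ ∈ WO F t :=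
  ⟨(Wr F t).mul_mem ((Wr F t).mul_mem hg hx.1) ((Wr F t).inv_mem hg),
    conj_mem_Om (Wr_le_OG hg) hx.2⟩

/-- Conjugating by the stabiliser keeps the hypotheses. -/
lemma Good.conj {X : Subgroup (GL (Ix t) F)} (hX : Good X) {g : GL (Ix t) F} (hg : g ∈ Wr F t) :
    Good (X.map (MulAut.conj g).toMonoidHom) := by
  refine ⟨fun x hx => ⟨g⁻¹ * x * g, hX.le ?_, by simp [mul_assoc]⟩, ?_⟩
  · simpa using conj_mem_WO ((Wr F t).inv_mem hg) hx
  · rintro _ ⟨x, hx, rfl⟩
    exact conj_mem_Om (Wr_le_OG hg) (hX.top hx)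

end Cfsg.Agent.MaxSub.OWT
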