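import Cfsg.Agent.MaxSub.OrthWreathThree.Basic
import Cfsg.Agent.Forms.OmegaCrit

/-!
Determinant and spinor classes in the tensor power of a three dimensional orthogonal space.
-/

set_option autoImplicit false
set_option linter.unusedSectionVars false

namespace Cfsg.Agent.MaxSub.OWT

open Matrix Cfsg.Geo Cfsg.Agent.GeoClasses Cfsg.Agent.NotMax Cfsg.Agent.Classical QuadraticMap
open scoped MatrixGroups

universe u

variable {F : Type u} [Field F] {t n : ℕ}

section Wreath

theorem site_transpose (r : Fin t) (Y : Matrix (Fin 3) (Fin 3) F) : (site r Y)ᵀ = site r Yᵀ := by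
  rw [site, site, pureMat_transpose]
  congr 1
  funext j
  rcases eq_or_ne j r with rfl | h
  · simp
  · simp [Function.update_of_ne h]

theorem gs_mem_OG (h2 : (2 : F) ≠ 0) (r : Fin t) {h : GL (Fin 3) F} (hh : h ∈ O3m F) :
    gs r h ∈ OG F t :=
  mem_isometry_of _ (by
    rw [gs_val, site_transpose, site_mul, isometry_transpose_mul h2 hh, site_one])

theorem gs_mem_Wr (h2 : (2 : F) ≠ 0) (r : Fin t) {h : GL (Fin 3) F} (hh : h ∈ O3m F) :
    gs r h ∈ Wr F t := by
  refine ⟨Subgroup.subset_closure (Or.inl ⟨Function.update 1 r h, fun x y => ?_⟩), gs_mem_OG h2 r hh⟩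
  show pureMat (Function.update 1 r (h : Matrix (Fin 3) (Fin 3) F)) x y = _
  refine Finset.prod_congr rfl fun i _ => ?_
  rcases eq_or_ne i r with rfl | hi
  · simp
  · simp [Function.update_of_ne hi]

theorem factorPerm_mem_Wr (π : Equiv.Perm (Fin t)) :
    (glFactorPerm 3 π : GL (Ix t) F) ∈ Wr F t := by
  refine ⟨Subgroup.subset_closure (Or.inr ⟨π, fun x y => rfl⟩), mem_isometry_of _ ?_⟩
  show (factorPerm 3 π : Matrix (Ix t) (Ix t) F)ᵀ * factorPerm 3 π = 1
  rw [factorPerm_transpose_mul, factorPerm_mul, inv_mul_cancel, factorPerm_one]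

theorem liftMat_transpose (w : Matrix (Ix n) (Ix n) F) : (liftMat w)ᵀ = liftMat wᵀ := by
  ext x y
  simp only [transpose_apply, liftMat, eq_comm (a := y 0)]

theorem liftG_mem_OG (h2 : (2 : F) ≠ 0) {w : GL (Ix n) F} (hw : w ∈ OG F n) :
    liftG w ∈ OG F (n + 1) :=
  mem_isometry_of _ (by
    rw [liftG_val, liftMat_transpose, ← liftMat_mul, isometry_transpose_mul h2 hw, liftMat_one])

theorem liftG_mem_standard {w : GL (Ix n) F} (hw : w ∈ tensorWreathStandard 3 n F) :
    liftG w ∈ tensorWreathStandard 3 (n + 1) F := by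
  have hle : tensorWreathStandard 3 n F ≤ (tensorWreathStandard 3 (n + 1) F).comap liftG := by
    refine (Subgroup.closure_le _).2 ?_
    rintro g (⟨cs, hcs⟩ | ⟨σ, hσ⟩)
    · refine Subgroup.subset_closure (Or.inl ⟨Fin.cons 1 cs, fun x y => ?_⟩)
      rw [Fin.prod_univ_succ]
      simp only [Fin.cons_zero, Fin.cons_succ, Units.val_one, liftG_val, liftMat, hcs]
      by_cases h : x 0 = y 0
      · rw [if_pos h, h, one_apply_eq, one_mul]; rfl
      · rw [if_neg h, one_apply_ne h, zero_mul]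
    · refine Subgroup.subset_closure (Or.inr ⟨Equiv.Perm.decomposeFin.symm (0, σ), fun x y => ?_⟩)
      simp only [liftG_val, liftMat, hσ]
      rw [← ite_and]
      refine if_congr ⟨fun ⟨h0, h1⟩ => funext fun i => ?_, fun h => ⟨?_, funext fun i => ?_⟩⟩ rfl rfl
      · induction i using Fin.cases with
        | zero => simpa using h0.symm
        | succ i => simpa [Fin.tail] using congrFun h1 i
      · simpa using (congrFun h 0).symm
      · simpa [Fin.tail] using congrFun h i.succ
  exact hle hw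

theorem liftG_mem_Wr (h2 : (2 : F) ≠ 0) {w : GL (Ix n) F} (hw : w ∈ Wr F n) :
    liftG w ∈ Wr F (n + 1) :=
  ⟨liftG_mem_standard hw.1, liftG_mem_OG h2 hw.2⟩

theorem liftG_mem_Om (h2 : (2 : F) ≠ 0) {w : GL (Ix n) F} (hw : w ∈ Om F n) :
    liftG w ∈ Om F (n + 1) := by
  rw [Om_eq] at hw ⊢
  have h := Subgroup.mem_map_of_mem (liftG (n := n) (F := F)) hw
  rw [Subgroup.map_commutator] at h
  have hle : (OG F n).map liftG ≤ OG F (n + 1) :=
    Subgroup.map_le_iff_le_comap.2 fun x hx => liftG_mem_OG h2 hx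
  exact Subgroup.commutator_mono hle hle h

end Wreath

section Classes

variable {ι : Type} [Fintype ι] [DecidableEq ι]

/-- The sum of squares as a quadratic form. -/
def qf (F : Type u) [Field F] (ι : Type) [Fintype ι] : QuadraticForm F (ι → F) where
  toFun := qs F ι
  toFun_smul c v := by simp [qs, smul_dotProduct, dotProduct_smul, mul_assoc]
  exists_companion' := ⟨LinearMap.mk₂ F (fun x y => 2 * (x ⬝ᵥ y))
    (fun x x' y => by simp [add_dotProduct, mul_add])
    (fun c x y => by simp [smul_dotProduct, mul_left_comm])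
    (fun x y y' => by simp [dotProduct_add, mul_add])
    (fun c x y => by simp [dotProduct_smul, mul_left_comm]), fun x y => by
    simp only [qs, LinearMap.mk₂_apply, add_dotProduct, dotProduct_add, dotProduct_comm y x]
    ring⟩

theorem qf_apply (x : ι → F) : qf F ι x = x ⬝ᵥ x := rfl

theorem polar_qf (x y : ι → F) : polar (qf F ι) x y = 2 * (x ⬝ᵥ y) := by
  show qs F ι (x + y) - qs F ι x - qs F ι y = _
  simp only [qs, add_dotProduct, dotProduct_add, dotProduct_comm y x]
  ring

theorem bnondeg_qf (h2 : (2 : F) ≠ 0) : BNondeg (qf F ι) := fun x hx => funext fun i => by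
  have h := hx (Pi.single i 1)
  rw [polar_qf, dotProduct_single, mul_one, mul_eq_zero] at h
  exact h.resolve_left h2

variable [Finite F]

/-- The determinant and spinor class of an isometry of the sum of squares. -/
noncomputable def cls (h2 : (2 : F) ≠ 0) :
    ↥(Cfsg.isometryGroup F (qs F ι)) →* ℤˣ × ℤˣ :=
  (OrthGen.sgnHom (bnondeg_qf h2)
    (OrthGen.RQ_eq_top (bnondeg_qf h2) (OrthGen.notExceptional_of_two_ne_zero h2))).comp
      (OrthGen.matEquiv (qf F ι)).toMonoidHom

theorem mem_omega_iff (h2 : (2 : F) ≠ 0) (hn : 2 ≤ Fintype.card ι) {g : GL ι F}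
    (hg : g ∈ Cfsg.isometryGroup F (qs F ι)) :
    g ∈ omegaGL (qs F ι) ↔ cls h2 ⟨g, hg⟩ = 1 := by
  have h : g ∈ omegaGL (qs F ι) ↔
      (⟨g, hg⟩ : ↥(Cfsg.isometryGroup F ⇑(qf F ι))) ∈ Cfsg.Omega F ⇑(qf F ι) := by
    constructor
    · rintro ⟨x, hx, rfl⟩; exact hx
    · exact fun hx => ⟨_, hx, rfl⟩
  rw [h, Forms.mem_Omega_iff_matEquiv, OrthGen.commutator_eq_ker_sgnHom h2 (bnondeg_qf h2)
    (by rwa [Module.finrank_fintype_fun_eq_card])
    (OrthGen.RQ_eq_top (bnondeg_qf h2) (OrthGen.notExceptional_of_two_ne_zero h2))]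
  rfl

theorem sign_mul_self (x : ℤˣ × ℤˣ) : x * x = 1 :=
  Prod.ext (Int.units_mul_self _) (Int.units_mul_self _)

theorem sign_inv (x : ℤˣ × ℤˣ) : x⁻¹ = x := inv_eq_of_mul_eq_one_right (sign_mul_self x)

theorem sign_pow_odd (x : ℤˣ × ℤˣ) {m : ℕ} (hm : Odd m) : x ^ m = x := by
  obtain ⟨k, rfl⟩ := hm
  rw [pow_succ, pow_mul, pow_two, sign_mul_self, one_pow, one_mul]

theorem orth_refls_apply {κ : Type*} (c : κ → ι → F) (hc : ∀ k, qf F ι (c k) ≠ 0)
    (ho : ∀ i j, i ≠ j → polar (qf F ι) (c i) (c j) = 0) (s : List κ) (hs : s.Nodup) (v : ι → F) :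
    (Forms.refls (qf F ι) (s.map fun k => ⟨c k, hc k⟩)).1 v =
      v - (s.map fun k => ((qf F ι (c k))⁻¹ * polar (qf F ι) (c k) v) • c k).sum := by
  induction s generalizing v with
  | nil => simp
  | cons a s ih =>
    rw [List.map_cons, Forms.refls_cons, Subgroup.coe_mul, LinearEquiv.mul_apply,
      ih (List.nodup_cons.1 hs).2 v, reflQ_apply]
    have hp : polar (qf F ι) (c a)
        (v - (s.map fun k => ((qf F ι (c k))⁻¹ * polar (qf F ι) (c k) v) • c k).sum)
          = polar (qf F ι) (c a) v := by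
      rw [polar_sub_right, sub_eq_self]
      show (qf F ι).polarBilin (c a) _ = 0
      rw [map_list_sum]
      refine List.sum_eq_zero fun y hy => ?_
      obtain ⟨z, hz, rfl⟩ := List.mem_map.1 hy
      obtain ⟨k, hk, rfl⟩ := List.mem_map.1 hz
      rw [map_smul, polarBilin_apply_apply, ho a k (fun e => (List.nodup_cons.1 hs).1 (e ▸ hk)),
        smul_zero]
    simp only [hp, List.map_cons, List.sum_cons]
    abel

end Classes

section Factor

theorem pureVec_dot (y z : Fin t → Fin 3 → F) :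
    (pureVec y : Ix t → F) ⬝ᵥ pureVec z = ∏ i, y i ⬝ᵥ z i := by
  simp only [dotProduct, pureVec, ← Finset.prod_mul_distrib]
  exact (Fintype.prod_sum fun i (l : Fin 3) => y i l * z i l).symm

theorem pureVec_update (y : Fin t → Fin 3 → F) (r : Fin t) (w : Fin 3 → F) (x : Ix t) :
    pureVec (Function.update y r w) x = w (x r) * ∏ i ∈ Finset.univ.erase r, y i (x i) := by
  simp only [pureVec]
  rw [← Finset.mul_prod_erase Finset.univ _ (Finset.mem_univ r), Function.update_self]
  congr 1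
  exact Finset.prod_congr rfl fun i hi => by rw [Function.update_of_ne (Finset.ne_of_mem_erase hi)]

/-- Coordinate vectors in every factor. -/
def unitFam (z : Ix t) : Fin t → Fin 3 → F := fun i => Pi.single (z i) 1

/-- The vector carrying a reflection of the factor `r`. -/
def colVec (r : Fin t) (a : Fin 3 → F) (z : Ix t) : Ix t → F :=
  pureVec (Function.update (unitFam z) r a)

theorem colVec_dot (r : Fin t) (a b : Fin 3 → F) (z z' : Ix t) :
    (colVec r a z) ⬝ᵥ (colVec r b z') =
      if ∀ i, i ≠ r → z i = z' i then a ⬝ᵥ b else 0 := by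
  rw [colVec, colVec, pureVec_dot, ← Finset.mul_prod_erase Finset.univ _ (Finset.mem_univ r),
    Function.update_self, Function.update_self]
  by_cases h : ∀ i, i ≠ r → z i = z' i
  · rw [if_pos h, Finset.prod_eq_one, mul_one]
    intro i hi
    have hir := Finset.ne_of_mem_erase hi
    simp [Function.update_of_ne hir, unitFam, h i hir]
  · rw [if_neg h]
    push Not at h
    obtain ⟨i, hir, hi⟩ := h
    rw [Finset.prod_eq_zero (Finset.mem_erase.2 ⟨hir, Finset.mem_univ i⟩), mul_zero]
    simp [Function.update_of_ne hir, unitFam, hi.symm]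

theorem odd_card_slice (r : Fin t) : Odd (Fintype.card {z : Ix t // z r = 0}) := by
  let e : Fin 3 × {z : Ix t // z r = 0} ≃ Ix t :=
    { toFun := fun p => Function.update p.2.1 r p.1
      invFun := fun z => (z r, ⟨Function.update z r 0, Function.update_self _ _ _⟩)
      left_inv := fun p => by
        obtain ⟨i, z, hz⟩ := p
        simp [← hz]
      right_inv := fun z => by simp }
  have h := Fintype.card_congr e
  rw [Fintype.card_prod, Fintype.card_fun, Fintype.card_fin, Fintype.card_fin] at h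
  exact (Odd.pow (by decide : Odd 3)).of_dvd_nat ⟨3, by rw [← h, mul_comm]⟩

variable [Finite F]

/-- The action of one factor on isometry groups. -/
def gsO (h2 : (2 : F) ≠ 0) (r : Fin t) : ↥(O3m F) →* ↥(OG F t) :=
  ((gs r).comp (O3m F).subtype).codRestrict _ fun h => gs_mem_OG h2 r h.2

theorem cls_gs_refl (h2 : (2 : F) ≠ 0) (r : Fin t) (a : Fin 3 → F) (ha : qf F (Fin 3) a ≠ 0) :
    cls h2 (gsO h2 r ((OrthGen.matEquiv (qf F (Fin 3))).symm (reflQ (qf F (Fin 3)) a ha))) =
      cls h2 ((OrthGen.matEquiv (qf F (Fin 3))).symm (reflQ (qf F (Fin 3)) a ha)) := by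
  classical
  set k : ↥(O3m F) := (OrthGen.matEquiv (qf F (Fin 3))).symm (reflQ (qf F (Fin 3)) a ha) with hk
  have hkv : ∀ v, ((k : GL (Fin 3) F) : Matrix (Fin 3) (Fin 3) F) *ᵥ v =
      v - ((a ⬝ᵥ a)⁻¹ * (2 * (a ⬝ᵥ v))) • a := by
    intro v
    rw [hk, ← polar_qf]
    exact (Forms.matEquiv_symm_mulVec (qf F (Fin 3)) _ v).trans ((reflQ_apply _ _ _ v).trans rfl)
  let c : {z : Ix t // z r = 0} → Ix t → F := fun z => colVec r a z.1
  have hval : ∀ z, qf F (Ix t) (c z) = a ⬝ᵥ a := fun z => by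
    rw [qf_apply, colVec_dot, if_pos fun i _ => rfl]
  have hc : ∀ z, qf F (Ix t) (c z) ≠ 0 := fun z => by rw [hval]; exact ha
  have ho : ∀ i j, i ≠ j → polar (qf F (Ix t)) (c i) (c j) = 0 := by
    intro i j hij
    rw [polar_qf, colVec_dot, if_neg, mul_zero]
    intro h
    refine hij (Subtype.ext (funext fun l => ?_))
    rcases eq_or_ne l r with rfl | hl
    · rw [i.2, j.2]
    · exact h l hl
  set s := (Finset.univ : Finset {z : Ix t // z r = 0}).toList with hs
  set g := Forms.refls (qf F (Ix t)) (s.map fun z => ⟨c z, hc z⟩) with hg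
  have hact : ∀ z, g.1 (Pi.single z 1) = site r ((k : GL (Fin 3) F) : Matrix (Fin 3) (Fin 3) F) *ᵥ
      Pi.single z 1 := by
    intro z
    rw [hg, orth_refls_apply c hc ho s (Finset.nodup_toList _), hs, Finset.sum_map_toList,
      Finset.sum_eq_single (⟨Function.update z r 0, Function.update_self _ _ _⟩ :
        {z : Ix t // z r = 0})]
    · have h0 : (Pi.single z 1 : Ix t → F) = colVec r (Pi.single (z r) 1) z := by
        rw [single_eq_pureVec, colVec]
        congr 1
        exact (Function.update_eq_self r _).symm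
      have h1 : (Pi.single z 1 : Ix t → F) =
          pureVec (Function.update (unitFam z) r (Pi.single (z r) 1)) := h0
      rw [hval, polar_qf]
      conv_lhs => enter [2, 1, 2, 2]; rw [h0]
      rw [colVec_dot, if_pos fun i hi => Function.update_of_ne hi _ _]
      conv_rhs => rw [h1, site_mulVec, Function.update_idem, Function.update_self, hkv]
      funext x
      have he : colVec r a (Function.update z r 0) x =
          a (x r) * ∏ i ∈ Finset.univ.erase r, (unitFam z : Fin t → Fin 3 → F) i (x i) := by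
        rw [colVec, pureVec_update]
        congr 1
        refine Finset.prod_congr rfl fun i hi => ?_
        simp [unitFam, Function.update_of_ne (Finset.ne_of_mem_erase hi)]
      simp only [Pi.sub_apply, Pi.smul_apply, smul_eq_mul, pureVec_update, h1]
      show _ - _ * c _ x = _
      rw [show c ⟨Function.update z r 0, Function.update_self _ _ _⟩ x =
        colVec r a (Function.update z r 0) x from rfl, he]
      ring
    · intro y _ hy
      rw [polar_qf, show (Pi.single z 1 : Ix t → F) = colVec r (Pi.single (z r) 1) z by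
          rw [single_eq_pureVec, colVec]
          congr 1
          exact (Function.update_eq_self r _).symm,
        colVec_dot, if_neg, mul_zero, mul_zero, zero_smul]
      intro h
      refine hy (Subtype.ext (funext fun l => ?_))
      rcases eq_or_ne l r with rfl | hl
      · show y.1 l = Function.update z l 0 l
        rw [y.2, Function.update_self]
      · show y.1 l = Function.update z r 0 l
        rw [Function.update_of_ne hl]; exact h l hl
    · exact fun h => absurd (Finset.mem_univ _) h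
  have hgk : OrthGen.matEquiv (qf F (Ix t)) (gsO h2 r k) = g := by
    refine Subtype.ext (LinearEquiv.toLinearMap_injective
      (LinearMap.pi_ext' fun z => LinearMap.ext_ring ?_))
    simp only [LinearMap.coe_comp, LinearMap.coe_single, Function.comp_apply, LinearEquiv.coe_coe]
    exact (OrthGen.matEquiv_apply (qf F (Ix t)) _ _).trans (hact z).symm
  set hR := OrthGen.RQ_eq_top (bnondeg_qf (ι := Ix t) h2) (OrthGen.notExceptional_of_two_ne_zero h2)
  set hR3 := OrthGen.RQ_eq_top (bnondeg_qf (ι := Fin 3) h2)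
    (OrthGen.notExceptional_of_two_ne_zero h2)
  show OrthGen.sgnHom _ hR (OrthGen.matEquiv (qf F (Ix t)) (gsO h2 r k)) =
    OrthGen.sgnHom _ hR3 (OrthGen.matEquiv (qf F (Fin 3)) k)
  rw [hgk, hk, MulEquiv.apply_symm_apply, hg, Forms.refls, map_list_prod, List.map_map, List.map_map]
  rw [List.prod_eq_pow_card _ (OrthGen.sgnHom (bnondeg_qf h2) hR3 (reflQ (qf F (Fin 3)) a ha))]
  · rw [List.length_map, hs, Finset.length_toList, Finset.card_univ,
      sign_pow_odd _ (odd_card_slice r)]
  · intro x hx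
    obtain ⟨z, -, rfl⟩ := List.mem_map.1 hx
    show OrthGen.sgnHom _ hR (reflQ (qf F (Ix t)) (c z) (hc z)) = _
    rw [OrthGen.sgnHom_refl h2, OrthGen.sgnHom_refl h2, hval, qf_apply]

/-- One factor induces the classes of the three dimensional space. -/
theorem cls_gsO (h2 : (2 : F) ≠ 0) (r : Fin t) (k : ↥(O3m F)) :
    cls h2 (gsO h2 r k) = cls h2 k := by
  let φ : ↥(OQ (qf F (Fin 3))) →* ℤˣ × ℤˣ :=
    ((cls h2).comp (gsO h2 r)).comp (OrthGen.matEquiv (qf F (Fin 3))).symm.toMonoidHom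
  let ψ : ↥(OQ (qf F (Fin 3))) →* ℤˣ × ℤˣ :=
    (cls h2).comp (OrthGen.matEquiv (qf F (Fin 3))).symm.toMonoidHom
  have key : ∀ l, φ (Forms.refls (qf F (Fin 3)) l) = ψ (Forms.refls (qf F (Fin 3)) l) := by
    intro l
    induction l with
    | nil => rw [Forms.refls_nil, map_one, map_one]
    | cons x l ih =>
      rw [Forms.refls_cons, map_mul, map_mul, ih]
      congr 1
      exact cls_gs_refl h2 r x.1 x.2
  obtain ⟨l, hl⟩ := Forms.exists_refls (OrthGen.RQ_eq_top (bnondeg_qf (ι := Fin 3) h2)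
    (OrthGen.notExceptional_of_two_ne_zero h2)) (OrthGen.matEquiv (qf F (Fin 3)) k)
  rw [← (OrthGen.matEquiv (qf F (Fin 3))).symm_apply_apply k, hl]
  exact key l

theorem two_le_card_Ix (r : Fin t) : 2 ≤ Fintype.card (Ix t) := by
  rw [Fintype.card_fun, Fintype.card_fin, Fintype.card_fin]
  calc 2 ≤ 3 ^ 1 := by norm_num
    _ ≤ 3 ^ t := Nat.pow_le_pow_right (by norm_num) r.pos

theorem gs_mem_Om_iff (h2 : (2 : F) ≠ 0) (r : Fin t) {h : GL (Fin 3) F} (hh : h ∈ O3m F) :
    gs r h ∈ Om F t ↔ h ∈ U3m F := by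
  rw [mem_omega_iff h2 (two_le_card_Ix r) (gs_mem_OG h2 r hh),
    mem_omega_iff h2 (by rw [Fintype.card_fin]; norm_num) hh, ← cls_gsO h2 r ⟨h, hh⟩]
  rfl

theorem gs_mul_gs_mem_Om (h2 : (2 : F) ≠ 0) (r s : Fin t) {h : GL (Fin 3) F} (hh : h ∈ O3m F) :
    gs r h * gs s h ∈ Om F t := by
  rw [mem_omega_iff h2 (two_le_card_Ix r) (mul_mem (gs_mem_OG h2 r hh) (gs_mem_OG h2 s hh))]
  show cls h2 (gsO h2 r ⟨h, hh⟩ * gsO h2 s ⟨h, hh⟩) = 1
  rw [map_mul, cls_gsO, cls_gsO, sign_mul_self]

/-- Fixing the first coordinate line. -/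
def FixZero (k : GL (Fin 3) F) : Prop :=
  ∀ j, (k : Matrix (Fin 3) (Fin 3) F) 0 j = (if j = 0 then 1 else 0) ∧
    (k : Matrix (Fin 3) (Fin 3) F) j 0 = (if j = 0 then 1 else 0)

theorem FixZero.mul {a b : GL (Fin 3) F} (ha : FixZero a) (hb : FixZero b) : FixZero (a * b) := by
  intro j
  rw [Units.val_mul]
  constructor
  · rw [Matrix.mul_apply, Finset.sum_eq_single 0 (fun i _ hi => by rw [(ha i).1, if_neg hi, zero_mul])
      (by simp), (ha 0).1, if_pos rfl, one_mul, (hb j).1]
  · rw [Matrix.mul_apply, Finset.sum_eq_single 0 (fun i _ hi => by rw [(hb i).2, if_neg hi, mul_zero])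
      (by simp), (hb 0).2, if_pos rfl, mul_one, (ha j).2]

theorem FixZero.comm {k : GL (Fin 3) F} (hk : FixZero k) : k * fr F 0 = fr F 0 * k := by
  refine Units.ext (Matrix.ext fun i j => ?_)
  show ((k : Matrix (Fin 3) (Fin 3) F) * diagonal fun l : Fin 3 => if l = 0 then (1 : F) else -1) i j =
    ((diagonal fun l : Fin 3 => if l = 0 then (1 : F) else -1) * (k : Matrix (Fin 3) (Fin 3) F)) i j
  rw [Matrix.mul_diagonal, Matrix.diagonal_mul]
  by_cases hi : i = 0 <;> by_cases hj : j = 0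
  · simp [hi, hj]
  · simp [hi, hj, (hk j).1]
  · simp [hi, hj, (hk i).2]
  · simp [hi, hj]

theorem exists_fixZero_refl (h2 : (2 : F) ≠ 0) {d : F} (hd : d ≠ 0) :
    ∃ k : ↥(O3m F), FixZero (k : GL (Fin 3) F) ∧
      (IsSquare d → cls h2 k = (-1, -1)) ∧ (¬ IsSquare d → cls h2 k = (-1, 1)) := by
  classical
  have := Fintype.ofFinite F
  have hodd : Fintype.card F % 2 = 1 :=
    FiniteField.odd_card_of_char_ne_two fun hc => h2 (by
      have : CharP F 2 := by rw [← hc]; infer_instance
      exact_mod_cast CharP.cast_eq_zero F 2)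
  open Polynomial in
  obtain ⟨b, c, hbc⟩ := FiniteField.exists_root_sum_quadratic
    (f := (X ^ 2 + C (-d) : F[X])) (g := (X ^ 2 : F[X]))
    (degree_X_pow_add_C (by norm_num) _) (by rw [degree_X_pow]; rfl) hodd
  simp at hbc
  set a : Fin 3 → F := ![0, b, c] with ha
  have haa : qf F (Fin 3) a = d := by
    rw [qf_apply, ha]
    simp [dotProduct, Fin.sum_univ_three]
    linear_combination hbc
  have ha0 : qf F (Fin 3) a ≠ 0 := haa ▸ hd
  refine ⟨(OrthGen.matEquiv (qf F (Fin 3))).symm (reflQ (qf F (Fin 3)) a ha0), fun j => ?_, fun hsq => ?_, fun hsq => ?_⟩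
  · have hcol : ∀ i l, ((((OrthGen.matEquiv (qf F (Fin 3))).symm (reflQ (qf F (Fin 3)) a ha0) :
        ↥(O3m F)) : GL (Fin 3) F) : Matrix (Fin 3) (Fin 3) F) i l =
        (Pi.single l (1 : F) : Fin 3 → F) i - d⁻¹ * (2 * a l) * a i := by
      intro i l
      have h := congrFun ((Forms.matEquiv_symm_mulVec (qf F (Fin 3)) (reflQ (qf F (Fin 3)) a ha0)
        (Pi.single l 1)).trans (reflQ_apply _ _ _ (Pi.single l 1))) i
      rw [mulVec_single_one, Matrix.col_apply, Pi.sub_apply, Pi.smul_apply, polar_qf,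
        dotProduct_single, mul_one, haa, smul_eq_mul] at h
      exact h
    have a0 : a 0 = 0 := by simp [ha]
    rw [hcol, hcol, a0]
    constructor <;> by_cases hj : j = 0 <;> simp [hj, Ne.symm, a0]
  all_goals
    show OrthGen.sgnHom _ _ (OrthGen.matEquiv (qf F (Fin 3))
      ((OrthGen.matEquiv (qf F (Fin 3))).symm (reflQ (qf F (Fin 3)) a ha0))) = _
    rw [MulEquiv.apply_symm_apply, OrthGen.sgnHom_refl h2, haa]
    simp [hsq]

theorem sign_cases : ∀ x : ℤˣ × ℤˣ, x = 1 ∨ x = (-1, -1) ∨ x = (-1, 1) ∨ x = (-1, -1) * (-1, 1) := by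
  decide

theorem exists_fixZero_cls (h2 : (2 : F) ≠ 0) (x : ℤˣ × ℤˣ) :
    ∃ k : ↥(O3m F), FixZero (k : GL (Fin 3) F) ∧ cls h2 k = x := by
  classical
  have := Fintype.ofFinite F
  obtain ⟨ν, hν⟩ := FiniteField.exists_nonsquare (F := F) fun hc => h2 (by
    have : CharP F 2 := by rw [← hc]; infer_instance
    exact_mod_cast CharP.cast_eq_zero F 2)
  obtain ⟨A, hA, eA, -⟩ := exists_fixZero_refl h2 (one_ne_zero (α := F))
  obtain ⟨B, hB, -, eB⟩ := exists_fixZero_refl h2 (d := ν) (fun h => hν (h ▸ IsSquare.zero))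
  rcases sign_cases x with e | e | e | e
  · exact ⟨1, fun j => ⟨by simp [Matrix.one_apply, eq_comm], by simp [Matrix.one_apply]⟩,
      by rw [map_one, e]⟩
  · exact ⟨A, hA, (eA IsSquare.one).trans e.symm⟩
  · exact ⟨B, hB, (eB hν).trans e.symm⟩
  · exact ⟨A * B, hA.mul hB, by rw [map_mul, eA IsSquare.one, eB hν, e]⟩

theorem cls_gsO_mul (h2 : (2 : F) ≠ 0) (r : Fin t) (k : ↥(O3m F)) (g : ↥(OG F t))
    (h : cls h2 k = cls h2 g) : cls h2 (gsO h2 r k * g) = 1 := by
  rw [map_mul, cls_gsO, h, sign_mul_self]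

theorem exists_stab_Om (h2 : (2 : F) ≠ 0) (r : Fin t) {g : GL (Ix t) F} (hg : g ∈ OG F t) :
    ∃ k ∈ O3m F, k * fr F 0 = fr F 0 * k ∧ (k : Matrix (Fin 3) (Fin 3) F) 0 0 = 1 ∧
      gs r k * g ∈ Om F t := by
  obtain ⟨k, hk, ek⟩ := exists_fixZero_cls h2 (cls h2 ⟨g, hg⟩)
  refine ⟨(k : GL (Fin 3) F), k.2, hk.comm, (hk 0).1.trans (if_pos rfl), ?_⟩
  rw [mem_omega_iff h2 (two_le_card_Ix r) (mul_mem (gs_mem_OG h2 r k.2) hg)]
  exact cls_gsO_mul h2 r k ⟨g, hg⟩ ek

/-- A sign diagonal of determinant one lies in `Om`. -/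
theorem diag_mem_Om (h2 : (2 : F) ≠ 0) (d : Ix t → F) (hd : ∀ x, d x * d x = 1)
    (hp : ∏ x, d x = 1) {g : GL (Ix t) F} (hg : (g : Matrix (Ix t) (Ix t) F) = diagonal d) :
    g ∈ Om F t := by
  classical
  let c : {x : Ix t // d x ≠ 1} → Ix t → F := fun x => Pi.single x.1 1
  have hval : ∀ x, qf F (Ix t) (c x) = 1 := fun x => by simp [qf_apply, c]
  have hdx : ∀ x, d x ≠ 1 → d x = -1 := fun x hx =>
    ((mul_self_eq_one_iff.1 (hd x)).resolve_left hx)
  obtain ⟨e, he, hmem⟩ := Forms.exists_orthProd (bnondeg_qf (ι := Ix t) h2)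
    (OrthGen.notExceptional_of_two_ne_zero h2) c (fun x => by rw [hval]; exact one_ne_zero)
    (fun i j hij => by
      have : i.1 ≠ j.1 := fun h => hij (Subtype.ext h)
      simp [polar_qf, c, this.symm])
  have hgO : g ∈ OG F t := mem_isometry_of g (by
    rw [hg, diagonal_transpose, diagonal_mul_diagonal, ← diagonal_one]
    exact congrArg diagonal (funext hd))
  have hge : OrthGen.matEquiv (qf F (Ix t)) ⟨g, hgO⟩ = e := by
    refine Subtype.ext (LinearEquiv.ext fun v => ?_)
    refine (OrthGen.matEquiv_apply (qf F (Ix t)) _ v).trans ?_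
    show (g : Matrix (Ix t) (Ix t) F) *ᵥ v = e.1 v
    rw [he, hg]
    funext y
    rw [mulVec_diagonal, Pi.sub_apply, Finset.sum_apply]
    simp only [Pi.smul_apply, hval, polar_qf, smul_eq_mul, c, single_one_dotProduct, inv_one,
      one_mul]
    by_cases hy : d y = 1
    · rw [Finset.sum_eq_zero, hy, one_mul, sub_zero]
      intro x _
      rw [Pi.single_eq_of_ne (fun h => x.2 (by rw [← h]; exact hy)), mul_zero]
    · rw [Finset.sum_eq_single (⟨y, hy⟩ : {x : Ix t // d x ≠ 1}), hdx y hy, Pi.single_eq_same]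
      · ring
      · intro x _ hx
        rw [Pi.single_eq_of_ne (fun h => hx (Subtype.ext h.symm)), mul_zero]
      · exact fun h => absurd (Finset.mem_univ _) h
  have heven : Even (Fintype.card {x : Ix t // d x ≠ 1}) := by
    rcases Nat.even_or_odd (Fintype.card {x : Ix t // d x ≠ 1}) with h | h
    · exact h
    · exfalso
      apply h2
      have h1 : ∏ x, d x = ∏ x ∈ Finset.univ.filter (fun x => d x ≠ 1), d x := by
        rw [Finset.prod_filter_ne_one]
      rw [h1, Finset.prod_congr rfl fun x hx => hdx x (Finset.mem_filter.1 hx).2,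
        Finset.prod_const, ← Fintype.card_subtype, h.neg_one_pow] at hp
      linear_combination -hp
  have hk : (⟨g, hgO⟩ : ↥(Cfsg.isometryGroup F ⇑(qf F (Ix t)))) ∈ Cfsg.Omega F ⇑(qf F (Ix t)) := by
    rw [Forms.mem_Omega_iff_matEquiv]
    exact hge ▸ hmem.2 ⟨heven, by simp only [hval, Finset.prod_const_one]; exact IsSquare.one⟩
  exact ⟨_, hk, rfl⟩

end Factor

end Cfsg.Agent.MaxSub.OWT
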