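import Mathlib
import Cfsg.Agent.MaxSub.OrthWreathThree.Basic
import Cfsg.Agent.GeoClasses.FormDecomp

/-!
Involutions of the stabiliser: the signature of the fixed space decides which of them are conjugate
to a half turn in one factor, and to products of two or three of them.
-/

set_option autoImplicit false
set_option linter.unusedSectionVars false

namespace Cfsg.Agent.MaxSub.OWT

open Matrix Module Cfsg.Geo Cfsg.Agent.GeoClasses Cfsg.Agent.NotMax
open scoped MatrixGroups

variable {F : Type*} [Field F] {t : ℕ}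

/-! ### Normal form of the stabiliser -/

lemma glPure_mul_glPure (A B : Fin t → GL (Fin 3) F) :
    glPure A * glPure B = glPure (A * B) := Units.ext (pureMat_mul _ _)

lemma glPure_one' : glPure (1 : Fin t → GL (Fin 3) F) = 1 := Units.ext (pureMat_one 3 t)

lemma glFactorPerm_mul' (π ρ : Equiv.Perm (Fin t)) :
    (glFactorPerm 3 π * glFactorPerm 3 ρ : GL (Ix t) F) = glFactorPerm 3 (π * ρ) :=
  Units.ext (factorPerm_mul _ _)

lemma glFactorPerm_one' : (glFactorPerm 3 (1 : Equiv.Perm (Fin t)) : GL (Ix t) F) = 1 :=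
  Units.ext (factorPerm_one 3 t)

lemma perm_mul_glPure (π : Equiv.Perm (Fin t)) (B : Fin t → GL (Fin 3) F) :
    glFactorPerm 3 π * glPure B = glPure (fun i => B (π.symm i)) * glFactorPerm 3 π := by
  refine Units.ext (Eq.symm ?_)
  show pureMat _ * factorPerm 3 π = factorPerm 3 π * pureMat _
  rw [pureMat_mul_factorPerm]
  simp

lemma form_mul (A B : Fin t → GL (Fin 3) F) (π ρ : Equiv.Perm (Fin t)) :
    glPure A * glFactorPerm 3 π * (glPure B * glFactorPerm 3 ρ) =
      glPure (fun i => A i * B (π.symm i)) * glFactorPerm 3 (π * ρ) := by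
  rw [mul_assoc, ← mul_assoc (glFactorPerm 3 π), perm_mul_glPure, mul_assoc, glFactorPerm_mul',
    ← mul_assoc, glPure_mul_glPure]
  rfl

lemma exists_form_std {g : GL (Ix t) F} (hg : g ∈ tensorWreathStandard 3 t F) :
    ∃ (π : Equiv.Perm (Fin t)) (A : Fin t → GL (Fin 3) F),
      g = glPure A * glFactorPerm 3 π := by
  induction hg using Subgroup.closure_induction with
  | mem x hx =>
    rcases hx with ⟨As, h⟩ | ⟨σ, h⟩
    · exact ⟨1, As, by rw [glFactorPerm_one', mul_one]; exact Units.ext (by ext x y; exact h x y)⟩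
    · exact ⟨σ, 1, by rw [glPure_one', one_mul]; exact Units.ext (by ext x y; exact h x y)⟩
  | one => exact ⟨1, 1, by rw [glPure_one', glFactorPerm_one', one_mul]⟩
  | mul x y _ _ hx hy =>
    obtain ⟨π, A, rfl⟩ := hx
    obtain ⟨ρ, B, rfl⟩ := hy
    exact ⟨π * ρ, _, form_mul A B π ρ⟩
  | inv x _ hx =>
    obtain ⟨π, A, rfl⟩ := hx
    refine ⟨π⁻¹, fun i => (A (π i))⁻¹, inv_eq_of_mul_eq_one_right ?_⟩
    rw [form_mul, mul_inv_cancel, glFactorPerm_one', mul_one,
      show (fun i => A i * (A (π (π.symm i)))⁻¹) = 1 from funext fun i => by simp, glPure_one']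

lemma pureMat_smul_one_iff {A : Fin t → Matrix (Fin 3) (Fin 3) F}
    (h : pureMat A = 1) (i : Fin t) : ∃ c : F, c ≠ 0 ∧ A i = c • (1 : Matrix (Fin 3) (Fin 3) F) :=
  pureMat_eq_smul_pureMat (A := A) (B := fun _ => 1) (s := (1 : F))
    (by rw [h, pureMat_one, one_smul]) one_ne_zero (fun _ => one_ne_zero) i

/-- a. The elements of the stabiliser: orthogonal factors and a permutation. -/
lemma exists_form (h2 : (2 : F) ≠ 0) {g : GL (Ix t) F} (hg : g ∈ Wr F t) :
    ∃ (π : Equiv.Perm (Fin t)) (A : Fin t → GL (Fin 3) F),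
      (∀ i, A i ∈ O3m F) ∧ g = glPure A * glFactorPerm 3 π := by
  obtain ⟨π, A, rfl⟩ := exists_form_std hg.1
  have horth := isometry_transpose_mul h2 hg.2
  set a : Fin t → Matrix (Fin 3) (Fin 3) F := fun i => A i with ha
  have h1 : (pureMat a * factorPerm 3 π)ᵀ * (pureMat a * factorPerm 3 π) = 1 := horth
  have h3 : pureMat (fun i => (a i)ᵀ * a i) = 1 := by
    rw [transpose_mul, factorPerm_transpose_mul, pureMat_transpose] at h1
    have := congrArg (fun X => factorPerm 3 π * X * factorPerm 3 π⁻¹) h1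
    simp only [← mul_assoc, factorPerm_mul, mul_inv_cancel, factorPerm_one, one_mul] at this
    simp only [mul_assoc, factorPerm_mul, mul_inv_cancel, factorPerm_one, mul_one] at this
    rw [← pureMat_mul]
    simpa [factorPerm_mul, factorPerm_one] using this
  choose c hc0 hc using fun i => pureMat_smul_one_iff h3 i
  set d : Fin t → F := fun i => (a i).det with hd
  have hd0 : ∀ i, d i ≠ 0 := fun i => ((isUnit_iff_isUnit_det (a i)).1 (A i).isUnit).ne_zero
  have hdd : ∀ i, d i * d i = c i * c i * c i := fun i => by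
    have := congrArg det (hc i)
    rw [det_mul, det_transpose, det_smul, det_one, Fintype.card_fin, mul_one] at this
    simp only [hd]; linear_combination this
  set μ : Fin t → F := fun i => c i / d i with hμ
  have hμ0 : ∀ i, μ i ≠ 0 := fun i => div_ne_zero (hc0 i) (hd0 i)
  have hμc : ∀ i, μ i * μ i * c i = 1 := fun i => by
    simp only [hμ]; field_simp [hd0 i]; linear_combination -hdd i
  let A₁ : Fin t → GL (Fin 3) F := fun i =>
    { val := μ i • a i
      inv := (μ i)⁻¹ • ((A i)⁻¹ : GL (Fin 3) F)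
      val_inv := by simp [smul_smul, hμ0 i, ha]
      inv_val := by simp [smul_smul, hμ0 i, ha] }
  have hA₁ : ∀ i, A₁ i ∈ O3m F := fun i => mem_isometry_of _ (by
    show (μ i • a i)ᵀ * (μ i • a i) = 1
    rw [transpose_smul, smul_mul_smul_comm, hc, smul_smul, hμc, one_smul])
  set P := ∏ i, μ i with hP
  have hval : pureMat (fun i => ((A₁ i : GL (Fin 3) F) : Matrix (Fin 3) (Fin 3) F)) = P • pureMat a :=
    pureMat_smul μ a
  have hPP : P * P = 1 := by
    have hc1 : (∏ i, c i) = 1 := by
      have h4 : pureMat (fun i => c i • (1 : Matrix (Fin 3) (Fin 3) F)) = 1 := by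
        rw [← h3]; congr 1; exact funext fun i => (hc i).symm
      rw [pureMat_smul, pureMat_one] at h4
      have := congrFun (congrFun h4 (fun _ => 0)) fun _ => 0
      simpa using this
    have : ∏ i, μ i * μ i * c i = 1 := Finset.prod_eq_one fun i _ => hμc i
    rwa [Finset.prod_mul_distrib, Finset.prod_mul_distrib, hc1, mul_one] at this
  rcases mul_self_eq_one_iff.1 hPP with h | h
  · exact ⟨π, A₁, hA₁, Units.ext (by
      show pureMat a * _ = pureMat _ * _
      rw [hval, h, one_smul])⟩
  · obtain ⟨i₀⟩ : Nonempty (Fin t) := by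
      rcases Nat.eq_zero_or_pos t with rfl | ht
      · simp [hP] at h
        exact absurd (by linear_combination h : (2 : F) = 0) h2
      · exact ⟨⟨0, ht⟩⟩
    refine ⟨π, Function.update A₁ i₀ (-A₁ i₀), fun i => ?_, Units.ext ?_⟩
    · rcases eq_or_ne i i₀ with rfl | hi
      · rw [Function.update_self]
        refine mem_isometry_of _ ?_
        rw [Units.val_neg, transpose_neg, neg_mul_neg]
        exact isometry_transpose_mul h2 (hA₁ i)
      · rw [Function.update_of_ne hi]; exact hA₁ i
    · show pureMat a * _ = pureMat _ * _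
      congr 1
      rw [show (fun i => ((Function.update A₁ i₀ (-A₁ i₀) i : GL (Fin 3) F) : Matrix (Fin 3) (Fin 3) F))
          = fun i => (Function.update (1 : Fin t → F) i₀ (-1)) i • (A₁ i : Matrix (Fin 3) (Fin 3) F) from
        funext fun i => by
          rcases eq_or_ne i i₀ with rfl | hi
          · simp
          · simp [Function.update_of_ne hi]]
      rw [pureMat_smul, hval, h, smul_smul, Finset.prod_update_of_mem (Finset.mem_univ i₀)]
      simp

/-! ### The signature -/

/-- Twice the dimension of the fixed space less the whole dimension. -/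
noncomputable def sig (g : GL (Ix t) F) : ℤ :=
  2 * (finrank F (LinearMap.ker (Matrix.mulVecLin ((g : Matrix (Ix t) (Ix t) F) - 1))) : ℤ) -
    Fintype.card (Ix t)

/-- Conjugate elements have the same signature. -/
lemma sig_eq_of_mul_eq {g g' c : GL (Ix t) F} (h : g * c = c * g') : sig g = sig g' := by
  have hm : (g : Matrix (Ix t) (Ix t) F) * c = (c : Matrix (Ix t) (Ix t) F) * g' :=
    congrArg Units.val h
  have key : (LinearMap.ker (mulVecLin ((g' : Matrix (Ix t) (Ix t) F) - 1))).map
      (LinearMap.GeneralLinearGroup.generalLinearEquiv F _ (Matrix.GeneralLinearGroup.toLin c) :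
        (Ix t → F) →ₗ[F] Ix t → F) =
      LinearMap.ker (mulVecLin ((g : Matrix (Ix t) (Ix t) F) - 1)) := by
    ext v
    simp only [Submodule.mem_map, LinearMap.mem_ker, mulVecLin_apply, sub_mulVec, one_mulVec,
      sub_eq_zero]
    constructor
    · rintro ⟨w, hw, rfl⟩
      show _ *ᵥ ((c : Matrix (Ix t) (Ix t) F) *ᵥ w) = (c : Matrix (Ix t) (Ix t) F) *ᵥ w
      rw [mulVec_mulVec, hm, ← mulVec_mulVec, hw]
    · intro hv
      refine ⟨((c⁻¹ : GL (Ix t) F) : Matrix (Ix t) (Ix t) F) *ᵥ v, ?_, ?_⟩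
      · have : (g' : Matrix (Ix t) (Ix t) F) = ((c⁻¹ : GL (Ix t) F) : Matrix (Ix t) (Ix t) F) *
            ((g : Matrix (Ix t) (Ix t) F) * c) := by rw [hm, Units.inv_mul_cancel_left]
        rw [this, mulVec_mulVec, mul_assoc, mul_assoc, Units.mul_inv, mul_one, ← mulVec_mulVec, hv]
      · show (c : Matrix (Ix t) (Ix t) F) *ᵥ _ = v
        rw [mulVec_mulVec, Units.mul_inv, one_mulVec]
  rw [sig, sig, ← key, LinearEquiv.finrank_map_eq]

lemma sig_conj (c g : GL (Ix t) F) : sig (c * g * c⁻¹) = sig g :=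
  sig_eq_of_mul_eq (c := c) (by group)

lemma units_cast (u : ℤˣ) : ((u : ℤ) : F) = 1 ∨ ((u : ℤ) : F) = -1 := by
  rcases Int.units_eq_one_or u with rfl | rfl <;> simp

/-- The fixed space of a monomial involution. -/
lemma finrank_monomial (h2 : (2 : F) ≠ 0) {κ : Type} [Fintype κ] [DecidableEq κ] (σ : κ → κ)
    (hσ : Function.Involutive σ) (s : κ → ℤˣ) (hs : ∀ x, s (σ x) = s x) :
    2 * (finrank F (LinearMap.ker (mulVecLin
        (Matrix.of (fun x y => if y = σ x then ((s x : ℤ) : F) else 0) - 1))) : ℤ) =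
      Fintype.card κ + ∑ x ∈ Finset.univ.filter (fun x => σ x = x), (s x : ℤ) := by
  classical
  let e := Fintype.equivFin κ
  let M : Matrix κ κ F := Matrix.of (fun x y => if y = σ x then ((s x : ℤ) : F) else 0)
  let S : Finset κ := Finset.univ.filter fun x => e x < e (σ x) ∨ (σ x = x ∧ s x = 1)
  have hM : ∀ (v : κ → F) x, (M *ᵥ v) x = ((s x : ℤ) : F) * v (σ x) := fun v x => by
    simp [M, mulVec, dotProduct]
  set K := LinearMap.ker (mulVecLin (M - 1)) with hK
  have hmem : ∀ v, v ∈ K ↔ ∀ x, ((s x : ℤ) : F) * v (σ x) = v x := fun v => by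
    simp [hK, LinearMap.mem_ker, sub_eq_zero, funext_iff, hM]
  have hss : ∀ x, ((s x : ℤ) : F) * ((s x : ℤ) : F) = 1 := fun x => by
    rcases units_cast (F := F) (s x) with h | h <;> simp [h]
  let φ : K →ₗ[F] S → F :=
    { toFun := fun v x => (v : κ → F) x
      map_add' := fun _ _ => rfl
      map_smul' := fun _ _ => rfl }
  have hinj : Function.Injective φ := by
    rw [← LinearMap.ker_eq_bot, LinearMap.ker_eq_bot']
    intro v hv
    have h0 : ∀ x ∈ S, (v : κ → F) x = 0 := fun x hx => congrFun hv ⟨x, hx⟩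
    refine Subtype.ext (funext fun x => ?_)
    show (v : κ → F) x = 0
    have hx := (hmem v.1).1 v.2 x
    by_cases hfix : σ x = x
    · rcases Int.units_eq_one_or (s x) with h | h
      · exact h0 x (by simp [S, hfix, h])
      · rw [hfix, h] at hx
        simp only [Units.val_neg, Units.val_one, Int.cast_neg, Int.cast_one, neg_mul, one_mul] at hx
        exact (mul_eq_zero.1 (by linear_combination -hx : (2 : F) * (v : κ → F) x = 0)).resolve_left h2
    · rcases lt_or_gt_of_ne (fun h : e x = e (σ x) => hfix (e.injective h).symm) with h | h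
      · exact h0 x (by simp [S, h])
      · rw [← hx, h0 (σ x) (by simp [S, hσ x, h]), mul_zero]
  have hsurj : Function.Surjective φ := by
    intro f
    let v : κ → F := fun x => if hx : x ∈ S then f ⟨x, hx⟩ else
      if hy : σ x ∈ S then ((s x : ℤ) : F) * f ⟨σ x, hy⟩ else 0
    have hv : v ∈ K := (hmem v).2 fun x => by
      by_cases hfix : σ x = x
      · rw [hfix]
        by_cases hx : x ∈ S
        · have : s x = 1 := by
            simpa [S, hfix] using hx
          simp [this]
        · have : v x = 0 := by simp [v, hx, hfix]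
          simp [this]
      · have hne : e x ≠ e (σ x) := fun h => hfix (e.injective h).symm
        have hx' : x ∈ S ↔ e x < e (σ x) := by simp [S, hfix]
        have hy' : σ x ∈ S ↔ e (σ x) < e x := by simp [S, hσ x, Ne.symm hfix]
        rcases lt_or_gt_of_ne hne with h | h
        · have hx := hx'.2 h
          have hy : σ x ∉ S := fun hy => lt_asymm h (hy'.1 hy)
          have e1 : v x = f ⟨x, hx⟩ := dif_pos hx
          have e2 : v (σ x) = ((s x : ℤ) : F) * f ⟨x, hx⟩ := by
            simp only [v, dif_neg hy, hσ x, dif_pos hx, hs x]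
          rw [e1, e2, ← mul_assoc, hss, one_mul]
        · have hy := hy'.2 h
          have hx : x ∉ S := fun hx => lt_asymm h (hx'.1 hx)
          simp only [v, dif_pos hy, dif_neg hx]
    exact ⟨⟨v, hv⟩, funext fun x => dif_pos x.2⟩
  have hdim : finrank F K = S.card := by
    rw [(LinearEquiv.ofBijective φ ⟨hinj, hsurj⟩).finrank_eq, finrank_fintype_fun_eq_card,
      Fintype.card_coe]
  show 2 * (finrank F K : ℤ) = _
  rw [hdim]
  have hswap : (Finset.univ.filter fun x => e x < e (σ x)).card =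
      (Finset.univ.filter fun x => e (σ x) < e x).card :=
    Finset.card_nbij' σ σ (fun x hx => by simpa [hσ x] using hx) (fun x hx => by simpa [hσ x] using hx)
      (fun x _ => hσ x) (fun x _ => hσ x)
  have hpt : ∀ x, (2 * if e x < e (σ x) ∨ (σ x = x ∧ s x = 1) then (1 : ℤ) else 0) =
      1 + (if σ x = x then (s x : ℤ) else 0) +
        ((if e x < e (σ x) then (1 : ℤ) else 0) - (if e (σ x) < e x then 1 else 0)) := by
    intro x
    by_cases hfix : σ x = x
    · rcases Int.units_eq_one_or (s x) with h | h <;> simp [hfix, h]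
    · rcases lt_or_gt_of_ne (fun h : e x = e (σ x) => hfix (e.injective h).symm) with h | h
      · simp [hfix, h, lt_asymm h]
      · simp [hfix, h, lt_asymm h]
  have := Finset.sum_congr (s₁ := Finset.univ) rfl fun x (_ : x ∈ Finset.univ) => hpt x
  rw [← Finset.mul_sum, Finset.sum_add_distrib, Finset.sum_add_distrib, Finset.sum_sub_distrib,
    Finset.sum_boole, Finset.sum_boole, Finset.sum_boole, hswap, sub_self, add_zero,
    ← Finset.sum_filter] at this
  simpa [S] using this

/-- The sum over the fixed indices of a factor permutation. -/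
lemma sum_fixed (π : Equiv.Perm (Fin t)) (hπ : ∀ i, π (π i) = i) (e : Fin t → Fin 3 → ℤ) :
    ∑ x ∈ (Finset.univ.filter fun x : Ix t => x ∘ π = x), ∏ i, e i (x i) =
      ∏ i ∈ Finset.univ.filter (fun i => i ≤ π i),
        ∑ a, if π i = i then e i a else e i a * e (π i) a := by
  classical
  set R := Finset.univ.filter fun i : Fin t => i ≤ π i with hR
  have hR' : ∀ i, i ∉ R → π i ∈ R := fun i hi => by
    simp [hR] at hi ⊢; rw [hπ]; exact hi.le
  rw [← Finset.prod_coe_sort R, Fintype.prod_sum]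
  refine Finset.sum_bij' (i := fun x _ (j : R) => x j)
    (j := fun y _ => fun i => if h : i ∈ R then y ⟨i, h⟩ else y ⟨π i, hR' i h⟩) ?_ ?_ ?_ ?_ ?_
  · intros; exact Finset.mem_univ _
  · intro y _
    simp only [Finset.mem_filter, Finset.mem_univ, true_and, funext_iff, Function.comp_apply]
    intro i
    by_cases hfix : π i = i
    · simp only [hfix]
    · by_cases hi : i ∈ R
      · have hπi : π i ∉ R := by
          simp [hR] at hi ⊢; rw [hπ]; exact lt_of_le_of_ne hi (Ne.symm hfix)
        rw [dif_neg hπi, dif_pos hi]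
        simp only [hπ]
      · rw [dif_neg hi, dif_pos (hR' i hi)]
  · intro x hx
    funext i
    simp only [Finset.mem_filter, Finset.mem_univ, true_and] at hx
    split_ifs with h
    · rfl
    · exact congrFun hx i
  · intro y _
    funext j
    simp [j.2]
  · intro x hx
    simp only [Finset.mem_filter, Finset.mem_univ, true_and] at hx
    rw [Finset.prod_coe_sort R (fun i => if π i = i then e i (x i) else e i (x i) * e (π i) (x i)),
      ← Finset.prod_filter_mul_prod_filter_not Finset.univ (fun i => i ≤ π i)]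
    have : ∀ i, (if π i = i then e i (x i) else e i (x i) * e (π i) (x i)) =
        e i (x i) * if π i = i then 1 else e (π i) (x i) := fun i => by split_ifs <;> simp
    simp only [this, Finset.prod_mul_distrib]
    congr 1
    rw [Finset.prod_ite, Finset.prod_const_one, one_mul]
    refine Finset.prod_nbij' π π ?_ ?_ (fun i _ => hπ i) (fun i _ => hπ i) ?_
    · intro i hi
      simp [hR] at hi ⊢
      rw [hπ]; exact ⟨hi.le, hi.ne⟩
    · intro i hi
      simp [hR] at hi ⊢
      rw [hπ]; exact lt_of_le_of_ne hi.1 (Ne.symm hi.2)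
    · intro i _
      rw [hπ]
      exact congrArg _ (congrFun hx i).symm

/-- The scalar involutions. -/
def IsPM (h : GL (Fin 3) F) : Prop :=
  (h : Matrix (Fin 3) (Fin 3) F) = 1 ∨ (h : Matrix (Fin 3) (Fin 3) F) = -1

lemma natAbs_sum_units (ε : Fin 3 → ℤˣ) :
    (∑ a, (ε a : ℤ)).natAbs = if ∀ a, ε a = ε 0 then 3 else 1 := by
  rcases Int.units_eq_one_or (ε 0) with h0 | h0 <;> rcases Int.units_eq_one_or (ε 1) with h1 | h1 <;>
    rcases Int.units_eq_one_or (ε 2) with h2' | h2' <;>
    simp [Fin.sum_univ_three, Fin.forall_fin_succ, h0, h1, h2']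

/-- An involution of a factor is diagonalisable. -/
lemma exists_diag (h2 : (2 : F) ≠ 0) (A : GL (Fin 3) F) (hA : A * A = 1) :
    ∃ (D : GL (Fin 3) F) (ε : Fin 3 → ℤˣ),
      (A : Matrix (Fin 3) (Fin 3) F) * D = D * diagonal (fun a => ((ε a : ℤ) : F)) ∧
      ((∀ a, ε a = ε 0) ↔ IsPM A) := by
  classical
  set a := (A : Matrix (Fin 3) (Fin 3) F) with ha
  have haa : ∀ v, a *ᵥ (a *ᵥ v) = v := fun v => by
    rw [mulVec_mulVec, ha, ← Units.val_mul, hA, Units.val_one, one_mulVec]
  set p := LinearMap.ker (mulVecLin (a - 1))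
  set q := LinearMap.ker (mulVecLin (a + 1))
  have hp : ∀ v, v ∈ p ↔ a *ᵥ v = v := fun v => by
    simp [p, sub_eq_zero]
  have hq : ∀ v, v ∈ q ↔ a *ᵥ v = -v := fun v => by
    simp [q, add_eq_zero_iff_eq_neg]
  have hcompl : IsCompl p q := by
    refine ⟨disjoint_iff.2 (eq_bot_iff.2 fun v hv => ?_), codisjoint_iff.2 (eq_top_iff.2 fun v _ => ?_)⟩
    · have h1 := (hp v).1 hv.1
      rw [(hq v).1 hv.2] at h1
      refine funext fun i => (mul_eq_zero.1 ?_).resolve_left h2
      have := congrFun h1 i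
      simp only [Pi.neg_apply] at this
      linear_combination -this
    · refine Submodule.mem_sup.2 ⟨(2 : F)⁻¹ • (v + a *ᵥ v), (hp _).2 ?_,
        (2 : F)⁻¹ • (v - a *ᵥ v), (hq _).2 ?_, ?_⟩
      · rw [mulVec_smul, mulVec_add, haa, add_comm]
      · rw [mulVec_smul, mulVec_sub, haa, ← smul_neg, neg_sub]
      · rw [← smul_add, add_add_sub_cancel, ← two_smul F v, smul_smul, inv_mul_cancel₀ h2, one_smul]
  let b0 := ((finBasis F p).prod (finBasis F q)).map (Submodule.prodEquivOfIsCompl p q hcompl)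
  have hcard : Fintype.card (Fin (finrank F p) ⊕ Fin (finrank F q)) = 3 := by
    rw [← finrank_eq_card_basis b0, finrank_fin_fun]
  let e := Fintype.equivFinOfCardEq hcard
  let b := b0.reindex e
  let ε : Fin 3 → ℤˣ := fun i => Sum.elim (fun _ => 1) (fun _ => -1) (e.symm i)
  have hb : ∀ i, a *ᵥ b i = ((ε i : ℤ) : F) • b i := by
    intro i
    simp only [b, ε, Basis.reindex_apply]
    rcases e.symm i with k | k
    · simp only [b0, Basis.map_apply, Sum.elim_inl, Units.val_one, Int.cast_one, one_smul,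
        Basis.prod_apply_inl_fst, Submodule.coe_prodEquivOfIsCompl', Basis.prod_apply_inl_snd,
        Submodule.coe_zero, add_zero]
      exact (hp _).1 (finBasis F p k).2
    · simp only [b0, Basis.map_apply, Sum.elim_inr, Units.val_neg, Units.val_one, Int.cast_neg,
        Int.cast_one, neg_smul, one_smul, Basis.prod_apply_inr_fst, Submodule.coe_prodEquivOfIsCompl',
        Basis.prod_apply_inr_snd, Submodule.coe_zero, zero_add]
      exact (hq _).1 (finBasis F q k).2
  let D : Matrix (Fin 3) (Fin 3) F := (Pi.basisFun F (Fin 3)).toMatrix b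
  have hD : IsUnit D := by
    exact IsUnit.of_mul_eq_one _ ((Pi.basisFun F (Fin 3)).toMatrix_mul_toMatrix_flip b)
  have hDA : a * D = D * diagonal (fun i => ((ε i : ℤ) : F)) := by
    ext i j
    rw [mul_diagonal]
    have := congrFun (hb j) i
    simp only [Pi.smul_apply, smul_eq_mul] at this
    simp only [D, Basis.toMatrix_apply, Pi.basisFun_repr, mul_comm (b j i)]
    exact this
  refine ⟨hD.unit, ε, hDA, ?_, ?_⟩
  · intro hc
    have : a * D = ((ε 0 : ℤ) : F) • (1 : Matrix (Fin 3) (Fin 3) F) * D := by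
      rw [hDA, funext fun i => congrArg (fun u : ℤˣ => ((u : ℤ) : F)) (hc i),
        ← smul_one_eq_diagonal, mul_smul_comm, smul_mul_assoc, one_mul, mul_one]
    have hA1 := hD.mul_right_cancel this
    rcases units_cast (F := F) (ε 0) with h | h
    · exact Or.inl (by rw [← ha, hA1, h, one_smul])
    · exact Or.inr (by rw [← ha, hA1, h, neg_one_smul])
  · intro hpm i
    have key : ∀ c : F, a = c • 1 → ∀ i, ((ε i : ℤ) : F) = c := by
      intro c hc i
      rw [hc, smul_mul, one_mul] at hDA
      have h' : c • (1 : Matrix (Fin 3) (Fin 3) F) = diagonal (fun i => ((ε i : ℤ) : F)) :=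
        hD.mul_left_cancel (by rw [mul_smul_comm, mul_one]; exact hDA)
      have := congrFun (congrFun h' i) i
      simpa using this.symm
    obtain ⟨c, hc⟩ : ∃ c : F, a = c • 1 := by
      rcases hpm with h | h
      · exact ⟨1, by rw [one_smul]; exact h⟩
      · exact ⟨-1, by rw [neg_one_smul]; exact h⟩
    have := (key c hc i).trans (key c hc 0).symm
    rcases Int.units_eq_one_or (ε i) with h | h <;> rcases Int.units_eq_one_or (ε 0) with h' | h' <;>
      simp [h, h'] at this ⊢
    · exact absurd (by linear_combination this : (2 : F) = 0) h2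
    · exact absurd (by linear_combination -this : (2 : F) = 0) h2

/-- The signature of an involution of the stabiliser. -/
lemma sig_form (h2 : (2 : F) ≠ 0) {π : Equiv.Perm (Fin t)} (hπ : ∀ i, π (π i) = i)
    {A : Fin t → GL (Fin 3) F} (hfix : ∀ i, π i = i → A i * A i = 1)
    (hpair : ∀ i, ∃ u : ℤˣ, ((A i * A (π i) : GL (Fin 3) F) : Matrix (Fin 3) (Fin 3) F) =
      ((u : ℤ) : F) • 1) :
    (sig (glPure A * glFactorPerm 3 π)).natAbs =
      3 ^ {i : Fin t | i ≤ π i ∧ (π i = i → IsPM (A i))}.ncard := by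
  classical
  have hsym : ∀ i, π.symm i = π i := fun i => by rw [Equiv.symm_apply_eq, hπ]
  choose c hc using hpair
  choose Dd εd hdiag hpm using fun i : {i // π i = i} => exists_diag h2 (A i) (hfix i i.2)
  let D : Fin t → GL (Fin 3) F := fun i =>
    if h : π i = i then Dd ⟨i, h⟩ else if i < π i then 1 else (A (π i))⁻¹
  let ε : Fin t → Fin 3 → ℤˣ := fun i =>
    if h : π i = i then εd ⟨i, h⟩ else if i < π i then fun _ => 1 else fun _ => c (π i)
  have hconst : ∀ i, π i ≠ i → ∀ a b, ε i a = ε i b := fun i hi a b => by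
    simp only [ε, dif_neg hi]; split_ifs <;> rfl
  have hkey : ∀ i, ((A i * D (π i) : GL (Fin 3) F) : Matrix (Fin 3) (Fin 3) F) =
      (D i : Matrix (Fin 3) (Fin 3) F) * diagonal (fun a => ((ε i a : ℤ) : F)) := by
    intro i
    by_cases hi : π i = i
    · simp only [hi, D, ε, dif_pos]
      exact hdiag ⟨i, hi⟩
    have hi' : π (π i) ≠ π i := fun h => hi (π.injective h)
    rcases lt_or_gt_of_ne (Ne.symm hi) with h | h
    · simp only [D, ε, dif_neg hi, dif_neg hi', if_pos h, hπ, if_neg (lt_asymm h),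
        mul_inv_cancel, Units.val_one, Int.cast_one, diagonal_one, mul_one]
    · simp only [D, ε, dif_neg hi, dif_neg hi', if_neg (lt_asymm h), if_pos (by rw [hπ]; exact h : π i < π (π i)),
        mul_one, ← smul_one_eq_diagonal]
      have := hc (π i)
      rw [hπ] at this
      rw [← this, Units.val_mul, ← mul_assoc, Units.inv_mul, one_mul]
  let s : Ix t → ℤˣ := fun x => ∏ i, ε i (x i)
  have hs : ∀ x : Ix t, s (x ∘ π) = s x := fun x => Finset.prod_congr rfl fun i _ => by
    by_cases hi : π i = i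
    · simp [hi]
    · exact hconst i hi _ _
  let g' : GL (Ix t) F := (glPure D)⁻¹ * (glPure A * glFactorPerm 3 π) * glPure D
  have hg' : (g' : Matrix (Ix t) (Ix t) F) =
      Matrix.of fun x y => if y = x ∘ π then ((s x : ℤ) : F) else 0 := by
    have h1 : glPure A * glFactorPerm 3 π * glPure D =
        glPure (fun i => A i * D (π i)) * glFactorPerm 3 π := by
      rw [mul_assoc, perm_mul_glPure, ← mul_assoc, glPure_mul_glPure]
      simp only [hsym]; rfl
    simp only [g', mul_assoc] at h1 ⊢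
    rw [Units.val_mul, h1]
    show ((glPure D)⁻¹ : GL (Ix t) F).val * (pureMat _ * factorPerm 3 π) = _
    simp only [hkey]
    rw [← pureMat_mul, mul_assoc]
    show _ * ((glPure D : GL (Ix t) F).val * _) = _
    rw [Units.inv_mul_cancel_left]
    have hd : pureMat (fun i => diagonal (fun a => ((ε i a : ℤ) : F))) =
        diagonal (fun x : Ix t => ((s x : ℤ) : F)) := by
      ext x y
      by_cases hxy : x = y
      · subst hxy
        simp [pureMat, s, Units.coe_prod]
      · obtain ⟨i, hi⟩ := Function.ne_iff.1 hxy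
        rw [diagonal_apply_ne _ hxy]
        exact Finset.prod_eq_zero (Finset.mem_univ i) (diagonal_apply_ne _ hi)
    rw [hd]
    ext x y
    rw [diagonal_mul, Matrix.of_apply, factorPerm, mul_ite, mul_one, mul_zero]
  have hσ : Function.Involutive fun x : Ix t => x ∘ π := fun x => funext fun i => by simp [hπ]
  have hmono := finrank_monomial h2 _ hσ s hs
  rw [← sig_eq_of_mul_eq (c := glPure D) (g := glPure A * glFactorPerm 3 π) (g' := g')
      (by simp [g', mul_assoc]) |>.symm]
  rw [sig, hg', hmono, add_sub_cancel_left]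
  simp only [s, Units.coe_prod]
  rw [sum_fixed π hπ fun i a => (ε i a : ℤ), ← Int.natAbsHom_apply, map_prod]
  simp only [Int.natAbsHom_apply]
  rw [Finset.prod_congr rfl (g := fun i => if π i = i → IsPM (A i) then 3 else 1), Finset.prod_ite,
    Finset.prod_const, Finset.prod_const_one, mul_one, Finset.filter_filter, Set.ncard_eq_toFinset_card']
  · simp [Set.toFinset_ofPred]
  intro i _
  by_cases hi : π i = i
  · simp only [hi, if_true, natAbs_sum_units, forall_const]
    refine if_congr ?_ rfl rfl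
    simp only [ε, dif_pos hi]
    exact hpm ⟨i, hi⟩
  · have hi' : π (π i) ≠ π i := fun h => hi (π.injective h)
    simp only [hi, false_imp_iff, if_true, if_false, hconst i hi _ 0,
      hconst (π i) hi' _ 0, Finset.sum_const, Finset.card_univ, Fintype.card_fin, nsmul_eq_mul,
      Int.natAbs_mul, Int.units_natAbs, mul_one]
    rfl

/-! ### Axes and their products -/

lemma ax_invol {u : Fin 3 → F} (hu : u ⬝ᵥ u = 1) : ax u * ax u = 1 := by
  have : vecMulVec u u * vecMulVec u u = vecMulVec u u := by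
    rw [vecMulVec_mul_vecMulVec, hu, one_smul]
  simp only [ax, two_smul]
  noncomm_ring [this]

lemma half_invol {h : GL (Fin 3) F} (hh : IsHalf h) : h * h = 1 := by
  obtain ⟨u, hu, e⟩ := hh
  exact Units.ext (by rw [Units.val_mul, e, ax_invol hu, Units.val_one])

lemma half_not_pm (h2 : (2 : F) ≠ 0) {h : GL (Fin 3) F} (hh : IsHalf h) : ¬ IsPM h := by
  obtain ⟨u, hu, e⟩ := hh
  intro hpm
  rw [IsPM, e] at hpm
  have hent : ∀ i j, ax u i j = 2 * (u i * u j) - (if i = j then 1 else 0) := fun i j => by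
    simp [ax, vecMulVec_apply, Matrix.one_apply, two_smul]; ring
  rcases hpm with h | h
  · have hd : ∀ i, u i * u i = 1 := fun i => by
      have := congrFun (congrFun h i) i
      rw [hent, if_pos rfl, one_apply_eq] at this
      exact mul_left_cancel₀ h2 (by linear_combination this)
    have h01 := congrFun (congrFun h 0) 1
    rw [hent, if_neg (by decide), one_apply_ne (by decide), sub_zero, mul_eq_zero,
      or_iff_right h2, mul_eq_zero] at h01
    rcases h01 with h0 | h0
    · exact one_ne_zero (by rw [← hd 0, h0, zero_mul])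
    · exact one_ne_zero (by rw [← hd 1, h0, zero_mul])
  · have hd : ∀ i, u i = 0 := fun i => by
      have := congrFun (congrFun h i) i
      rw [hent, if_pos rfl, Matrix.neg_apply, one_apply_eq] at this
      exact mul_self_eq_zero.1 ((mul_eq_zero.1 (by linear_combination this : (2:F) * (u i * u i) = 0)).resolve_left h2)
    simp [dotProduct, hd] at hu

lemma gs_eq_glPure (r : Fin t) (h : GL (Fin 3) F) :
    gs r h = glPure (Function.update (1 : Fin t → GL (Fin 3) F) r h) := by
  refine Units.ext ?_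
  show pureMat _ = pureMat _
  congr 1
  funext i
  rcases eq_or_ne i r with rfl | hi
  · simp
  · simp [Function.update_of_ne hi]

/-- The signature of a tensor product of involutions. -/
lemma sig_pure (h2 : (2 : F) ≠ 0) {A : Fin t → GL (Fin 3) F} (hA : ∀ i, A i * A i = 1) :
    (sig (glPure A)).natAbs = 3 ^ {i : Fin t | IsPM (A i)}.ncard := by
  have := sig_form h2 (π := 1) (fun _ => rfl) (fun i _ => hA i) fun i => ⟨1, by
    rw [Equiv.Perm.one_apply, hA, Units.val_one]; simp⟩
  simpa [glFactorPerm_one'] using this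

lemma sig_axes (h2 : (2 : F) ≠ 0) {A : Fin t → GL (Fin 3) F} (T : Finset (Fin t))
    (hT : ∀ i ∈ T, IsHalf (A i)) (h1 : ∀ i ∉ T, A i = 1) :
    (sig (glPure A)).natAbs = 3 ^ (t - T.card) := by
  classical
  have hA : ∀ i, A i * A i = 1 := fun i => by
    by_cases hi : i ∈ T
    · exact half_invol (hT i hi)
    · rw [h1 i hi, one_mul]
  have : {i : Fin t | IsPM (A i)} = ↑(Tᶜ) := by
    ext i
    by_cases hi : i ∈ T
    · simp [hi, half_not_pm h2 (hT i hi)]
    · simp [hi, h1 i hi, IsPM]
  rw [sig_pure h2 hA, this, Set.ncard_coe_finset, Finset.card_compl, Fintype.card_fin]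

lemma sig_one (h2 : (2 : F) ≠ 0) {r : Fin t} {x : GL (Ix t) F} (hx : IsAxisAt r x) :
    (sig x).natAbs = 3 ^ (t - 1) := by
  obtain ⟨h, hh, rfl⟩ := hx
  rw [gs_eq_glPure, sig_axes h2 {r}] <;>
    simp +contextual [Function.update_of_ne, hh]

lemma sig_two (h2 : (2 : F) ≠ 0) {r s : Fin t} (hrs : r ≠ s) {x y : GL (Ix t) F}
    (hx : IsAxisAt r x) (hy : IsAxisAt s y) : (sig (x * y)).natAbs = 3 ^ (t - 2) := by
  obtain ⟨h, hh, rfl⟩ := hx
  obtain ⟨k, hk, rfl⟩ := hy
  rw [gs_eq_glPure, gs_eq_glPure, glPure_mul_glPure, sig_axes h2 {r, s}]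
  · rw [Finset.card_pair hrs]
  · simp [hh, hk, Function.update_of_ne hrs, Function.update_of_ne hrs.symm]
  · simp +contextual [Function.update_of_ne]

lemma sig_three (h2 : (2 : F) ≠ 0) {r s p : Fin t} (hrs : r ≠ s) (hrp : r ≠ p) (hsp : s ≠ p)
    {x y w : GL (Ix t) F} (hx : IsAxisAt r x) (hy : IsAxisAt s y) (hw : IsAxisAt p w) :
    (sig (x * y * w)).natAbs = 3 ^ (t - 3) := by
  obtain ⟨h, hh, rfl⟩ := hx
  obtain ⟨k, hk, rfl⟩ := hy
  obtain ⟨l, hl, rfl⟩ := hw
  rw [gs_eq_glPure, gs_eq_glPure, gs_eq_glPure, glPure_mul_glPure, glPure_mul_glPure,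
    sig_axes h2 {r, s, p}]
  · rw [Finset.card_insert_of_notMem (by simp [hrs, hrp]), Finset.card_pair hsp]
  · simp [hh, hk, hl, Function.update_of_ne hrs, Function.update_of_ne hrs.symm,
      Function.update_of_ne hrp, Function.update_of_ne hrp.symm, Function.update_of_ne hsp,
      Function.update_of_ne hsp.symm]
  · simp +contextual [Function.update_of_ne]

lemma two_le_of_ne {r s : Fin t} (h : r ≠ s) : 2 ≤ t := by
  have := r.2; have := s.2; have := Fin.val_ne_of_ne h; omega

/-- c. -/
lemma two_not_conj_axis (h2 : (2 : F) ≠ 0) {r s : Fin t} (hrs : r ≠ s) {x y z : GL (Ix t) F}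
    (hx : IsAxisAt r x) (hy : IsAxisAt s y) (hz : IsAxis z) (c : GL (Ix t) F) :
    c * (x * y) * c⁻¹ ≠ z := by
  rintro rfl
  obtain ⟨a, ha⟩ := hz
  have := sig_one h2 ha
  rw [sig_conj, sig_two h2 hrs hx hy] at this
  have := Nat.pow_right_injective (le_refl 2 |>.trans (by norm_num : 2 ≤ 3)) this
  have := two_le_of_ne hrs
  omega

/-- d. Three axes are not conjugate to one. -/
lemma three_not_conj_axis (h2 : (2 : F) ≠ 0) {r s p : Fin t} (hrs : r ≠ s) (hrp : r ≠ p)
    (hsp : s ≠ p) {x y w z : GL (Ix t) F} (hx : IsAxisAt r x) (hy : IsAxisAt s y)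
    (hw : IsAxisAt p w) (hz : IsAxis z) (c : GL (Ix t) F) : c * (x * y * w) * c⁻¹ ≠ z := by
  rintro rfl
  obtain ⟨a, ha⟩ := hz
  have := sig_one h2 ha
  rw [sig_conj, sig_three h2 hrs hrp hsp hx hy hw] at this
  have := Nat.pow_right_injective (le_refl 2 |>.trans (by norm_num : 2 ≤ 3)) this
  have := two_le_of_ne hrs
  omega

/-- d. Three axes are not conjugate to two. -/
lemma three_not_conj_two (h2 : (2 : F) ≠ 0) {r s p : Fin t} (hrs : r ≠ s) (hrp : r ≠ p)
    (hsp : s ≠ p) {x y w : GL (Ix t) F} (hx : IsAxisAt r x) (hy : IsAxisAt s y)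
    (hw : IsAxisAt p w) {a b : Fin t} (hab : a ≠ b) {z z' : GL (Ix t) F} (hz : IsAxisAt a z)
    (hz' : IsAxisAt b z') (c : GL (Ix t) F) : c * (x * y * w) * c⁻¹ ≠ z * z' := by
  intro e
  have := sig_two h2 hab hz hz'
  rw [← e, sig_conj, sig_three h2 hrs hrp hsp hx hy hw] at this
  have := Nat.pow_right_injective (le_refl 2 |>.trans (by norm_num : 2 ≤ 3)) this
  have : 3 ≤ t := by
    have := Finset.card_le_univ ({r, s, p} : Finset (Fin t))
    rwa [Finset.card_insert_of_notMem (by simp [hrs, hrp]), Finset.card_pair hsp,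
      Fintype.card_fin] at this
  omega

/-! ### The involutions of the stabiliser conjugate to an axis -/

lemma perm_eq_one_of_pureMat {B : Fin t → Matrix (Fin 3) (Fin 3) F} {ρ : Equiv.Perm (Fin t)}
    (h : pureMat B = factorPerm 3 ρ) : ρ = 1 := by
  classical
  refine Equiv.ext fun j => ?_
  by_contra hne
  simp only [Equiv.Perm.one_apply] at hne
  have h0 : ∀ x : Ix t, ∏ i, B i (x i) (x (ρ i)) = 1 := fun x => by
    simpa [pureMat, factorPerm] using congrFun (congrFun h x) (x ∘ ρ)
  have hz : ∀ i, B i 0 0 ≠ 0 := fun i hi => by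
    have := h0 fun _ => 0
    rw [Finset.prod_eq_zero (Finset.mem_univ i) hi] at this
    exact zero_ne_one this
  have hj1 : B j 0 1 ≠ 0 := fun hi => by
    have := h0 (Function.update (fun _ => 0) (ρ j) 1)
    rw [Finset.prod_eq_zero (Finset.mem_univ j) (by simp [Function.update_of_ne (Ne.symm hne), hi])]
      at this
    exact zero_ne_one this
  have := congrFun (congrFun h fun _ => (0 : Fin 3)) (Function.update (fun _ => 0) j 1)
  simp only [factorPerm, pureMat] at this
  rw [if_neg] at this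
  · obtain ⟨i, -, hi⟩ := Finset.prod_eq_zero_iff.1 this
    rcases eq_or_ne i j with rfl | hij
    · simp at hi; exact hj1 hi
    · simp [Function.update_of_ne hij] at hi; exact hz i hi
  · intro e
    have := congrFun e j
    simp at this

/-- An involution of the stabiliser in its normal form. -/
lemma invol_form (h2 : (2 : F) ≠ 0) {π : Equiv.Perm (Fin t)} {A : Fin t → GL (Fin 3) F}
    (hA : ∀ i, A i ∈ O3m F) (hg : glPure A * glFactorPerm 3 π * (glPure A * glFactorPerm 3 π) = 1) :
    (∀ i, π (π i) = i) ∧ (∀ i, π i = i → A i * A i = 1) ∧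
      ∀ i, ∃ u : ℤˣ, ((A i * A (π i) : GL (Fin 3) F) : Matrix (Fin 3) (Fin 3) F) =
        ((u : ℤ) : F) • 1 := by
  classical
  rw [form_mul] at hg
  have hv : pureMat (fun i => ((A i * A (π.symm i) : GL (Fin 3) F) : Matrix (Fin 3) (Fin 3) F)) *
      factorPerm 3 (π * π) = 1 := congrArg Units.val hg
  have hv' := congrArg (· * factorPerm 3 (π * π)⁻¹) hv
  simp only [mul_assoc, factorPerm_mul, mul_inv_cancel, factorPerm_one, mul_one, one_mul] at hv'
  have hππ : π * π = 1 := inv_eq_one.1 (perm_eq_one_of_pureMat hv')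
  have hπ : ∀ i, π (π i) = i := fun i => by rw [← Equiv.Perm.mul_apply, hππ, Equiv.Perm.one_apply]
  have hsym : ∀ i, π.symm i = π i := fun i => by rw [Equiv.symm_apply_eq, hπ]
  simp only [hππ, inv_one, factorPerm_one, hsym] at hv'
  have hdet : ∀ i, (A i : Matrix (Fin 3) (Fin 3) F).det * (A i : Matrix (Fin 3) (Fin 3) F).det = 1 :=
    fun i => by
      have := congrArg det (isometry_transpose_mul h2 (hA i))
      rwa [det_mul, det_transpose, det_one] at this
  have hc : ∀ i, ∃ c : F, c * c = 1 ∧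
      ((A i * A (π i) : GL (Fin 3) F) : Matrix (Fin 3) (Fin 3) F) = c • 1 := fun i => by
    obtain ⟨c, -, e⟩ := pureMat_smul_one_iff hv' i
    refine ⟨c, ?_, e⟩
    have := isometry_transpose_mul h2 ((O3m F).mul_mem (hA i) (hA (π i)))
    rw [e, transpose_smul, transpose_one, smul_mul_smul_comm, one_mul] at this
    simpa using congrFun (congrFun this 0) 0
  refine ⟨hπ, fun i hi => ?_, fun i => ?_⟩
  · obtain ⟨c, hc2, e⟩ := hc i
    rw [hi] at e
    have h3 : c * c * c = 1 := by
      have := congrArg det e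
      rw [Units.val_mul, det_mul, hdet, det_smul, det_one, Fintype.card_fin, mul_one] at this
      linear_combination -this
    rw [hc2, one_mul] at h3
    exact Units.ext (by rw [e, h3, one_smul, Units.val_one])
  · obtain ⟨c, hc2, e⟩ := hc i
    rcases mul_self_eq_one_iff.1 hc2 with h | h
    · exact ⟨1, by simp [e, h]⟩
    · exact ⟨-1, by simp [e, h]⟩

lemma ax_conj {g : GL (Fin 3) F} (h2 : (2 : F) ≠ 0) (hg : g ∈ O3m F) (u : Fin 3 → F) :
    ((g : Matrix (Fin 3) (Fin 3) F) *ᵥ u) ⬝ᵥ ((g : Matrix (Fin 3) (Fin 3) F) *ᵥ u) = u ⬝ᵥ u ∧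
    (g : Matrix (Fin 3) (Fin 3) F) * ax u * ((g⁻¹ : GL (Fin 3) F) : Matrix (Fin 3) (Fin 3) F) =
      ax ((g : Matrix (Fin 3) (Fin 3) F) *ᵥ u) := by
  have ho := isometry_transpose_mul h2 hg
  refine ⟨hg u u, ?_⟩
  have hinv : ((g⁻¹ : GL (Fin 3) F) : Matrix (Fin 3) (Fin 3) F) = (g : Matrix (Fin 3) (Fin 3) F)ᵀ := by
    rw [← mul_one ((g : Matrix (Fin 3) (Fin 3) F)ᵀ), ← Units.mul_inv g, ← mul_assoc, ho, one_mul]
  simp only [ax, Matrix.mul_sub, Matrix.sub_mul, mul_smul_comm, smul_mul_assoc, mul_one,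
    mul_vecMulVec, vecMulVec_mul, hinv, vecMul_transpose]
  rw [← hinv, Units.mul_inv]

lemma half_conj_of_orth (h2 : (2 : F) ≠ 0) {g h : GL (Fin 3) F} (hg : g ∈ O3m F) (hh : IsHalf h) :
    IsHalf (g * h * g⁻¹) := by
  obtain ⟨u, hu, e⟩ := hh
  exact ⟨_, (ax_conj h2 hg u).1.trans hu, by rw [Units.val_mul, Units.val_mul, e, (ax_conj h2 hg u).2]⟩

lemma form_mul_gs (A : Fin t → GL (Fin 3) F) (π : Equiv.Perm (Fin t)) (r : Fin t)
    (h : GL (Fin 3) F) : glPure A * glFactorPerm 3 π * gs r h =
      gs (π r) (A (π r) * h * (A (π r))⁻¹) * (glPure A * glFactorPerm 3 π) := by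
  rw [gs_eq_glPure, gs_eq_glPure, mul_assoc, perm_mul_glPure, ← mul_assoc, glPure_mul_glPure,
    ← mul_assoc, glPure_mul_glPure]
  congr 2
  funext i
  rcases eq_or_ne i (π r) with rfl | hi
  · simp
  · have : π.symm i ≠ r := fun e => hi (by rw [← e, Equiv.apply_symm_apply])
    simp [Function.update_of_ne hi, Function.update_of_ne this]

/-- A product of factors which are scalar away from `i₀`. -/
lemma exists_gs_eq {A : Fin t → GL (Fin 3) F} {i₀ : Fin t}
    (hs : ∀ i, i ≠ i₀ → IsPM (A i)) :
    ∃ h, (h = A i₀ ∨ h = -A i₀) ∧ glPure A = gs i₀ h := by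
  classical
  choose! e he using fun i hi => show ∃ e : F, (e = 1 ∨ e = -1) ∧
      (A i : Matrix (Fin 3) (Fin 3) F) = e • 1 from (hs i hi).elim
    (fun h => ⟨1, Or.inl rfl, by rw [one_smul, h]⟩) (fun h => ⟨-1, Or.inr rfl, by rw [neg_one_smul, h]⟩)
  let f : Fin t → F := Function.update e i₀ 1
  have hf : ∀ i, f i = 1 ∨ f i = -1 := fun i => by
    rcases eq_or_ne i i₀ with rfl | hi
    · simp [f]
    · rw [show f i = e i from Function.update_of_ne hi _ _]; exact (he i hi).1
  have hval : ((glPure A : GL (Ix t) F) : Matrix (Ix t) (Ix t) F) =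
      (∏ i, f i) • site i₀ (A i₀ : Matrix (Fin 3) (Fin 3) F) := by
    show pureMat _ = _
    rw [site, ← pureMat_smul]
    congr 1
    funext i
    rcases eq_or_ne i i₀ with rfl | hi
    · simp [f]
    · simp [f, Function.update_of_ne hi, (he i hi).2]
  have hP : (∏ i, f i) = 1 ∨ (∏ i, f i) = -1 :=
    Finset.prod_induction f (fun x => x = 1 ∨ x = -1)
      (fun a b ha hb => by rcases ha with rfl | rfl <;> rcases hb with rfl | rfl <;> simp)
      (Or.inl rfl) fun i _ => hf i
  rcases hP with h | h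
  · exact ⟨A i₀, Or.inl rfl, Units.ext (by rw [hval, h, one_smul, gs_val])⟩
  · refine ⟨-A i₀, Or.inr rfl, Units.ext ?_⟩
    rw [hval, h, gs_val, Units.val_neg, neg_one_smul,
      ← neg_one_smul F ((A i₀ : GL (Fin 3) F) : Matrix (Fin 3) (Fin 3) F), site_smul, neg_one_smul]

/-- b. Items are axes or swap two factors, given the class map and the involutions of a factor. -/
lemma item_cases_of (h2 : (2 : F) ≠ 0)
    (hOm : ∀ (r : Fin t), ∀ h ∈ O3m F, gs r h ∈ Om F t → h ∈ U3m F)
    (hinv : ∀ h ∈ U3m F, h * h = 1 → h ≠ (1 : GL (Fin 3) F) → IsHalf h) (ht : 1 ≤ t)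
    {g : GL (Ix t) F} (hg : IsItem g) :
    IsAxis g ∨ ∃ i j, i ≠ j ∧ Moves g (Equiv.swap i j) ∧
      ∀ r, r ≠ i → r ≠ j → ∀ h : GL (Fin 3) F, g * gs r h = gs r h * g := by
  classical
  obtain ⟨⟨hW, hO⟩, hgg, c, x, ⟨a, hx⟩, hconj⟩ := hg
  obtain ⟨π, A, hA, rfl⟩ := exists_form h2 hW
  obtain ⟨hπ, hfix, hpair⟩ := invol_form h2 hA hgg
  have hsig : (sig (glPure A * glFactorPerm 3 π)).natAbs = 3 ^ (t - 1) := by
    rw [hconj, sig_conj, sig_one h2 hx]
  rw [sig_form h2 hπ hfix hpair] at hsig
  have hS := Nat.pow_right_injective (by norm_num : 2 ≤ 3) hsig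
  set S := {i : Fin t | i ≤ π i ∧ (π i = i → IsPM (A i))} with hSdef
  have hc : Sᶜ.ncard = 1 := by
    rw [Set.ncard_compl, hS, Nat.card_eq_fintype_card, Fintype.card_fin]; omega
  obtain ⟨i₀, hi₀⟩ := Set.ncard_eq_one.1 hc
  have hmem : ∀ i, i ≠ i₀ → i ≤ π i ∧ (π i = i → IsPM (A i)) := fun i hi => by
    by_contra h
    have : i ∈ Sᶜ := h
    rw [hi₀] at this
    exact hi this
  have hnot : ¬ (i₀ ≤ π i₀ ∧ (π i₀ = i₀ → IsPM (A i₀))) := by
    have : i₀ ∈ Sᶜ := by rw [hi₀]; exact Set.mem_singleton _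
    exact this
  by_cases hfx : π i₀ = i₀
  · have hone : π = 1 := by
      refine Equiv.ext fun i => ?_
      rcases eq_or_ne i i₀ with rfl | hi
      · exact hfx
      · refine le_antisymm ?_ (hmem i hi).1
        have hne : π i ≠ i₀ := fun e => hi (π.injective (e.trans hfx.symm))
        simpa [hπ] using (hmem _ hne).1
    subst hone
    have hns : ¬ IsPM (A i₀) := fun h => hnot ⟨le_rfl, fun _ => h⟩
    obtain ⟨h, hh, e⟩ := exists_gs_eq fun i hi => (hmem i hi).2 rfl
    rw [glFactorPerm_one', mul_one, e] at hO ⊢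
    have hhh : h * h = 1 := by rcases hh with rfl | rfl <;> simp [hfix i₀ rfl]
    have hhO : h ∈ O3m F := by
      rcases hh with rfl | rfl
      · exact hA i₀
      · exact mem_isometry_of _ (by
          rw [Units.val_neg, transpose_neg, neg_mul_neg]; exact isometry_transpose_mul h2 (hA i₀))
    refine Or.inl ⟨i₀, h, hinv h (hOm i₀ h hhO hO) hhh fun h1 => hns ?_, rfl⟩
    rcases hh with rfl | rfl
    · exact Or.inl (by rw [h1, Units.val_one])
    · exact Or.inr (by rw [show A i₀ = -1 from neg_eq_iff_eq_neg.1 h1, Units.val_neg, Units.val_one])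
  · have hsw : π = Equiv.swap i₀ (π i₀) := by
      refine Equiv.ext fun i => ?_
      rcases eq_or_ne i i₀ with rfl | hi
      · rw [Equiv.swap_apply_left]
      rcases eq_or_ne i (π i₀) with rfl | hi'
      · rw [Equiv.swap_apply_right, hπ]
      rw [Equiv.swap_apply_of_ne_of_ne hi hi']
      refine le_antisymm ?_ (hmem i hi).1
      have hne : π i ≠ i₀ := fun e => hi' (by rw [← e, hπ])
      simpa [hπ] using (hmem _ hne).1
    refine Or.inr ⟨i₀, π i₀, Ne.symm hfx, ?_, fun r hr hr' h => ?_⟩
    · rw [← hsw]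
      rintro r _ ⟨h, hh, rfl⟩
      exact ⟨_, half_conj_of_orth h2 (hA (π r)) hh, by rw [form_mul_gs, mul_inv_cancel_right]⟩
    · have hfr : π r = r := by rw [hsw, Equiv.swap_apply_of_ne_of_ne hr hr']
      rw [form_mul_gs, hfr]
      congr 2
      refine Units.ext ?_
      rw [Units.val_mul, Units.val_mul]
      rcases (hmem r hr).2 hfr with e | e
      · rw [show A r = 1 from Units.ext e]; simp
      · rw [show A r = -1 from Units.ext (by rw [e, Units.val_neg, Units.val_one])]; simp

end Cfsg.Agent.MaxSub.OWT
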