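import Cfsg.Agent.MaxSub.OrthWreathThree.Basic
import Cfsg.Agent.MaxSub.TensorSquareThree.O3
import Cfsg.Agent.GeoClasses.OrthMaxBase

/-!
One factor of the tensor power: half turns in the derived group of the three dimensional
orthogonal group of the sum of squares.
-/

set_option autoImplicit false
set_option linter.unusedSectionVars false
set_option linter.style.haveILetI false

namespace Cfsg.Agent.MaxSub.OWT

open Matrix Cfsg.Geo
open Cfsg.Agent.MaxSub.TensorSquareThree (Q3 Q3_dot O3 U3 hturn hturn_apply hturn_sq hturn_conj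
  hturn_congr hturn_smul hturn_mem_iff polar_Q3_dot polar_e Q3_e Q3_e_ne axis_of_comm
  eq_smul_of_hturn_fix)
open scoped MatrixGroups

variable {F : Type*} [Field F]

/-! ### From isometries to matrices -/

lemma Q3_coe : ⇑(Q3 F) = qs F (Fin 3) := funext Q3_dot

/-- An isometry of three squares as a matrix. -/
noncomputable def toM3 : O3 F →* GL (Fin 3) F := GeoClasses.oqToGL (Q3 F)

lemma toM3_mulVec (A : O3 F) (v : Fin 3 → F) :
    (toM3 A : Matrix (Fin 3) (Fin 3) F) *ᵥ v = A.1 v := GeoClasses.oqToGL_mulVec _ A v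

lemma toM3_injective : Function.Injective (toM3 : O3 F → GL (Fin 3) F) :=
  GeoClasses.oqToGL_injective _

lemma toM3_mem (A : O3 F) : toM3 A ∈ O3m F := by
  rw [O3m, ← Q3_coe]
  exact ((OrthGen.matEquiv (Q3 F)).symm A).2

lemma exists_toM3 {g : GL (Fin 3) F} (hg : g ∈ O3m F) : ∃ A : O3 F, toM3 A = g := by
  rw [O3m, ← Q3_coe] at hg
  refine ⟨OrthGen.matEquiv (Q3 F) ⟨g, hg⟩, ?_⟩
  show ((OrthGen.matEquiv (Q3 F)).symm (OrthGen.matEquiv (Q3 F) ⟨g, hg⟩) : GL (Fin 3) F) = g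
  rw [MulEquiv.symm_apply_apply]

lemma U3m_eq_map : U3m F = (U3 F).map toM3 := by
  rw [U3m, ← Q3_coe]
  exact (GeoClasses.map_oqToGL_commutator (Q3 F)).symm

lemma toM3_mem_U3m_iff {A : O3 F} : toM3 A ∈ U3m F ↔ A ∈ U3 F := by
  rw [U3m_eq_map, Subgroup.mem_map_iff_mem toM3_injective]

lemma conj_mem_U3m {g x : GL (Fin 3) F} (hg : g ∈ O3m F) (hx : x ∈ U3m F) :
    g * x * g⁻¹ ∈ U3m F := by
  obtain ⟨A, rfl⟩ := exists_toM3 hg
  rw [U3m_eq_map] at hx ⊢
  obtain ⟨B, hB, rfl⟩ := hx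
  exact ⟨A * B * A⁻¹, (inferInstance : (U3 F).Normal).conj_mem B hB A,
    by rw [map_mul, map_mul, map_inv]⟩

lemma det_of_mem_U3m {h : GL (Fin 3) F} (hh : h ∈ U3m F) :
    (h : Matrix (Fin 3) (Fin 3) F).det = 1 := by
  obtain ⟨g, hg, rfl⟩ := hh
  have hle : Cfsg.Omega F (qs F (Fin 3)) ≤
      (Matrix.GeneralLinearGroup.det.comp (Cfsg.isometryGroup F (qs F (Fin 3))).subtype).ker :=
    Abelianization.commutator_subset_ker _
  exact congrArg Units.val (MonoidHom.mem_ker.1 (hle hg))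

/-! ### Half turns -/

lemma ax_val_apply (u : Fin 3 → F) (i j : Fin 3) :
    ax u i j = 2 * (u i * u j) - (1 : Matrix (Fin 3) (Fin 3) F) i j := by
  rw [ax, Matrix.sub_apply, Matrix.smul_apply, vecMulVec_apply, nsmul_eq_mul, Nat.cast_ofNat]

lemma Q3_ne_zero_of_one {u : Fin 3 → F} (hu : Q3 F u = 1) : Q3 F u ≠ 0 := by
  rw [hu]; exact one_ne_zero

lemma toM3_hturn {u : Fin 3 → F} (hu : Q3 F u = 1) :
    (toM3 (hturn u (Q3_ne_zero_of_one hu)) : Matrix (Fin 3) (Fin 3) F) = ax u := by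
  refine Matrix.ext_iff_mulVec.2 fun v => ?_
  rw [toM3_mulVec, hturn_apply, hu, polar_Q3_dot, inv_one, one_mul, ax, sub_mulVec, one_mulVec,
    smul_mulVec, vecMulVec_mulVec, op_smul_eq_smul]
  module

lemma IsHalf.exists_hturn {h : GL (Fin 3) F} (hh : IsHalf h) :
    ∃ (u : Fin 3 → F) (hu : Q3 F u = 1), h = toM3 (hturn u (Q3_ne_zero_of_one hu)) := by
  obtain ⟨u, hu, hval⟩ := hh
  refine ⟨u, (Q3_dot u).trans hu, Units.ext ?_⟩
  rw [toM3_hturn ((Q3_dot u).trans hu), hval]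

lemma isHalf_toM3_hturn {u : Fin 3 → F} (hu : Q3 F u = 1) (h : Q3 F u ≠ 0) :
    IsHalf (toM3 (hturn u h)) := ⟨u, (Q3_dot u).symm.trans hu, toM3_hturn hu⟩

lemma fr_eq_toM3 (i : Fin 3) : fr F i = toM3 (TensorSquareThree.t i) := by
  refine Units.ext (Matrix.ext_iff_mulVec.2 fun v => funext fun k => ?_)
  rw [toM3_mulVec, TensorSquareThree.t_apply]
  show ((diagonal fun j => if j = i then (1 : F) else -1) *ᵥ v) k = _
  rw [mulVec_diagonal]
  split_ifs <;> simp

lemma fr_half (i : Fin 3) : IsHalf (fr F i) := by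
  rw [fr_eq_toM3]
  exact isHalf_toM3_hturn (Q3_e i) _

lemma fr_mul_self (i : Fin 3) : fr F i * fr F i = 1 := by
  rw [fr_eq_toM3, ← map_mul, TensorSquareThree.t_sq, map_one]

lemma fr_inv (i : Fin 3) : (fr F i)⁻¹ = fr F i := inv_eq_of_mul_eq_one_right (fr_mul_self i)

lemma fr_mul {i j k : Fin 3} (hij : i ≠ j) (hik : i ≠ k) (hjk : j ≠ k) :
    fr F i * fr F j = fr F k := by
  rw [fr_eq_toM3, fr_eq_toM3, fr_eq_toM3, ← map_mul, TensorSquareThree.t_mul hij hik hjk]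

lemma fr_comm (i j : Fin 3) : fr F i * fr F j = fr F j * fr F i := by
  rw [fr_eq_toM3, fr_eq_toM3, ← map_mul, ← map_mul, TensorSquareThree.t_comm]

lemma half_mul_self {h : GL (Fin 3) F} (hh : IsHalf h) : h * h = 1 := by
  obtain ⟨u, hu, rfl⟩ := hh.exists_hturn
  rw [← map_mul, hturn_sq, map_one]

lemma half_inv {h : GL (Fin 3) F} (hh : IsHalf h) : h⁻¹ = h :=
  inv_eq_of_mul_eq_one_right (half_mul_self hh)

lemma half_mem_O3m {h : GL (Fin 3) F} (hh : IsHalf h) : h ∈ O3m F := by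
  obtain ⟨u, hu, rfl⟩ := hh.exists_hturn
  exact toM3_mem _

lemma half_ne_one (h2 : (2 : F) ≠ 0) {h : GL (Fin 3) F} (hh : IsHalf h) : h ≠ 1 := by
  obtain ⟨u, hu, rfl⟩ := hh.exists_hturn
  intro h1
  have hfix : ∀ v, (hturn u (Q3_ne_zero_of_one hu)).1 v = v := fun v => by
    rw [← toM3_mulVec, h1, Units.val_one, one_mulVec]
  obtain ⟨a, ha⟩ := eq_smul_of_hturn_fix h2 (hfix (Pi.single 0 1))
  obtain ⟨b, hb⟩ := eq_smul_of_hturn_fix h2 (hfix (Pi.single 1 1))
  have a0 := congrFun ha 0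
  have b0 := congrFun hb 0
  have b1 := congrFun hb 1
  simp at a0 b0 b1
  rcases b0 with b0 | b0
  · simp [b0] at b1
  · simp [b0] at a0

lemma isHalf_conj {g h : GL (Fin 3) F} (hg : g ∈ O3m F) (hh : IsHalf h) :
    IsHalf (g * h * g⁻¹) := by
  obtain ⟨u, hu, rfl⟩ := hh.exists_hturn
  obtain ⟨A, rfl⟩ := exists_toM3 hg
  have hAu : Q3 F (A.1 u) = 1 := (Classical.OQ_map_app A u).trans hu
  rw [← map_inv, ← map_mul, ← map_mul, hturn_conj A u _ (Q3_ne_zero_of_one hAu)]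
  exact isHalf_toM3_hturn hAu _

/-- Conjugating the coordinate half turn gives the half turn about the image column. -/
lemma conj_fr_val {g : GL (Fin 3) F} (hg : g ∈ O3m F) (i : Fin 3) :
    ((g * fr F i * g⁻¹ : GL (Fin 3) F) : Matrix (Fin 3) (Fin 3) F) =
      ax (fun k => (g : Matrix (Fin 3) (Fin 3) F) k i) := by
  obtain ⟨A, rfl⟩ := exists_toM3 hg
  have hcol : (fun k => (toM3 A : Matrix (Fin 3) (Fin 3) F) k i) = A.1 (Pi.single i 1) := by
    rw [← toM3_mulVec, mulVec_single_one]; rfl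
  have hAu : Q3 F (A.1 (Pi.single i 1)) = 1 := (Classical.OQ_map_app A _).trans (Q3_e i)
  rw [hcol, fr_eq_toM3, ← map_inv, ← map_mul, ← map_mul, TensorSquareThree.t,
    hturn_conj A _ _ (Q3_ne_zero_of_one hAu), toM3_hturn hAu]

lemma exists_conj_half (h2 : (2 : F) ≠ 0) {h : GL (Fin 3) F} (hh : IsHalf h) :
    ∃ g ∈ O3m F, g * fr F 0 * g⁻¹ = h := by
  obtain ⟨u, hu, rfl⟩ := hh.exists_hturn
  obtain ⟨R, hR, -⟩ := TensorSquareThree.exists_conj_hturn h2 (Q3_e_ne (F := F) 0)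
    (Q3_ne_zero_of_one hu) (by rw [Q3_e, hu, one_mul]; exact IsSquare.one)
  exact ⟨toM3 R, toM3_mem R, by rw [fr_eq_toM3, ← map_inv, ← map_mul, ← map_mul]; exact congrArg toM3 hR⟩

lemma exists_conj_pair (h2 : (2 : F) ≠ 0) {h k : GL (Fin 3) F} (hh : IsHalf h) (hk : IsHalf k)
    (hc : h * k = k * h) (hne : h ≠ k) :
    ∃ g ∈ O3m F, g * fr F 0 * g⁻¹ = h ∧ g * fr F 1 * g⁻¹ = k := by
  obtain ⟨u, hu, rfl⟩ := hh.exists_hturn
  obtain ⟨v, hv, rfl⟩ := hk.exists_hturn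
  rw [← map_mul, ← map_mul] at hc
  have hperp : u ⬝ᵥ v = 0 := by
    rcases axis_of_comm h2 (toM3_injective hc).symm with h | h
    · obtain ⟨c, hc'⟩ := eq_smul_of_hturn_fix h2 h
      refine absurd ?_ hne
      have hc0 : c ≠ 0 := fun h0 => Q3_ne_zero_of_one hu (by rw [hc', h0, zero_smul, map_zero])
      rw [hturn_congr hc' (Q3_ne_zero_of_one hu) (hc' ▸ Q3_ne_zero_of_one hu),
        hturn_smul (Q3_ne_zero_of_one hv) hc0]
    · rw [hturn_apply, hv, inv_one, one_mul, polar_Q3_dot, add_eq_left, smul_eq_zero] at h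
      rcases h with h | h
      · rw [dotProduct_comm]; exact (mul_eq_zero.1 h).resolve_left h2
      · rw [h, map_zero] at hv; exact absurd hv zero_ne_one
  have hu' := hu
  have hv' := hv
  rw [Q3_dot, dotProduct, Fin.sum_univ_three] at hu hv
  rw [dotProduct, Fin.sum_univ_three] at hperp
  let M : Matrix (Fin 3) (Fin 3) F :=
    !![u 0, v 0, u 1 * v 2 - u 2 * v 1; u 1, v 1, u 2 * v 0 - u 0 * v 2;
      u 2, v 2, u 0 * v 1 - u 1 * v 0]
  have hM : Mᵀ * M = 1 := by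
    ext a b
    fin_cases a <;> fin_cases b <;> simp [M, Matrix.mul_apply, Fin.sum_univ_three]
    · linear_combination hu
    · linear_combination hperp
    · ring
    · linear_combination hperp
    · linear_combination hv
    · ring
    · ring
    · ring
    · linear_combination (v 0 * v 0 + v 1 * v 1 + v 2 * v 2) * hu + hv -
        (u 0 * v 0 + u 1 * v 1 + u 2 * v 2) * hperp
  have hg : (⟨M, Mᵀ, mul_eq_one_comm.1 hM, hM⟩ : GL (Fin 3) F) ∈ O3m F := mem_isometry_of _ hM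
  refine ⟨_, hg, Units.ext ?_, Units.ext ?_⟩
  · rw [conj_fr_val hg, toM3_hturn hu']
    congr 1
    funext i
    fin_cases i <;> rfl
  · rw [conj_fr_val hg, toM3_hturn hv']
    congr 1
    funext i
    fin_cases i <;> rfl

/-! ### Permutation matrices -/

/-- The cyclic permutation matrix. -/
def cy (F : Type*) [Field F] : GL (Fin 3) F where
  val := !![0, 0, 1; 1, 0, 0; 0, 1, 0]
  inv := !![0, 1, 0; 0, 0, 1; 1, 0, 0]
  val_inv := by ext i j; fin_cases i <;> fin_cases j <;> simp [Matrix.mul_apply, Fin.sum_univ_three]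
  inv_val := by ext i j; fin_cases i <;> fin_cases j <;> simp [Matrix.mul_apply, Fin.sum_univ_three]

/-- The permutation matrix exchanging the last two coordinates. -/
def tau (F : Type*) [Field F] : GL (Fin 3) F where
  val := !![1, 0, 0; 0, 0, 1; 0, 1, 0]
  inv := !![1, 0, 0; 0, 0, 1; 0, 1, 0]
  val_inv := by ext i j; fin_cases i <;> fin_cases j <;> simp [Matrix.mul_apply, Fin.sum_univ_three]
  inv_val := by ext i j; fin_cases i <;> fin_cases j <;> simp [Matrix.mul_apply, Fin.sum_univ_three]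

lemma cy_eq_toM3 : cy F = toM3 TensorSquareThree.cyc := by
  refine Units.ext (Matrix.ext_iff_mulVec.2 fun v => funext fun k => ?_)
  rw [toM3_mulVec, TensorSquareThree.cyc_apply]
  fin_cases k <;> (simp [cy, Matrix.mulVec, dotProduct, Fin.sum_univ_three] <;> rfl)

lemma cy_conj (i : Fin 3) : cy F * fr F i * (cy F)⁻¹ = fr F (i + 1) := by
  rw [cy_eq_toM3, fr_eq_toM3, fr_eq_toM3, ← map_inv, ← map_mul, ← map_mul,
    TensorSquareThree.cyc_conj]

lemma tau_mem : tau F ∈ O3m F := by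
  refine mem_isometry_of _ ?_
  ext i j
  fin_cases i <;> fin_cases j <;> simp [tau, Matrix.mul_apply, Fin.sum_univ_three]

lemma tau_mul_self : tau F * tau F = 1 := Units.ext (tau F).inv_val

/-! ### The centraliser of a coordinate half turn -/

lemma comm_fr0 (h2 : (2 : F) ≠ 0) {h : GL (Fin 3) F} (hh : h ∈ O3m F)
    (hc : h * fr F 0 = fr F 0 * h) :
    ((h : Matrix (Fin 3) (Fin 3) F) 0 0 = 1 ∨ (h : Matrix (Fin 3) (Fin 3) F) 0 0 = -1) ∧
      ∀ j ≠ 0, (h : Matrix (Fin 3) (Fin 3) F) 0 j = 0 ∧ (h : Matrix (Fin 3) (Fin 3) F) j 0 = 0 := by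
  set H := (h : Matrix (Fin 3) (Fin 3) F) with hH
  have hz : ∀ j ≠ 0, H 0 j = 0 ∧ H j 0 = 0 := by
    intro j hj
    have h1 : (H * diagonal fun m => if m = (0 : Fin 3) then (1 : F) else -1) 0 j =
        ((diagonal fun m => if m = (0 : Fin 3) then (1 : F) else -1) * H) 0 j :=
      congrArg (fun M : GL (Fin 3) F => (M : Matrix (Fin 3) (Fin 3) F) 0 j) hc
    have h3 : (H * diagonal fun m => if m = (0 : Fin 3) then (1 : F) else -1) j 0 =
        ((diagonal fun m => if m = (0 : Fin 3) then (1 : F) else -1) * H) j 0 :=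
      congrArg (fun M : GL (Fin 3) F => (M : Matrix (Fin 3) (Fin 3) F) j 0) hc
    simp only [mul_diagonal, diagonal_mul, if_neg hj, if_true, one_mul, mul_one, mul_neg,
      neg_mul] at h1 h3
    exact ⟨(mul_eq_zero.1 (by linear_combination -h1 : (2 : F) * H 0 j = 0)).resolve_left h2,
      (mul_eq_zero.1 (by linear_combination h3 : (2 : F) * H j 0 = 0)).resolve_left h2⟩
  refine ⟨mul_self_eq_one_iff.1 ?_, hz⟩
  have := congrFun (congrFun (isometry_transpose_mul h2 hh) 0) 0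
  rw [Matrix.mul_apply, Fin.sum_univ_three, ← hH, transpose_apply, transpose_apply, transpose_apply,
    (hz 1 (by decide)).2, (hz 2 (by decide)).2, one_apply_eq] at this
  linear_combination this

/-- An element of the derived group commuting with the first half turn is determined by two
entries. -/
lemma stab_form (h2 : (2 : F) ≠ 0) {h : GL (Fin 3) F} (hh : h ∈ U3m F)
    (hc : h * fr F 0 = fr F 0 * h) :
    ∃ s a b : F, (h : Matrix (Fin 3) (Fin 3) F) 0 0 = s ∧ s * s = 1 ∧ a * a + b * b = 1 ∧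
      (h : Matrix (Fin 3) (Fin 3) F) = !![s, 0, 0; 0, a, b; 0, -s * b, s * a] := by
  have hO := U3m_le hh
  obtain ⟨h00, hz⟩ := comm_fr0 h2 hO hc
  set H := (h : Matrix (Fin 3) (Fin 3) F) with hH
  have hd := det_of_mem_U3m hh
  have hT := isometry_transpose_mul h2 hO
  rw [← hH] at hd hT
  have hT' : H * Hᵀ = 1 := mul_eq_one_comm.1 hT
  have e1 := congrFun (congrFun hT 1) 1
  have e3 := congrFun (congrFun hT 1) 2
  have e5 := congrFun (congrFun hT 2) 2
  have e4 := congrFun (congrFun hT' 1) 1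
  obtain ⟨z1, z1'⟩ := hz 1 (by decide)
  obtain ⟨z2, z2'⟩ := hz 2 (by decide)
  simp [Matrix.mul_apply, Fin.sum_univ_three, z1, z1', z2] at e1 e3 e4 e5
  rw [det_fin_three, z1, z1', z2, z2'] at hd
  have hs : H 0 0 * H 0 0 = 1 := mul_self_eq_one_iff.2 h00
  refine ⟨H 0 0, H 1 1, H 1 2, rfl, hs, by linear_combination e4, ?_⟩
  have k2 : H 2 2 = H 0 0 * H 1 1 := by
    linear_combination (H 0 0 * H 1 1) * hd - H 2 2 * e1 + H 2 1 * e3 -
      H 1 1 * (H 1 1 * H 2 2 - H 1 2 * H 2 1) * hs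
  have k1 : H 2 1 = -H 0 0 * H 1 2 := by
    linear_combination -(H 0 0 * H 1 2) * hd - H 2 1 * e5 + H 2 2 * e3 +
      H 1 2 * (H 1 1 * H 2 2 - H 1 2 * H 2 1) * hs
  ext i j
  fin_cases i <;> fin_cases j <;> simp [z1, z1', z2, z2', k1, k2]

lemma rot_comm (h2 : (2 : F) ≠ 0) {g h : GL (Fin 3) F} (hg : g ∈ U3m F) (hh : h ∈ U3m F)
    (hgc : g * fr F 0 = fr F 0 * g) (hhc : h * fr F 0 = fr F 0 * h)
    (hg0 : (g : Matrix (Fin 3) (Fin 3) F) 0 0 = 1) (hh0 : (h : Matrix (Fin 3) (Fin 3) F) 0 0 = 1) :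
    g * h = h * g := by
  obtain ⟨s, a, b, hs, -, -, hgv⟩ := stab_form h2 hg hgc
  obtain ⟨s', a', b', hs', -, -, hhv⟩ := stab_form h2 hh hhc
  obtain rfl : s = 1 := hs.symm.trans hg0
  obtain rfl : s' = 1 := hs'.symm.trans hh0
  refine Units.ext ?_
  rw [Units.val_mul, Units.val_mul, hgv, hhv]
  ext i j
  fin_cases i <;> fin_cases j <;> simp [Matrix.mul_apply, Fin.sum_univ_three] <;> ring

lemma rot_invol (h2 : (2 : F) ≠ 0) {h : GL (Fin 3) F} (hh : h ∈ U3m F)
    (hc : h * fr F 0 = fr F 0 * h) (h0 : (h : Matrix (Fin 3) (Fin 3) F) 0 0 = 1)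
    (hsq : h * h = 1) : h = 1 ∨ h = fr F 0 := by
  obtain ⟨s, a, b, hs, -, hab, hv⟩ := stab_form h2 hh hc
  obtain rfl : s = 1 := hs.symm.trans h0
  have h11 := congrArg (fun M : GL (Fin 3) F => (M : Matrix (Fin 3) (Fin 3) F) 1 1) hsq
  simp [hv, Matrix.mul_apply, Fin.sum_univ_three] at h11
  have hb : b = 0 := by
    have : (2 : F) * (b * b) = 0 := by linear_combination hab - h11
    exact mul_self_eq_zero.1 ((mul_eq_zero.1 this).resolve_left h2)
  subst hb
  rcases mul_self_eq_one_iff.1 (by linear_combination hab : a * a = 1) with rfl | rfl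
  · refine Or.inl (Units.ext ?_)
    rw [hv]
    ext i j
    fin_cases i <;> fin_cases j <;> simp
  · refine Or.inr (Units.ext ?_)
    rw [hv]
    ext i j
    fin_cases i <;> fin_cases j <;> simp [fr]

lemma refl_mul_self (h2 : (2 : F) ≠ 0) {h : GL (Fin 3) F} (hh : h ∈ U3m F)
    (hc : h * fr F 0 = fr F 0 * h) (h0 : (h : Matrix (Fin 3) (Fin 3) F) 0 0 = -1) : h * h = 1 := by
  obtain ⟨s, a, b, hs, -, hab, hv⟩ := stab_form h2 hh hc
  obtain rfl : s = -1 := hs.symm.trans h0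
  refine Units.ext ?_
  rw [Units.val_mul, hv, Units.val_one]
  ext i j
  fin_cases i <;> fin_cases j <;> simp [Matrix.mul_apply, Fin.sum_univ_three]
  · linear_combination hab
  · ring
  · ring
  · linear_combination hab

variable [Finite F]

lemma half_mem (h2 : (2 : F) ≠ 0) {h : GL (Fin 3) F} (hh : IsHalf h) : h ∈ U3m F := by
  obtain ⟨u, hu, rfl⟩ := hh.exists_hturn
  rw [toM3_mem_U3m_iff, hturn_mem_iff h2, hu]
  exact IsSquare.one

lemma cy_mem (h2 : (2 : F) ≠ 0) : cy F ∈ U3m F := by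
  rw [cy_eq_toM3, toM3_mem_U3m_iff]
  exact TensorSquareThree.cyc_mem h2

lemma isHalf_of_invol (h2 : (2 : F) ≠ 0) {h : GL (Fin 3) F} (hh : h ∈ U3m F) (hsq : h * h = 1)
    (h1 : h ≠ 1) : IsHalf h := by
  rw [U3m_eq_map] at hh
  obtain ⟨A, hA, rfl⟩ := hh
  rw [← map_mul] at hsq
  obtain ⟨ν, hν, rfl⟩ := TensorSquareThree.exists_hturn h2
    (toM3_injective (hsq.trans (map_one toM3).symm)) (TensorSquareThree.dick_of_mem h2 hA)
    fun h => h1 (by rw [h, map_one])
  obtain ⟨r, hr⟩ := (hturn_mem_iff h2 ν hν).1 hA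
  have hr0 : r ≠ 0 := fun h0 => hν (by rw [hr, h0, mul_zero])
  have hQ : Q3 F (r⁻¹ • ν) = 1 := by
    rw [QuadraticMap.map_smul, smul_eq_mul, hr]
    field_simp
  rw [← hturn_smul hν (inv_ne_zero hr0) (Q3_ne_zero_of_one hQ)]
  exact isHalf_toM3_hturn hQ _

lemma refl_invol (h2 : (2 : F) ≠ 0) {h : GL (Fin 3) F} (hh : h ∈ U3m F)
    (hc : h * fr F 0 = fr F 0 * h) (h0 : (h : Matrix (Fin 3) (Fin 3) F) 0 0 = -1) : IsHalf h := by
  refine isHalf_of_invol h2 hh (refl_mul_self h2 hh hc h0) fun h1 => h2 ?_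
  rw [h1, Units.val_one, one_apply_eq] at h0
  linear_combination h0

lemma rot_conj (h2 : (2 : F) ≠ 0) {h : GL (Fin 3) F} (hh : h ∈ U3m F)
    (hc : h * fr F 0 = fr F 0 * h) (h0 : (h : Matrix (Fin 3) (Fin 3) F) 0 0 = 1) :
    fr F 1 * h * fr F 1 = h⁻¹ := by
  have hsq := refl_mul_self h2 (mul_mem (half_mem h2 (fr_half 1)) hh)
    (show fr F 1 * h * fr F 0 = fr F 0 * (fr F 1 * h) by
      rw [mul_assoc, hc, ← mul_assoc, fr_comm 1 0, mul_assoc])
    (by simp [fr, diagonal_mul, h0])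
  exact eq_inv_of_mul_eq_one_left (by rw [mul_assoc]; exact hsq)

lemma exists_stab_mul (h2 : (2 : F) ≠ 0) {h : GL (Fin 3) F} (hh : h ∈ O3m F) :
    ∃ k ∈ O3m F, k * fr F 0 = fr F 0 * k ∧ (k : Matrix (Fin 3) (Fin 3) F) 0 0 = 1 ∧
      k * h ∈ U3m F := by
  obtain ⟨B, rfl⟩ := exists_toM3 hh
  obtain ⟨k, hk, hkB⟩ := TensorSquareThree.exists_stab_mul_mem h2 0 B
  refine ⟨toM3 k, toM3_mem k, ?_, ?_, by rw [← map_mul, toM3_mem_U3m_iff]; exact hkB⟩
  · rw [fr_eq_toM3, ← map_mul, ← map_mul]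
    congr 1
    have h' : Q3 F (k.1 (Pi.single 0 1)) ≠ 0 := by rw [hk]; exact Q3_e_ne 0
    have := hturn_conj k (Pi.single 0 1) (Q3_e_ne 0) h'
    rw [hturn_congr hk h' (Q3_e_ne 0), mul_inv_eq_iff_eq_mul] at this
    exact this
  · have := congrFun (toM3_mulVec k (Pi.single 0 1)) 0
    rw [hk, mulVec_single_one] at this
    simpa using this

lemma half_commutator (h2 : (2 : F) ≠ 0) {h : GL (Fin 3) F} (hh : IsHalf h) :
    ∃ a ∈ U3m F, ∃ b ∈ U3m F, h = a * b * a⁻¹ * b⁻¹ := by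
  obtain ⟨g, hg, rfl⟩ := exists_conj_half h2 hh
  refine ⟨g * cy F * g⁻¹, conj_mem_U3m hg (cy_mem h2), g * fr F 1 * g⁻¹,
    conj_mem_U3m hg (half_mem h2 (fr_half 1)), ?_⟩
  have : fr F 0 = cy F * fr F 1 * (cy F)⁻¹ * (fr F 1)⁻¹ := by
    rw [cy_conj, fr_inv, show (1 : Fin 3) + 1 = 2 by decide,
      fr_mul (i := 2) (j := 1) (k := 0) (by decide) (by decide) (by decide)]
  rw [this]
  group

/-- A unit vector with two non-zero coordinates. -/
lemma exists_unit_two (h2 : (2 : F) ≠ 0) (hq : 5 ≤ Nat.card F) :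
    ∃ u : Fin 3 → F, u ⬝ᵥ u = 1 ∧ u 0 ≠ 0 ∧ u 1 ≠ 0 := by
  by_cases hsq : IsSquare (-1 : F)
  · obtain ⟨i, hi⟩ := hsq
    exact ⟨![1, 1, i], by simp [dotProduct, Fin.sum_univ_three, ← hi], by simp, by simp⟩
  · classical
    haveI := Fintype.ofFinite F
    obtain ⟨t, -, ht⟩ : ∃ t ∈ (Finset.univ : Finset F), t ∉ ({0, 1, -1} : Finset F) :=
      Finset.exists_mem_notMem_of_card_lt_card (lt_of_le_of_lt Finset.card_le_three (by
        rw [Finset.card_univ, ← Nat.card_eq_fintype_card]; omega))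
    simp only [Finset.mem_insert, Finset.mem_singleton, not_or] at ht
    have hd : t * t + 1 ≠ 0 := fun h => hsq ⟨t, by linear_combination -h⟩
    refine ⟨![(t * t - 1) / (t * t + 1), 2 * t / (t * t + 1), 0], ?_, ?_, ?_⟩
    · simp only [dotProduct, Fin.sum_univ_three, Matrix.cons_val_zero, Matrix.cons_val_one,
        Matrix.cons_val]
      rw [mul_zero, add_zero, div_mul_div_comm, div_mul_div_comm, ← add_div,
        div_eq_one_iff_eq (mul_ne_zero hd hd)]
      ring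
    · simp only [Matrix.cons_val_zero]
      refine div_ne_zero (fun h => ?_) hd
      rcases mul_self_eq_one_iff.1 (by linear_combination h : t * t = 1) with h' | h'
      · exact ht.2.1 h'
      · exact ht.2.2 h'
    · simp only [Matrix.cons_val_one, Matrix.cons_val_zero]
      exact div_ne_zero (mul_ne_zero h2 ht.1) hd

lemma exists_isHalf_val {u : Fin 3 → F} (hu : u ⬝ᵥ u = 1) :
    ∃ k : GL (Fin 3) F, IsHalf k ∧ (k : Matrix (Fin 3) (Fin 3) F) = ax u :=
  ⟨toM3 (hturn u (Q3_ne_zero_of_one ((Q3_dot u).trans hu))),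
    isHalf_toM3_hturn ((Q3_dot u).trans hu) _, toM3_hturn ((Q3_dot u).trans hu)⟩

lemma exists_not_comm (h2 : (2 : F) ≠ 0) (hq : 5 ≤ Nat.card F) {h : GL (Fin 3) F}
    (hh : IsHalf h) : ∃ k, IsHalf k ∧ k * h ≠ h * k := by
  obtain ⟨g, hg, rfl⟩ := exists_conj_half h2 hh
  obtain ⟨u, hu, u0, u1⟩ := exists_unit_two h2 hq
  obtain ⟨k, hk, hkv⟩ := exists_isHalf_val hu
  refine ⟨g * k * g⁻¹, isHalf_conj hg hk, fun hc => ?_⟩
  have hc' : k * fr F 0 = fr F 0 * k := by
    have : g * (k * fr F 0) * g⁻¹ = g * (fr F 0 * k) * g⁻¹ := by simpa [mul_assoc] using hc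
    exact mul_left_cancel (mul_right_cancel this)
  have h01 := ((comm_fr0 h2 (half_mem_O3m hk) hc').2 1 (by decide)).1
  rw [hkv] at h01
  simp [ax_val_apply, h2, u0, u1] at h01

lemma adjoin_half (h2 : (2 : F) ≠ 0) (hq : 5 ≤ Nat.card F) :
    Algebra.adjoin F {M : Matrix (Fin 3) (Fin 3) F |
      ∃ h : GL (Fin 3) F, IsHalf h ∧ (h : Matrix (Fin 3) (Fin 3) F) = M} = ⊤ := by
  set A := Algebra.adjoin F {M : Matrix (Fin 3) (Fin 3) F |
    ∃ h : GL (Fin 3) F, IsHalf h ∧ (h : Matrix (Fin 3) (Fin 3) F) = M} with hA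
  have hmem : ∀ {h : GL (Fin 3) F}, IsHalf h → (h : Matrix (Fin 3) (Fin 3) F) ∈ A :=
    fun {h} hh => Algebra.subset_adjoin ⟨h, hh, rfl⟩
  have hdiag : ∀ i, Matrix.single i i (1 : F) ∈ A := by
    intro i
    have : Matrix.single i i (1 : F) =
        (2 : F)⁻¹ • (1 + (fr F i : Matrix (Fin 3) (Fin 3) F)) := by
      ext a b
      simp only [fr, Matrix.smul_apply, Matrix.add_apply, one_apply, diagonal_apply,
        Matrix.single_apply, smul_eq_mul]
      by_cases hab : a = b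
      · subst hab
        by_cases hai : a = i
        · subst hai
          simp [inv_mul_cancel₀ h2, one_add_one_eq_two]
        · simp [hai, Ne.symm hai]
      · rw [if_neg hab, if_neg hab, if_neg (fun h => hab (h.1.symm.trans h.2)), add_zero, mul_zero]
    rw [this]
    exact A.smul_mem (A.add_mem A.one_mem (hmem (fr_half i))) _
  obtain ⟨u, hu, u0, u1⟩ := exists_unit_two h2 hq
  have hall : ∀ i j, Matrix.single i j (1 : F) ∈ A := by
    intro i j
    by_cases hij : i = j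
    · exact hij ▸ hdiag i
    obtain ⟨σ, hi, hj⟩ : ∃ σ : Equiv.Perm (Fin 3), σ i = 0 ∧ σ j = 1 := by
      revert i j; decide
    have hw : (u ∘ σ) ⬝ᵥ (u ∘ σ) = 1 := by rw [comp_equiv_dotProduct_comp_equiv, hu]
    obtain ⟨k, hk, hkv⟩ := exists_isHalf_val hw
    have hkij : (k : Matrix (Fin 3) (Fin 3) F) i j = 2 * (u 0 * u 1) := by
      simp [hkv, ax_val_apply, hij, hi, hj]
    have hne : (k : Matrix (Fin 3) (Fin 3) F) i j ≠ 0 := by
      rw [hkij]; exact mul_ne_zero h2 (mul_ne_zero u0 u1)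
    have he : Matrix.single i j (1 : F) = ((k : Matrix (Fin 3) (Fin 3) F) i j)⁻¹ •
        (Matrix.single i i (1 : F) * (k : Matrix (Fin 3) (Fin 3) F) * Matrix.single j j 1) := by
      ext a b
      rw [Matrix.smul_apply]
      by_cases hb : b = j
      · subst hb
        by_cases ha : a = i
        · subst ha
          simp [hne]
        · simp [ha, Ne.symm ha]
      · simp [hb, Ne.symm hb]
    rw [he]
    exact A.smul_mem (A.mul_mem (A.mul_mem (hdiag i) (hmem hk)) (hdiag j)) _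
  refine eq_top_iff.2 fun M _ => ?_
  rw [matrix_eq_sum_single M]
  refine A.sum_mem fun i _ => A.sum_mem fun j _ => ?_
  have : Matrix.single i j (M i j) = M i j • Matrix.single i j (1 : F) := by
    rw [Matrix.smul_single, smul_eq_mul, mul_one]
  rw [this]
  exact A.smul_mem (hall i j) _

end Cfsg.Agent.MaxSub.OWT
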