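import Cfsg.Agent.MaxSub.OrthWreathThree.Basic

/-!
The stages of the induction for overgroups of the wreath stabiliser: centralisers of frames, of
axes, and their rows.
-/

set_option autoImplicit false
set_option linter.unusedSectionVars false

namespace Cfsg.Agent.MaxSub.OWT

open Matrix Cfsg.Geo Cfsg.Agent.GeoClasses
open scoped MatrixGroups

variable {F : Type*} [Field F] {t n : ℕ}

/-- Members of `X` centralising a frame of one factor preserve the decomposition. -/
def FrameC (X : Subgroup (GL (Ix t) F)) : Prop :=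
  ∀ g ∈ X, ∀ (r : Fin t) (h : GL (Fin 3) F), h ∈ O3m F →
    (∀ k : Fin 3, g * gs r (h * fr F k * h⁻¹) = gs r (h * fr F k * h⁻¹) * g) → g ∈ Wr F t

/-- Members of `X` centralising the first coordinate axis have rows preserving the decomposition. -/
def RowC (X : Subgroup (GL (Ix (n + 1)) F)) : Prop :=
  ∀ g ∈ X, g * fa 0 0 = fa 0 0 * g →
    ∀ w : GL (Ix n) F, IsRow g (w : Matrix (Ix n) (Ix n) F) → w ∈ Wr F n

/-- Members of `X` centralising an axis preserve the decomposition. -/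
def AxisC (X : Subgroup (GL (Ix t) F)) : Prop :=
  ∀ g ∈ X, ∀ x : GL (Ix t) F, IsAxis x → g * x = x * g → g ∈ Wr F t

lemma mem_map_conj {X : Subgroup (GL (Ix t) F)} {g x : GL (Ix t) F} :
    x ∈ X.map (MulAut.conj g).toMonoidHom ↔ g⁻¹ * x * g ∈ X := by
  constructor
  · rintro ⟨y, hy, rfl⟩; simpa [mul_assoc] using hy
  · exact fun h => ⟨_, h, by simp [mul_assoc]⟩

lemma map_conj_Om {g : GL (Ix t) F} (hg : g ∈ OG F t) :
    (Om F t).map (MulAut.conj g).toMonoidHom = Om F t := by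
  rw [Om_eq, Subgroup.map_commutator, map_conj_self hg]

lemma map_conj_ne_Om {X : Subgroup (GL (Ix t) F)} (hX : X ≠ Om F t) {g : GL (Ix t) F}
    (hg : g ∈ OG F t) : X.map (MulAut.conj g).toMonoidHom ≠ Om F t := fun h => hX <| by
  apply Subgroup.map_injective (f := (MulAut.conj g).toMonoidHom) (MulAut.conj g).injective
  rw [h, map_conj_Om hg]

lemma FrameC.conj {X : Subgroup (GL (Ix t) F)} (hF : FrameC X) {g : GL (Ix t) F}
    (hg : g ∈ Wr F t)
    (hmove : ∀ (r : Fin t) (h : GL (Fin 3) F), h ∈ O3m F → ∃ (s : Fin t) (k : GL (Fin 3) F),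
      k ∈ O3m F ∧ ∀ i, g⁻¹ * gs r (h * fr F i * h⁻¹) * g = gs s (k * fr F i * k⁻¹)) :
    FrameC (X.map (MulAut.conj g).toMonoidHom) := by
  intro x hx r h hh hc
  obtain ⟨s, k, hk, he⟩ := hmove r h hh
  have h1 := hF _ (mem_map_conj.1 hx) s k hk fun i => by
    rw [← he i]
    calc g⁻¹ * x * g * (g⁻¹ * gs r (h * fr F i * h⁻¹) * g)
        = g⁻¹ * (x * gs r (h * fr F i * h⁻¹)) * g := by group
      _ = g⁻¹ * (gs r (h * fr F i * h⁻¹) * x) * g := by rw [hc i]
      _ = g⁻¹ * gs r (h * fr F i * h⁻¹) * g * (g⁻¹ * x * g) := by group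
  simpa [mul_assoc] using (Wr F t).mul_mem ((Wr F t).mul_mem hg h1) ((Wr F t).inv_mem hg)

end Cfsg.Agent.MaxSub.OWT
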