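import Cfsg.Agent.MaxSub.OrthWreathThree.Slice
import Cfsg.Agent.MaxSub.OrthWreathThree.Setting
import Cfsg.Agent.MaxSub.OrthWreathThree.SO3
import Cfsg.Agent.MaxSub.OrthWreathThree.ClassMap
import Cfsg.Agent.MaxSub.OrthWreathThree.Invol
import Cfsg.Agent.MaxSub.TensorSquareThree.Centralisers
import Cfsg.Agent.MaxSub.Proper

/-!
Members of an overgroup centralising an axis preserve the decomposition.
-/

set_option autoImplicit false
set_option linter.unusedSectionVars false
set_option linter.style.haveILetI false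

namespace Cfsg.Agent.MaxSub.OWT

open Matrix Cfsg.Geo Cfsg.Agent.GeoClasses Cfsg.Agent.NotMax
open Cfsg.Agent.MaxSub.TensorSquareThree (fpf_inv dihedral)
open scoped MatrixGroups

variable {F : Type*} [Field F] {t n : ℕ}

/-! ### Columns -/

lemma mulVec_single_eq_iff {A : Matrix (Ix t) (Ix t) F} {x : Ix t} :
    A *ᵥ Pi.single x 1 = Pi.single x 1 ↔ ∀ y, A y x = if y = x then 1 else 0 := by
  rw [mulVec_single_one, funext_iff]
  simp [Matrix.col_apply, Pi.single_apply]

/-- A matrix fixing the support of a vector fixes the vector. -/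
lemma mulVec_eq_of_supp {A : Matrix (Ix t) (Ix t) F} {v : Ix t → F}
    (h : ∀ y, v y ≠ 0 → A *ᵥ Pi.single y 1 = Pi.single y 1) : A *ᵥ v = v := by
  ext z
  simp only [Matrix.mulVec, dotProduct]
  rw [Finset.sum_eq_single z]
  · by_cases hv : v z = 0
    · rw [hv, mul_zero]
    · rw [mulVec_single_eq_iff.1 (h z hv), if_pos rfl, one_mul]
  · intro y _ hy
    by_cases hv : v y = 0
    · rw [hv, mul_zero]
    · rw [mulVec_single_eq_iff.1 (h y hv), if_neg hy.symm, zero_mul]
  · simp

lemma mulVec_col (A : Matrix (Ix t) (Ix t) F) (x z : Ix t) :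
    (A *ᵥ Pi.single x (1 : F)) z = A z x := by
  rw [mulVec_single_one]; rfl

lemma eq_one_of_fix {g : GL (Ix t) F}
    (h : ∀ x, (g : Matrix (Ix t) (Ix t) F) *ᵥ Pi.single x 1 = Pi.single x 1) : g = 1 :=
  Units.ext (Matrix.ext fun y x => by
    rw [mulVec_single_eq_iff.1 (h x), Units.val_one, Matrix.one_apply])

/-- The sign of a coordinate half turn. -/
def sgn (i j : Fin 3) : F := if j = i then 1 else -1

lemma sgn_ne (h2 : (2 : F) ≠ 0) {i j j' : Fin 3} (h : j = i ↔ ¬ j' = i) :
    (sgn i j : F) ≠ sgn i j' := by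
  simp only [sgn]
  by_cases hj : j = i
  · rw [if_pos hj, if_neg (h.1 hj)]; exact one_ne_neg_one h2
  · rw [if_neg hj, if_pos (by simpa [hj] using h)]; exact (one_ne_neg_one h2).symm

lemma fa_val (r : Fin t) (i : Fin 3) :
    ((fa r i : GL (Ix t) F) : Matrix (Ix t) (Ix t) F) = diagonal fun x => sgn i (x r) := by
  ext x y
  rw [fa, gs_val, fr_val]
  by_cases h : ∀ j, j ≠ r → x j = y j
  · rw [site_apply_of_eq _ h]
    by_cases hxy : x = y
    · subst hxy; simp [sgn]
    · rw [diagonal_apply_ne _ hxy, diagonal_apply_ne]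
      intro hr
      exact hxy (funext fun j => by
        by_cases hj : j = r
        · subst hj; exact hr
        · exact h j hj)
  · push Not at h
    obtain ⟨j, hj, hne⟩ := h
    rw [site_apply_of_ne _ hj hne, diagonal_apply_ne _ fun e => hne (congrFun e j)]

lemma fa_mulVec_single (r : Fin t) (i : Fin 3) (x : Ix t) :
    ((fa r i : GL (Ix t) F) : Matrix (Ix t) (Ix t) F) *ᵥ Pi.single x 1 =
      (sgn i (x r) : F) • Pi.single x 1 := by
  rw [fa_val, diagonal_mulVec_single, mul_one]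
  ext y
  simp [Pi.single_apply]

/-- Entries of an element commuting with a diagonal one. -/
lemma apply_eq_zero_of_diag {g a : GL (Ix t) F} {d : Ix t → F}
    (ha : (a : Matrix (Ix t) (Ix t) F) = diagonal d) (hc : g * a = a * g) {y x : Ix t}
    (h : d y ≠ d x) : (g : Matrix (Ix t) (Ix t) F) y x = 0 := by
  have e := congrArg (fun z : GL (Ix t) F => (z : Matrix (Ix t) (Ix t) F) y x) hc
  simp only [Units.val_mul, ha, mul_diagonal, diagonal_mul] at e
  by_contra h0
  exact h (mul_right_cancel₀ h0 (e.symm.trans (mul_comm _ _)))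

lemma supp_of_comm (h2 : (2 : F) ≠ 0) {g : GL (Ix t) F} {r : Fin t} {i : Fin 3}
    (hc : g * fa r i = fa r i * g) {y x : Ix t}
    (h : (g : Matrix (Ix t) (Ix t) F) y x ≠ 0) : y r = i ↔ x r = i := by
  by_contra hne
  exact h (apply_eq_zero_of_diag (fa_val r i) hc (sgn_ne h2 (by tauto)))

lemma mulVec_inv_of_eq {g : GL (Ix t) F} {v w : Ix t → F}
    (h : (g : Matrix (Ix t) (Ix t) F) *ᵥ v = w) :
    ((g⁻¹ : GL (Ix t) F) : Matrix (Ix t) (Ix t) F) *ᵥ w = v := by
  rw [← h, mulVec_mulVec, Units.inv_mul, one_mulVec]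

lemma gs_single (r : Fin t) (h : GL (Fin 3) F) (x : Ix t) {j : Fin 3}
    (hh : ∀ i, (h : Matrix (Fin 3) (Fin 3) F) i (x r) = if i = j then 1 else 0) :
    ((gs r h : GL (Ix t) F) : Matrix (Ix t) (Ix t) F) *ᵥ Pi.single x 1 =
      Pi.single (Function.update x r j) 1 := by
  ext y
  rw [mulVec_col, gs_val, Pi.single_apply]
  by_cases hy : ∀ l, l ≠ r → y l = x l
  · rw [site_apply_of_eq _ hy, hh]
    refine if_congr ⟨fun e => funext fun l => ?_, fun e => by rw [e, Function.update_self]⟩ rfl rfl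
    by_cases hl : l = r
    · subst hl; rw [Function.update_self, e]
    · rw [Function.update_of_ne hl, hy l hl]
  · push Not at hy
    obtain ⟨l, hl, hne⟩ := hy
    rw [site_apply_of_ne _ hl hne, if_neg]
    intro e
    exact hne (by rw [e, Function.update_of_ne hl])

lemma single_conj_perm (π : Equiv.Perm (Fin t)) (x : Ix t) :
    ((glFactorPerm 3 π : GL (Ix t) F) : Matrix (Ix t) (Ix t) F) *ᵥ Pi.single x 1 =
      Pi.single (x ∘ π.symm) 1 := by
  ext y
  rw [mulVec_col, Pi.single_apply]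
  show (if x = y ∘ π then (1 : F) else 0) = _
  refine if_congr ⟨fun e => ?_, fun e => ?_⟩ rfl rfl
  · subst e; funext l; simp
  · subst e; funext l; simp

/-! ### Members of the stabiliser fixing columns -/

/-- Fixing the columns with a zero in one factor leaves one factor only. -/
theorem wr_fix_one [Finite F] (h2 : (2 : F) ≠ 0) {k : GL (Ix t) F} (hk : k ∈ Wr F t) (r : Fin t)
    (hfix : ∀ x : Ix t, x r = 0 →
      (k : Matrix (Ix t) (Ix t) F) *ᵥ Pi.single x 1 = Pi.single x 1) :
    ∃ h ∈ O3m F, (∀ i, (h : Matrix (Fin 3) (Fin 3) F) i 0 = if i = 0 then 1 else 0) ∧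
      k = gs r h := by
  classical
  obtain ⟨A, σ, hA⟩ := MaxSub.tensorWreath_apply hk.1
  have col : ∀ x : Ix t, x r = 0 → ∀ y, ∏ i, A i (y i) (x (σ i)) = if y = x then 1 else 0 :=
    fun x hx y => by rw [← hA]; exact mulVec_single_eq_iff.1 (hfix x hx) y
  have diag : ∀ x : Ix t, x r = 0 → ∀ i, A i (x i) (x (σ i)) ≠ 0 := fun x hx i h0 => by
    have := col x hx x
    rw [if_pos rfl, Finset.prod_eq_zero (Finset.mem_univ i) h0] at this
    exact zero_ne_one this
  have off : ∀ x : Ix t, x r = 0 → ∀ i v, v ≠ x i → A i v (x (σ i)) = 0 := by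
    intro x hx i v hv
    by_contra h0
    have hne : Function.update x i v ≠ x := fun e => hv (by rw [← e, Function.update_self])
    have := col x hx (Function.update x i v)
    rw [if_neg hne, Finset.prod_eq_zero_iff] at this
    obtain ⟨j, -, hj⟩ := this
    by_cases hji : j = i
    · subst hji; rw [Function.update_self] at hj; exact h0 hj
    · rw [Function.update_of_ne hji] at hj; exact diag x hx j hj
  set z : Ix t := fun _ => 0 with hz
  have hzi : ∀ i, i ≠ r → ∀ v, Function.update z i v r = 0 := fun i hi v => by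
    rw [Function.update_of_ne hi.symm]
  have hσ : ∀ i, i ≠ r → σ i = i := by
    intro i hi
    by_contra hl
    have h1 := diag _ (hzi i hi 2) i
    rw [Function.update_self, Function.update_of_ne hl] at h1
    have h3 := off _ (hzi i hi 1) i 2 (by rw [Function.update_self]; decide)
    rw [Function.update_of_ne hl] at h3
    exact h1 h3
  have hσ' : ∀ i, σ i = i := by
    intro i
    by_cases hi : i = r
    · subst hi
      by_contra hl
      exact hl (σ.injective (hσ _ hl))
    · exact hσ i hi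
  have hsc : ∀ i, i ≠ r → ∀ u v, A i u v = if u = v then A i 0 0 else 0 := by
    intro i hi u v
    by_cases huv : u = v
    · subst huv
      rw [if_pos rfl]
      have e1 := col _ (hzi i hi u) (Function.update z i u)
      have e0 := col z rfl z
      rw [if_pos rfl, ← Finset.mul_prod_erase _ _ (Finset.mem_univ i)] at e1 e0
      rw [hσ' i, Function.update_self] at e1
      have he : ∏ x ∈ Finset.univ.erase i, A x (Function.update z i u x) (Function.update z i u (σ x)) =
          ∏ x ∈ Finset.univ.erase i, A x (z x) (z (σ x)) :=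
        Finset.prod_congr rfl fun j hj => by
          rw [hσ' j, Function.update_of_ne (Finset.ne_of_mem_erase hj)]
      rw [he] at e1
      exact mul_right_cancel₀ (right_ne_zero_of_mul_eq_one e0) (e1.trans e0.symm)
    · rw [if_neg huv]
      have := off _ (hzi i hi v) i u (by rw [Function.update_self]; exact huv)
      rwa [hσ' i, Function.update_self] at this
  set c := ∏ i ∈ Finset.univ.erase r, A i 0 0 with hc
  have hk' : (k : Matrix (Ix t) (Ix t) F) = site r (c • A r) := by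
    ext y x
    rw [hA, ← Finset.mul_prod_erase _ _ (Finset.mem_univ r), hσ']
    by_cases hy : ∀ l, l ≠ r → y l = x l
    · rw [site_apply_of_eq _ hy, Matrix.smul_apply, smul_eq_mul, mul_comm, hc]
      congr 1
      refine Finset.prod_congr rfl fun i hi => ?_
      rw [hσ', hsc i (Finset.ne_of_mem_erase hi), if_pos (hy i (Finset.ne_of_mem_erase hi))]
    · push Not at hy
      obtain ⟨l, hl, hne⟩ := hy
      rw [site_apply_of_ne _ hl hne, Finset.prod_eq_zero (Finset.mem_erase.2 ⟨hl, Finset.mem_univ l⟩),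
        mul_zero]
      rw [hσ', hsc l hl, if_neg hne]
  have hT : (c • A r)ᵀ * (c • A r) = 1 := by
    have h := isometry_transpose_mul h2 hk.2
    rw [hk', site, pureMat_transpose, pureMat_mul] at h
    have e : site r ((c • A r)ᵀ * (c • A r)) = (1 : Matrix (Ix t) (Ix t) F) := by
      rw [← h, site]
      congr 1
      funext i
      by_cases hi : i = r
      · subst hi; simp
      · simp [hi]
    ext a b
    have := congrFun (congrFun e (Function.update z r a)) (Function.update z r b)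
    rw [site_apply_of_eq _ (fun l hl => by rw [Function.update_of_ne hl, Function.update_of_ne hl]),
      Function.update_self, Function.update_self] at this
    rw [this, Matrix.one_apply, Matrix.one_apply]
    refine if_congr ⟨fun e' => ?_, fun e' => by rw [e']⟩ rfl rfl
    have := congrFun e' r
    rwa [Function.update_self, Function.update_self] at this
  refine ⟨⟨c • A r, (c • A r)ᵀ, mul_eq_one_comm.1 hT, hT⟩, mem_isometry_of _ hT, fun i => ?_,
    Units.ext hk'⟩
  have := mulVec_single_eq_iff.1 (hfix z rfl) (Function.update z r i)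
  rw [hk', site_apply_of_eq _ (fun l hl => by rw [Function.update_of_ne hl]), Function.update_self] at this
  show (c • A r) i 0 = _
  rw [this]
  refine if_congr ⟨fun e' => ?_, fun e' => by rw [e']; exact Function.update_eq_self r z⟩ rfl rfl
  have := congrFun e' r
  rwa [Function.update_self] at this

/-- Fixing the columns with a zero in either of two factors. -/
theorem wr_fix_two [Finite F] (h2 : (2 : F) ≠ 0) {k : GL (Ix t) F} (hk : k ∈ Wr F t) {r s : Fin t}
    (hrs : r ≠ s)
    (hfix : ∀ x : Ix t, x r = 0 ∨ x s = 0 →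
      (k : Matrix (Ix t) (Ix t) F) *ᵥ Pi.single x 1 = Pi.single x 1) : k = 1 := by
  obtain ⟨h, -, -, rfl⟩ := wr_fix_one h2 hk r fun x hx => hfix x (Or.inl hx)
  suffices h = 1 by rw [this, map_one]
  refine Units.ext (Matrix.ext fun i j => ?_)
  set x : Ix t := Function.update (fun _ => 0) r j
  have := mulVec_single_eq_iff.1 (hfix x (Or.inr (by simp [x, hrs.symm]))) (Function.update x r i)
  rw [gs_val, site_apply_of_eq _ (fun l hl => by rw [Function.update_of_ne hl]), Function.update_self,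
    show x r = j by simp [x]] at this
  rw [this, Units.val_one, Matrix.one_apply]
  refine if_congr ⟨fun e => ?_, fun e => by rw [e]; simp [x]⟩ rfl rfl
  have := congrFun e r
  simpa [x] using this

/-! ### Small facts -/

lemma conj_comm {G : Type*} [Group G] {w g a b : G} (he : w * a * w⁻¹ = b) (hc : g * b = b * g) :
    w⁻¹ * g * w * a = a * (w⁻¹ * g * w) := by
  subst he
  calc w⁻¹ * g * w * a = w⁻¹ * (g * (w * a * w⁻¹)) * w := by group
    _ = w⁻¹ * (w * a * w⁻¹ * g) * w := by rw [hc]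
    _ = a * (w⁻¹ * g * w) := by group

/-- Two inverting involutions: the product centralises. -/
lemma prod_comm_of_invert {G : Type*} [Group G] {a b k : G} (ha : a * a = 1) (hb : b * b = 1)
    (hka : a * k * a = k⁻¹) (hkb : b * k * b = k⁻¹) : k * (a * b) = a * b * k := by
  have h2 : b * k = k⁻¹ * b := by rw [← hkb, mul_assoc (b * k), hb, mul_one]
  have h3 : a * k⁻¹ = k * a := by rw [← hka, ← mul_assoc, ← mul_assoc, ha, one_mul]
  rw [mul_assoc a b k, h2, ← mul_assoc a k⁻¹ b, h3, mul_assoc]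

lemma comm_of_invert_eq {G : Type*} [Group G] {a k : G} (ha : a * a = 1) (hka : a * k * a = k) :
    k * a = a * k := by
  conv_lhs => rw [← hka, mul_assoc, ha, mul_one]

lemma cy_val (i j : Fin 3) :
    (cy F : Matrix (Fin 3) (Fin 3) F) i j = if i = j + 1 then 1 else 0 := by
  fin_cases i <;> fin_cases j <;> simp [cy]

variable [Finite F]

lemma fa_sq (r : Fin t) (i : Fin 3) : (fa r i : GL (Ix t) F) * fa r i = 1 := by
  rw [fa, ← map_mul, fr_mul_self, map_one]

lemma fa_pow_mulVec (r : Fin t) (i : Fin 3) (x : Ix t) : ∀ m : ℕ,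
    (((fa r i : GL (Ix t) F) ^ m : GL (Ix t) F) : Matrix (Ix t) (Ix t) F) *ᵥ Pi.single x 1 =
      (sgn i (x r) ^ m : F) • Pi.single x 1
  | 0 => by rw [pow_zero, pow_zero, Units.val_one, one_mulVec, one_smul]
  | m + 1 => by
    rw [pow_succ, Units.val_mul, ← mulVec_mulVec, fa_mulVec_single, mulVec_smul, fa_pow_mulVec r i x m,
      smul_smul, pow_succ, mul_comm]

lemma half_WO (h2 : (2 : F) ≠ 0) (r : Fin t) {h : GL (Fin 3) F}
    (hh : IsHalf h) : gs r h ∈ WO F t :=
  ⟨gs_mem_Wr h2 _ (U3m_le (half_mem h2 hh)),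
    (gs_mem_Om_iff h2 _ (U3m_le (half_mem h2 hh))).2 (half_mem h2 hh)⟩

lemma cy_pow_WO (h2 : (2 : F) ≠ 0) (r : Fin t) (j : ℕ) :
    gs r (cy F ^ j) ∈ WO F t :=
  ⟨gs_mem_Wr h2 _ (U3m_le (pow_mem (cy_mem h2) j)),
    (gs_mem_Om_iff h2 _ (U3m_le (pow_mem (cy_mem h2) j))).2 (pow_mem (cy_mem h2) j)⟩

lemma cy_pow_fr (j : Fin 3) : cy F ^ (j : ℕ) * fr F 0 * (cy F ^ (j : ℕ))⁻¹ = fr F j := by
  open Fin.NatCast in
  have h : ∀ m : ℕ, cy F ^ m * fr F 0 * (cy F ^ m)⁻¹ = fr F (m : Fin 3) := by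
    intro m
    induction m with
    | zero => simp
    | succ m ih =>
      rw [pow_succ', show cy F * cy F ^ m * fr F 0 * (cy F * cy F ^ m)⁻¹ =
        cy F * (cy F ^ m * fr F 0 * (cy F ^ m)⁻¹) * (cy F)⁻¹ by group, ih, cy_conj, Nat.cast_succ]
  rw [h, Fin.cast_val_eq_self]

lemma gs_cy_conj (r : Fin t) (j : Fin 3) :
    (gs r (cy F ^ (j : ℕ)) : GL (Ix t) F) * fa r 0 * (gs r (cy F ^ (j : ℕ)))⁻¹ = fa r j := by
  rw [fa, fa, ← map_inv, ← map_mul, ← map_mul, cy_pow_fr]

/-! ### The group fixing columns -/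

/-- Members of `X` commuting with the first axes of `S` and fixing the columns with a zero in `S`. -/
def ZS (X : Subgroup (GL (Ix t) F)) (S : Finset (Fin t)) : Subgroup (GL (Ix t) F) where
  carrier := {k | k ∈ X ∧ (∀ s ∈ S, k * fa s 0 = fa s 0 * k) ∧
    ∀ x : Ix t, (∃ s ∈ S, x s = 0) → (k : Matrix (Ix t) (Ix t) F) *ᵥ Pi.single x 1 = Pi.single x 1}
  one_mem' := ⟨one_mem _, by simp, fun x _ => by rw [Units.val_one, one_mulVec]⟩
  mul_mem' {a b} ha hb := ⟨mul_mem ha.1 hb.1,
    fun s hs => (Commute.mul_left (ha.2.1 s hs) (hb.2.1 s hs)).eq,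
    fun x hx => by rw [Units.val_mul, ← mulVec_mulVec, hb.2.2 x hx, ha.2.2 x hx]⟩
  inv_mem' {a} ha := ⟨inv_mem ha.1, fun s hs => (Commute.inv_left (ha.2.1 s hs)).eq,
    fun x hx => mulVec_inv_of_eq (ha.2.2 x hx)⟩

lemma zs_conj (h2 : (2 : F) ≠ 0) {X : Subgroup (GL (Ix t) F)} {S : Finset (Fin t)} {m k : GL (Ix t) F}
    (hm : m ∈ X) (hc : ∀ s ∈ S, m * fa s 0 = fa s 0 * m) (hk : k ∈ ZS X S) :
    m * k * m⁻¹ ∈ ZS X S := by
  refine ⟨mul_mem (mul_mem hm hk.1) (inv_mem hm),
    fun s hs => ((Commute.mul_left (hc s hs) (hk.2.1 s hs)).mul_left (Commute.inv_left (hc s hs))).eq,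
    fun x hx => ?_⟩
  rw [Units.val_mul, Units.val_mul, ← mulVec_mulVec, ← mulVec_mulVec,
    mulVec_eq_of_supp (A := (k : Matrix (Ix t) (Ix t) F)), mulVec_mulVec, Units.mul_inv, one_mulVec]
  intro y hy
  obtain ⟨s, hs, hxs⟩ := hx
  refine hk.2.2 y ⟨s, hs, ?_⟩
  rw [mulVec_col] at hy
  exact (supp_of_comm h2 (Commute.inv_left (hc s hs)).eq hy).2 hxs

variable {X : Subgroup (GL (Ix (n + 1)) F)} (h2 : (2 : F) ≠ 0) (hq : 5 ≤ Nat.card F) (hn : 2 ≤ n)
  (hX : Good X) (hF : FrameC X)
include h2 hq hn hX hF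

/-- A member of `ZS X S` centralising a frame is trivial. -/
lemma zs_frame {S : Finset (Fin (n + 1))} (hS : 2 ≤ S.card) {k : GL (Ix (n + 1)) F} (hk : k ∈ ZS X S)
    (r : Fin (n + 1)) {h : GL (Fin 3) F} (hh : h ∈ O3m F)
    (h0 : k * gs r (h * fr F 0 * h⁻¹) = gs r (h * fr F 0 * h⁻¹) * k)
    (h1 : k * gs r (h * fr F 1 * h⁻¹) = gs r (h * fr F 1 * h⁻¹) * k) : k = 1 := by
  obtain ⟨s, hs, s', hs', hne⟩ := Finset.one_lt_card.1 hS
  refine wr_fix_two h2 (hF k hk.1 r h hh fun j => ?_) hne fun x hx => hk.2.2 x ?_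
  · fin_cases j
    · exact h0
    · exact h1
    · have e : gs r (h * fr F 2 * h⁻¹) =
          (gs r (h * fr F 0 * h⁻¹) : GL (Ix (n + 1)) F) * gs r (h * fr F 1 * h⁻¹) := by
        rw [← map_mul, ← fr_mul (F := F) (i := 0) (j := 1) (k := 2) (by decide) (by decide) (by decide)]
        congr 1
        group
      show k * gs r (h * fr F 2 * h⁻¹) = gs r (h * fr F 2 * h⁻¹) * k
      rw [e]
      exact (Commute.mul_right h0 h1).eq
  · rcases hx with hx | hx
    exacts [⟨s, hs, hx⟩, ⟨s', hs', hx⟩]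

/-- Half turns orthogonal to the axis invert. -/
lemma zs_invert {S : Finset (Fin (n + 1))} (hS : 2 ≤ S.card) {s : Fin (n + 1)} (hs : s ∈ S)
    {h : GL (Fin 3) F} (hh : h ∈ O3m F) (hc : h * fr F 0 = fr F 0 * h) {k : GL (Ix (n + 1)) F}
    (hk : k ∈ ZS X S) :
    gs s (h * fr F 1 * h⁻¹) * k * gs s (h * fr F 1 * h⁻¹) = k⁻¹ := by
  have hhalf := isHalf_conj hh (isHalf_fr (1 : Fin 3))
  set m : GL (Ix (n + 1)) F := gs s (h * fr F 1 * h⁻¹) with hm
  have hmm : m * m = 1 := by rw [hm, ← map_mul, half_mul_self hhalf, map_one]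
  have hmX : m ∈ X := hX.le (half_WO h2 s hhalf)
  have hfr : h * fr F 0 * h⁻¹ = fr F 0 := by rw [hc, mul_inv_cancel_right]
  have hmS : ∀ s' ∈ S, m * fa s' 0 = fa s' 0 * m := by
    intro s' _
    by_cases e : s = s'
    · subst e
      rw [hm, fa, ← map_mul, ← map_mul]
      congr 1
      have h01 : fr F 0 * fr F 1 = fr F 2 := fr_mul (by decide) (by decide) (by decide)
      have h10 : fr F 1 * fr F 0 = fr F 2 := fr_mul (by decide) (by decide) (by decide)
      conv_lhs => rw [← hfr]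
      conv_rhs => rw [← hfr]
      rw [show h * fr F 1 * h⁻¹ * (h * fr F 0 * h⁻¹) = h * (fr F 1 * fr F 0) * h⁻¹ by group,
        show h * fr F 0 * h⁻¹ * (h * fr F 1 * h⁻¹) = h * (fr F 0 * fr F 1) * h⁻¹ by group, h01, h10]
    · rw [hm, fa, gs_comm e]
  refine fpf_inv (ZS X S) hmm (fun l hl => ?_) (fun l hl e => ?_) hk
  · have := zs_conj h2 hmX hmS hl
    rwa [inv_eq_of_mul_eq_one_right hmm] at this
  · refine zs_frame h2 hq hn hX hF hS hl s hh ?_ e.symm
    rw [hfr]
    exact hl.2.1 s hs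

lemma zs_invol {S : Finset (Fin (n + 1))} (hS : 2 ≤ S.card) {k : GL (Ix (n + 1)) F}
    (hk : k ∈ ZS X S) (hkk : k * k = 1) : k = 1 := by
  obtain ⟨s, hs⟩ : S.Nonempty := Finset.card_pos.1 (by omega)
  have h := zs_invert h2 hq hn hX hF hS hs (one_mem (O3m F)) (by simp) hk
  simp only [one_mul, inv_one, mul_one] at h
  rw [inv_eq_of_mul_eq_one_right hkk] at h
  refine zs_frame h2 hq hn hX hF hS hk s (one_mem (O3m F)) ?_ ?_
  · simp only [one_mul, inv_one, mul_one]; exact hk.2.1 s hs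
  · simp only [one_mul, inv_one, mul_one]
    exact comm_of_invert_eq (fa_sq s 1) h

lemma zs_comm {S : Finset (Fin (n + 1))} (hS : 2 ≤ S.card) {k l : GL (Ix (n + 1)) F}
    (hk : k ∈ ZS X S) (hl : l ∈ ZS X S) : k * l = l * k := by
  obtain ⟨s, hs⟩ : S.Nonempty := Finset.card_pos.1 (by omega)
  have h : ∀ z ∈ ZS X S, fa s 1 * z * fa s 1 = z⁻¹ := fun z hz => by
    have := zs_invert h2 hq hn hX hF hS hs (one_mem (O3m F)) (by simp) hz
    simpa only [fa, one_mul, inv_one, mul_one] using this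
  have hb : (fa s 1 : GL (Ix (n + 1)) F) * fa s 1 = 1 := fa_sq s 1
  have e := h _ (mul_mem hk hl)
  have e' : fa s 1 * (k * l) * fa s 1 = k⁻¹ * l⁻¹ := by
    rw [← h k hk, ← h l hl]
    simp only [mul_assoc, ← mul_assoc (fa s 1) (fa s 1), hb, one_mul]
  rw [e', ← _root_.mul_inv_rev] at e
  exact (inv_injective e).symm

/-- All factors. -/
theorem zs_univ {k : GL (Ix (n + 1)) F} (hk : k ∈ ZS X Finset.univ) : k = 1 := by
  classical
  have hU : 2 ≤ (Finset.univ : Finset (Fin (n + 1))).card := by simp; omega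
  have hb : ∀ r, fa r 1 * k * fa r 1 = k⁻¹ := fun r => by
    have := zs_invert h2 hq hn hX hF hU (Finset.mem_univ r) (one_mem (O3m F)) (by simp) hk
    simpa only [fa, one_mul, inv_one, mul_one] using this
  have hzero : ∀ x : Ix (n + 1), (∃ s, x s = 0) →
      (k : Matrix (Ix (n + 1)) (Ix (n + 1)) F) *ᵥ Pi.single x 1 = Pi.single x 1 :=
    fun x ⟨s, hs⟩ => hk.2.2 x ⟨s, Finset.mem_univ s, hs⟩
  set α : Ix (n + 1) → F := fun x => (k : Matrix (Ix (n + 1)) (Ix (n + 1)) F) x x with hα
  set β : Ix (n + 1) → F := fun x => (k : Matrix (Ix (n + 1)) (Ix (n + 1)) F) (-x) x with hβ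
  have hneg3 : ∀ a : Fin 3, a ≠ 0 → -a ≠ a ∧ -a ≠ 0 := by decide
  have hflip : ∀ a b : Fin 3, a ≠ 0 → b ≠ 0 → ¬ (a = 1 ↔ b = 1) → a = -b := by decide
  have hsame : ∀ a b : Fin 3, a ≠ 0 → b ≠ 0 → (a = 1 ↔ b = 1) → a = b := by decide
  have hne : ∀ x : Ix (n + 1), (∀ l, x l ≠ 0) → -x ≠ x := fun x hx e =>
    (hneg3 _ (hx 0)).1 (congrFun e 0)
  -- columns on the cube
  have hshape : ∀ x : Ix (n + 1), (∀ l, x l ≠ 0) →
      (k : Matrix (Ix (n + 1)) (Ix (n + 1)) F) *ᵥ Pi.single x 1 = α x • Pi.single x 1 + β x • Pi.single (-x) 1 := by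
    intro x hx
    ext y
    rw [mulVec_col]
    by_cases h1 : y = x
    · subst h1; simp [hα, (hne y hx).symm]
    by_cases h3 : y = -x
    · subst h3; simp [hβ, hne x hx]
    simp only [Pi.add_apply, Pi.smul_apply, Pi.single_eq_of_ne h1, Pi.single_eq_of_ne h3, smul_zero,
      add_zero]
    by_contra h0
    have hy : ∀ l, y l ≠ 0 := fun l h => hx l ((supp_of_comm h2 (hk.2.1 l (Finset.mem_univ l)) h0).1 h)
    have hpair : ∀ r s, (y r = 1 ↔ x r = 1) → (y s = 1 ↔ x s = 1) := by
      intro r s hr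
      by_contra hs
      have hc := prod_comm_of_invert (fa_sq r 1) (fa_sq s 1) (hb r) (hb s)
      refine h0 (apply_eq_zero_of_diag (d := fun z => sgn 1 (z r) * sgn 1 (z s))
        (by rw [Units.val_mul, fa_val, fa_val, diagonal_mul_diagonal]) hc ?_)
      intro e
      have hsr : (sgn 1 (y r) : F) = sgn 1 (x r) := by simp only [sgn]; exact if_congr hr rfl rfl
      rw [hsr] at e
      refine sgn_ne h2 (by tauto : y s = 1 ↔ ¬ x s = 1) (mul_left_cancel₀ ?_ e)
      simp only [sgn]; split_ifs <;> simp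
    by_cases hall : y 0 = 1 ↔ x 0 = 1
    · exact h1 (funext fun l => hsame _ _ (hy l) (hx l) (hpair 0 l hall))
    · refine h3 (funext fun l => hflip _ _ (hy l) (hx l) fun hl => hall (hpair l 0 hl))
  have hgram : ∀ x y : Ix (n + 1), ((k : Matrix (Ix (n + 1)) (Ix (n + 1)) F) *ᵥ Pi.single x 1) ⬝ᵥ
      ((k : Matrix (Ix (n + 1)) (Ix (n + 1)) F) *ᵥ Pi.single y 1) = if x = y then 1 else 0 := by
    intro x y
    have e := congrFun (congrFun (isometry_transpose_mul h2 (hX.le_OG hk.1)) x) y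
    rw [Matrix.mul_apply, Matrix.one_apply] at e
    rw [← e]
    simp only [dotProduct, mulVec_col, transpose_apply]
  have hnegx : ∀ x : Ix (n + 1), (∀ l, x l ≠ 0) → ∀ l, (-x) l ≠ 0 := fun x hx l => (hneg3 _ (hx l)).2
  have hnorm : ∀ x : Ix (n + 1), (∀ l, x l ≠ 0) → α x * α x + β x * β x = 1 := by
    intro x hx
    have h := hgram x x
    rw [if_pos rfl, hshape x hx] at h
    simpa [hne x hx, (hne x hx).symm] using h
  have horth : ∀ x : Ix (n + 1), (∀ l, x l ≠ 0) → α x * β (-x) + β x * α (-x) = 0 := by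
    intro x hx
    have h := hgram x (-x)
    rw [if_neg (hne x hx).symm, hshape x hx, hshape _ (hnegx x hx), neg_neg] at h
    simp [hne x hx, (hne x hx).symm] at h
    linear_combination h
  -- no proper rotation
  have hab : ∀ x : Ix (n + 1), (∀ l, x l ≠ 0) → α x * β x = 0 := by
    intro x₀ hx₀
    by_contra h0
    set γ := α x₀
    set δ := β x₀
    have hgd : γ * γ + δ * δ = 1 := hnorm x₀ hx₀
    let R : Matrix (Fin 3) (Fin 3) F := !![1, 0, 0; 0, γ, -δ; 0, δ, γ]
    have hR : Rᵀ * R = 1 := by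
      ext i j
      fin_cases i <;> fin_cases j <;> simp [R, Matrix.mul_apply, Fin.sum_univ_three] <;>
        first | linear_combination hgd | linear_combination -hgd | ring
    let h' : GL (Fin 3) F := ⟨R, Rᵀ, mul_eq_one_comm.1 hR, hR⟩
    have hh' : h' ∈ O3m F := mem_isometry_of _ hR
    have hh'0 : h' * fr F 0 = fr F 0 * h' := by
      refine Units.ext (Matrix.ext fun i j => ?_)
      simp only [Units.val_mul, fr_val, mul_diagonal, diagonal_mul]
      fin_cases i <;> fin_cases j <;> simp [h', R]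
    set D : GL (Fin 3) F := h' * fr F 1 * h'⁻¹ * fr F 1 with hD
    set c := γ * γ - δ * δ with hc
    set d := 2 * (γ * δ) with hd
    have hd0 : d ≠ 0 := mul_ne_zero h2 h0
    have hDval : (D : Matrix (Fin 3) (Fin 3) F) = !![1, 0, 0; 0, c, -d; 0, d, c] := by
      show R * diagonal (fun j => if j = (1 : Fin 3) then (1 : F) else -1) * Rᵀ *
        diagonal (fun j => if j = (1 : Fin 3) then (1 : F) else -1) = _
      ext i j
      fin_cases i <;> fin_cases j <;>
        simp [R, hc, hd, Matrix.mul_apply, Fin.sum_univ_three, diagonal_apply, Matrix.vecMul, dotProduct] <;>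
          ring
    have hflipβ : ∀ (s : Fin (n + 1)) (x : Ix (n + 1)), (∀ l, x l ≠ 0) → x s = 1 →
        β (Function.update x s 2) = -β x := by
      intro s x hx hxs
      have hDk : k * gs s D = gs s D * k := by
        rw [hD, map_mul]
        refine prod_comm_of_invert ?_ (fa_sq s 1)
          (zs_invert h2 hq hn hX hF hU (Finset.mem_univ s) hh' hh'0 hk) (hb s)
        rw [← map_mul, half_mul_self (isHalf_conj hh' (isHalf_fr 1)), map_one]
      set x' := Function.update x s 2 with hx'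
      have hx'0 : ∀ l, x' l ≠ 0 := fun l => by
        by_cases hl : l = s
        · subst hl; simp [hx']
        · rw [hx', Function.update_of_ne hl]; exact hx l
      obtain ⟨l, hl⟩ : ∃ l, l ≠ s := Fintype.exists_ne_of_one_lt_card (by simp; omega) s
      have hxl : x' l = x l := by rw [hx', Function.update_of_ne hl]
      have d1 : -x' ≠ x := fun e => (hneg3 _ (hx l)).1 (by
        have := congrFun e l; rwa [Pi.neg_apply, hxl] at this)
      have d2 : -x' ≠ x' := hne x' hx'0
      have d3 : -x' ≠ -x := fun e => by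
        have := congrFun (neg_injective e) s
        rw [hx', Function.update_self, hxs] at this
        exact absurd this (by decide)
      have hgsD : ∀ z : Ix (n + 1), (gs s D : GL (Ix (n + 1)) F).val *ᵥ Pi.single z 1 =
          ∑ i, (D : Matrix (Fin 3) (Fin 3) F) i (z s) • Pi.single (Function.update z s i) (1 : F) := by
        intro z
        ext y
        rw [mulVec_col, gs_val, Finset.sum_apply]
        by_cases hy : ∀ l, l ≠ s → y l = z l
        · rw [site_apply_of_eq _ hy, Finset.sum_eq_single (y s)]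
          · rw [Pi.smul_apply, Pi.single_apply, if_pos, smul_eq_mul, mul_one]
            funext l
            by_cases hl : l = s
            · subst hl; simp
            · rw [Function.update_of_ne hl, hy l hl]
          · intro i _ hi
            rw [Pi.smul_apply, Pi.single_apply, if_neg, smul_zero]
            intro e; exact hi (by rw [e, Function.update_self])
          · simp
        · push Not at hy
          obtain ⟨l, hl, hne'⟩ := hy
          rw [site_apply_of_ne _ hl hne', Finset.sum_eq_zero]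
          intro i _
          rw [Pi.smul_apply, Pi.single_apply, if_neg, smul_zero]
          intro e; exact hne' (by rw [e, Function.update_of_ne hl])
      have hnxs : (-x) s = 2 := by rw [Pi.neg_apply, hxs]; decide
      have hu1 : Function.update x s 1 = x := by rw [← hxs, Function.update_eq_self]
      have hnu : Function.update (-x) s 1 = -x' := by
        funext l'
        by_cases hl' : l' = s
        · subst hl'; rw [Function.update_self, Pi.neg_apply, hx', Function.update_self]; decide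
        · rw [Function.update_of_ne hl', Pi.neg_apply, Pi.neg_apply, hx', Function.update_of_ne hl']
      have hnu2 : Function.update (-x) s 2 = -x := by rw [← hnxs, Function.update_eq_self]
      have hDx : (gs s D : GL (Ix (n + 1)) F).val *ᵥ Pi.single x 1 =
          c • Pi.single x 1 + d • Pi.single x' 1 := by
        rw [hgsD, Fin.sum_univ_three, hxs, hDval, hu1, ← hx']
        simp
      have hDnx : (gs s D : GL (Ix (n + 1)) F).val *ᵥ Pi.single (-x) 1 =
          (-d) • Pi.single (-x') 1 + c • Pi.single (-x) 1 := by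
        rw [hgsD, Fin.sum_univ_three, hnxs, hDval, hnu, hnu2]
        simp
      have e := congrArg (fun z : GL (Ix (n + 1)) F => ((z : Matrix (Ix (n + 1)) (Ix (n + 1)) F) *ᵥ Pi.single x 1) (-x')) hDk
      simp only [Units.val_mul, ← mulVec_mulVec] at e
      rw [hDx, hshape x hx, mulVec_add, mulVec_add, mulVec_smul, mulVec_smul, mulVec_smul, mulVec_smul,
        hshape x hx, hshape x' hx'0, hDx, hDnx] at e
      simp [d1, d2, d3] at e
      exact mul_left_cancel₀ hd0 (by linear_combination e)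
    -- one zero gives all
    have hstep : ∀ (x : Ix (n + 1)), (∀ l, x l ≠ 0) → β x = 0 → ∀ s v, v ≠ 0 →
        β (Function.update x s v) = 0 := by
      intro x hx hx0 s v hv
      have h12 : ∀ a : Fin 3, a ≠ 0 → a = 1 ∨ a = 2 := by decide
      rcases h12 _ (hx s) with h1 | h1 <;> rcases h12 v hv with rfl | rfl
      · rwa [← h1, Function.update_eq_self]
      · rw [hflipβ s x hx h1, hx0, neg_zero]
      · have hx1 : ∀ l, Function.update x s 1 l ≠ 0 := fun l => by
          by_cases hl : l = s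
          · subst hl; simp
          · rw [Function.update_of_ne hl]; exact hx l
        have := hflipβ s _ hx1 (by simp)
        rw [Function.update_idem, ← h1, Function.update_eq_self, hx0] at this
        exact neg_eq_zero.1 this.symm
      · rwa [← h1, Function.update_eq_self]
    have hall : ∀ x : Ix (n + 1), (∀ l, x l ≠ 0) → β x = 0 → β x₀ = 0 := by
      intro x hx hx0
      suffices ∀ T : Finset (Fin (n + 1)), β (T.piecewise x₀ x) = 0 by
        simpa using this Finset.univ
      intro T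
      induction T using Finset.induction_on with
      | empty => simpa using hx0
      | insert a T _ ih =>
        rw [Finset.piecewise_insert]
        refine hstep _ (fun l => ?_) ih a _ (hx₀ a)
        by_cases hl : l ∈ T
        · rw [Finset.piecewise_eq_of_mem _ _ _ hl]; exact hx₀ l
        · rw [Finset.piecewise_eq_of_notMem _ _ _ hl]; exact hx l
    -- shift one factor
    set r : Fin (n + 1) := 0
    set S := (Finset.univ : Finset (Fin (n + 1))).erase r with hS
    have hScard : 2 ≤ S.card := by rw [hS, Finset.card_erase_of_mem (Finset.mem_univ r)]; simp; omega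
    have hkS : k ∈ ZS X S := ⟨hk.1, fun s _ => hk.2.1 s (Finset.mem_univ s),
      fun x ⟨s, _, hx⟩ => hzero x ⟨s, hx⟩⟩
    set m : GL (Ix (n + 1)) F := gs r (cy F) with hm
    have hmX : m ∈ X := hX.le (by simpa using cy_pow_WO h2 r 1)
    have hmS : ∀ s ∈ S, m * fa s 0 = fa s 0 * m := fun s hs => by
      rw [hm, fa, gs_comm (Finset.ne_of_mem_erase hs).symm]
    have hcomm := zs_comm h2 hq hn hX hF hScard hkS (zs_conj h2 hmX hmS hkS)
    have hshift : ∀ z : Ix (n + 1), (m : Matrix (Ix (n + 1)) (Ix (n + 1)) F) *ᵥ Pi.single z 1 =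
        Pi.single (Function.update z r (z r + 1)) 1 := fun z =>
      gs_single r (cy F) z fun i => cy_val i _
    set z₀ := Function.update x₀ r 0 with hz₀
    set p := Function.update x₀ r 2 with hp
    set w := Function.update (-x₀) r 2 with hw
    have hp0 : ∀ l, p l ≠ 0 := fun l => by
      by_cases hl : l = r
      · subst hl; simp [hp]
      · rw [hp, Function.update_of_ne hl]; exact hx₀ l
    have hw0 : ∀ l, w l ≠ 0 := fun l => by
      by_cases hl : l = r
      · subst hl; simp [hw]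
      · rw [hw, Function.update_of_ne hl]; exact hnegx x₀ hx₀ l
    have hmp : (m : Matrix (Ix (n + 1)) (Ix (n + 1)) F) *ᵥ Pi.single p 1 = Pi.single z₀ 1 := by
      rw [hshift, hp, Function.update_self, Function.update_idem]
      rfl
    have hmnp : (m : Matrix (Ix (n + 1)) (Ix (n + 1)) F) *ᵥ Pi.single (-p) 1 = Pi.single w 1 := by
      rw [hshift]
      congr 1
      funext l
      by_cases hl : l = r
      · subst hl; simp [hp, hw]; decide
      · simp [hp, hw, Function.update_of_ne hl]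
    have hk' : ((m * k * m⁻¹ : GL (Ix (n + 1)) F) : Matrix (Ix (n + 1)) (Ix (n + 1)) F) *ᵥ Pi.single z₀ 1 =
        α p • Pi.single z₀ 1 + β p • Pi.single w 1 := by
      rw [Units.val_mul, Units.val_mul, ← mulVec_mulVec, ← mulVec_mulVec, mulVec_inv_of_eq hmp,
        hshape p hp0, mulVec_add, mulVec_smul, mulVec_smul, hmp, hmnp]
    have hz0 : (k : Matrix (Ix (n + 1)) (Ix (n + 1)) F) *ᵥ Pi.single z₀ 1 = Pi.single z₀ 1 :=
      hzero z₀ ⟨r, by simp [hz₀]⟩
    have e := congrArg (fun z : GL (Ix (n + 1)) F => ((z : Matrix (Ix (n + 1)) (Ix (n + 1)) F) *ᵥ Pi.single z₀ 1) (-w)) hcomm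
    simp only [Units.val_mul k, Units.val_mul _ k, ← mulVec_mulVec] at e
    rw [hz0, hk', mulVec_add, mulVec_smul, mulVec_smul, hz0, hshape w hw0] at e
    have d1 : -w ≠ z₀ := fun e' => by
      have := congrFun e' r
      simp [hw, hz₀] at this
    have d2 : -w ≠ w := hne w hw0
    simp [d1, d2] at e
    rcases e with e | e
    · exact h0 (by rw [show δ = 0 from hall p hp0 e, mul_zero])
    · exact h0 (by rw [show δ = 0 from hall w hw0 e, mul_zero])
  -- the fourth power
  have hfour : k * k * (k * k) = 1 := by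
    refine eq_one_of_fix fun x => ?_
    by_cases hx : ∃ s, x s = 0
    · simp only [Units.val_mul, ← mulVec_mulVec, hzero x hx]
    push Not at hx
    simp only [Units.val_mul, ← mulVec_mulVec]
    rcases mul_eq_zero.1 (hab x hx) with h | h
    · have hb1 : β x * β x = 1 := by have := hnorm x hx; rw [h] at this; linear_combination this
      have ha' : α (-x) = 0 := by
        have := horth x hx
        rw [h, zero_mul, zero_add] at this
        exact (mul_eq_zero.1 this).resolve_left (left_ne_zero_of_mul_eq_one hb1)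
      have hb2 : β (-x) * β (-x) = 1 := by
        have := hnorm _ (hnegx x hx); rw [ha'] at this; linear_combination this
      have e1 : (k : Matrix (Ix (n + 1)) (Ix (n + 1)) F) *ᵥ Pi.single x 1 = β x • Pi.single (-x) 1 := by
        rw [hshape x hx, h, zero_smul, zero_add]
      have e2 : (k : Matrix (Ix (n + 1)) (Ix (n + 1)) F) *ᵥ Pi.single (-x) 1 = β (-x) • Pi.single x 1 := by
        rw [hshape _ (hnegx x hx), ha', zero_smul, zero_add, neg_neg]
      simp only [e1, e2, mulVec_smul, smul_smul]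
      rw [show β x * β (-x) * β x * β (-x) = (β x * β x) * (β (-x) * β (-x)) by ring, hb1, hb2,
        mul_one, one_smul]
    · have ha1 : α x * α x = 1 := by have := hnorm x hx; rw [h] at this; linear_combination this
      have e1 : (k : Matrix (Ix (n + 1)) (Ix (n + 1)) F) *ᵥ Pi.single x 1 = α x • Pi.single x 1 := by
        rw [hshape x hx, h, zero_smul, add_zero]
      simp only [e1, mulVec_smul, smul_smul]
      rw [show α x * α x * α x * α x = (α x * α x) * (α x * α x) by ring, ha1, mul_one, one_smul]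
  exact zs_invol h2 hq hn hX hF hU hk (zs_invol h2 hq hn hX hF hU (mul_mem hk hk) hfour)

variable (hR : ∀ g ∈ Wr F (n + 1), RowC (X.map (MulAut.conj g).toMonoidHom))
include hR

/-- Centralising one more axis fixes more columns. -/
lemma row_fix {S : Finset (Fin (n + 1))} (hS : 2 ≤ S.card) {r : Fin (n + 1)} (hr : r ∉ S)
    {k : GL (Ix (n + 1)) F} (hk : k ∈ ZS X S) (hc : k * fa r 0 = fa r 0 * k) :
    k ∈ ZS X (insert r S) := by
  classical
  refine ⟨hk.1, fun s hs => ?_, fun x ⟨s, hs, hx⟩ => ?_⟩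
  · rcases Finset.mem_insert.1 hs with rfl | hs
    exacts [hc, hk.2.1 s hs]
  rcases Finset.mem_insert.1 hs with rfl | hs
  swap
  · exact hk.2.2 x ⟨s, hs, hx⟩
  set π : Equiv.Perm (Fin (n + 1)) := Equiv.swap 0 s with hπ
  set σ : GL (Ix (n + 1)) F := glFactorPerm 3 π with hσ
  have hsym : π.symm = π := Equiv.symm_swap _ _
  set k' := σ * k * σ⁻¹ with hk'
  have hfa : σ * fa s 0 * σ⁻¹ = fa 0 0 := by
    rw [hσ, fa, fa, factorPerm_conj_gs, hπ, Equiv.swap_apply_right]
  have hc' : k' * fa 0 0 = fa 0 0 * k' := by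
    rw [hk', ← hfa]
    calc σ * k * σ⁻¹ * (σ * fa s 0 * σ⁻¹) = σ * (k * fa s 0) * σ⁻¹ := by group
      _ = σ * (fa s 0 * k) * σ⁻¹ := by rw [hc]
      _ = σ * fa s 0 * σ⁻¹ * (σ * k * σ⁻¹) := by group
  have hσW : σ ∈ Wr F (n + 1) := factorPerm_mem_Wr π
  obtain ⟨w, -, hrow⟩ := exists_row h2
    (mul_mem (mul_mem (Wr_le_OG hσW) (hX.le_OG hk.1)) (inv_mem (Wr_le_OG hσW))) hc'
  have hwW : w ∈ Wr F n := hR σ hσW k' ⟨k, hk.1, rfl⟩ hc' w hrow
  have hσx : ∀ z : Ix (n + 1), (σ : Matrix (Ix (n + 1)) (Ix (n + 1)) F) *ᵥ Pi.single z 1 = Pi.single (z ∘ π) 1 := fun z => by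
    rw [hσ, single_conj_perm, hsym]
  have hinv : ∀ z : Ix (n + 1), (z ∘ π) ∘ π = z := fun z => funext fun l => by simp [hπ]
  have hcol : ∀ z : Ix (n + 1), ((k' : GL (Ix (n + 1)) F) : Matrix (Ix (n + 1)) (Ix (n + 1)) F) *ᵥ Pi.single z 1 = Pi.single z 1 ↔
      (k : Matrix (Ix (n + 1)) (Ix (n + 1)) F) *ᵥ Pi.single (z ∘ π) 1 = Pi.single (z ∘ π) 1 := by
    intro z
    have hz : ((σ⁻¹ : GL (Ix (n + 1)) F) : Matrix (Ix (n + 1)) (Ix (n + 1)) F) *ᵥ Pi.single z 1 = Pi.single (z ∘ π) 1 :=
      mulVec_inv_of_eq (by rw [hσx, hinv])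
    rw [hk', Units.val_mul, Units.val_mul, ← mulVec_mulVec, ← mulVec_mulVec, hz]
    constructor
    · intro e
      have := mulVec_inv_of_eq e
      rw [hz] at this
      exact this.symm
    · intro e; rw [e, hσx, hinv]
  have hw1 : w = 1 := by
    obtain ⟨a, ha, b, hb, hab⟩ := Finset.one_lt_card.1 hS
    have hπ0 : ∀ a ∈ S, π a ≠ 0 := fun a ha e => by
      rw [hπ, Equiv.swap_apply_eq_iff, Equiv.swap_apply_left] at e
      exact hr (e ▸ ha)
    obtain ⟨la, hla⟩ := Fin.exists_succ_eq.2 (hπ0 a ha)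
    obtain ⟨lb, hlb⟩ := Fin.exists_succ_eq.2 (hπ0 b hb)
    refine wr_fix_two h2 hwW (r := la) (s := lb)
      (fun e => hab (π.injective (by rw [← hla, ← hlb, e]))) fun u hu => mulVec_single_eq_iff.2 fun v => ?_
    have h1 := mulVec_single_eq_iff.1 ((hcol (Fin.cons 0 u)).2 (hk.2.2 _ ?_)) (Fin.cons 0 v : Ix (n + 1))
    · rw [hrow, if_pos rfl] at h1
      rw [h1]
      exact if_congr (Fin.cons_right_injective _).eq_iff rfl rfl
    · rcases hu with hu | hu
      · exact ⟨a, ha, by rw [Function.comp_apply, ← hla, Fin.cons_succ, hu]⟩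
      · exact ⟨b, hb, by rw [Function.comp_apply, ← hlb, Fin.cons_succ, hu]⟩
  have h0 : (x ∘ π) 0 = 0 := by rw [Function.comp_apply, hπ, Equiv.swap_apply_left, hx]
  have key : ((k' : GL (Ix (n + 1)) F) : Matrix (Ix (n + 1)) (Ix (n + 1)) F) *ᵥ Pi.single (x ∘ π) 1 = Pi.single (x ∘ π) 1 := by
    refine mulVec_single_eq_iff.2 fun y => ?_
    rw [← Fin.cons_self_tail (x ∘ π), h0, ← Fin.cons_self_tail y, hrow, hw1, Units.val_one,
      Matrix.one_apply]
    by_cases hy : y 0 = 0
    · rw [if_pos hy, hy]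
      exact if_congr ⟨fun e => by rw [e], fun e => (Fin.cons_inj.1 e).2⟩ rfl rfl
    · rw [if_neg hy, if_neg]
      intro e
      exact hy (by have := congrFun e 0; simpa using this)
  have := (hcol _).1 key
  rwa [hinv] at this

/-- Two factors or more. -/
theorem zs_trivial : ∀ (m : ℕ) (S : Finset (Fin (n + 1))), (Finset.univ \ S).card = m → 2 ≤ S.card →
    ∀ k ∈ ZS X S, k = 1 := by
  intro m
  induction m with
  | zero =>
    intro S hS _ k hk
    rw [Finset.card_eq_zero, Finset.sdiff_eq_empty_iff_subset, Finset.univ_subset_iff] at hS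
    subst hS
    exact zs_univ h2 hq hn hX hF hk
  | succ m ih =>
    intro S hS hS2 k hk
    obtain ⟨r, hr⟩ : (Finset.univ \ S).Nonempty := Finset.card_pos.1 (by omega)
    have hrS : r ∉ S := (Finset.mem_sdiff.1 hr).2
    have ih' : ∀ l ∈ ZS X (insert r S), l = 1 := ih _ (by
      rw [Finset.sdiff_insert, Finset.card_erase_of_mem hr, hS]; rfl)
      (by rw [Finset.card_insert_of_notMem hrS]; omega)
    have hother : ∀ (g : GL (Fin 3) F) (s : Fin (n + 1)), s ∈ S →
        gs r g * fa s 0 = fa s 0 * gs r g := fun g s hs => by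
      rw [fa, gs_comm (fun e : r = s => hrS (e ▸ hs))]
    have hfixed : ∀ (j : Fin 3), ∀ l ∈ ZS X S, l * fa r j = fa r j * l → l = 1 := by
      intro j l hl hc
      set w : GL (Ix (n + 1)) F := gs r (cy F ^ (j : ℕ)) with hw
      have h := zs_conj h2 (inv_mem (hX.le (cy_pow_WO h2 r (j : ℕ))))
        (fun s hs => (Commute.inv_left (hother (cy F ^ (j : ℕ)) s hs)).eq) hl
      rw [inv_inv, ← hw] at h
      have := ih' _ (row_fix h2 hq hn hX hF hR hS2 hrS h (conj_comm (gs_cy_conj r j) hc))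
      have e := congrArg (fun z => w * z * w⁻¹) this
      simpa [mul_assoc] using e
    have hinv : ∀ (j : Fin 3), fa r j * k * fa r j = k⁻¹ := by
      intro j
      refine fpf_inv (ZS X S) (fa_sq r j) (fun l hl => ?_) (fun l hl e => hfixed j l hl e.symm) hk
      have := zs_conj h2 (hX.le (half_WO h2 r (isHalf_fr j))) (fun s hs => hother _ s hs) hl
      rwa [show gs r (fr F j) = fa r j from rfl, inv_eq_of_mul_eq_one_right (fa_sq r j)] at this
    refine hfixed 2 k hk ?_
    have e : (fa r 2 : GL (Ix (n + 1)) F) = fa r 0 * fa r 1 := by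
      rw [fa, fa, fa, ← map_mul, fr_mul (k := 2) (by decide) (by decide) (by decide)]
    rw [e]
    exact prod_comm_of_invert (fa_sq r 0) (fa_sq r 1) (hinv 0) (hinv 1)

/-- Dividing off the row. -/
lemma exists_row_one {k : GL (Ix (n + 1)) F} (hk : k ∈ X) (hc : k * fa 0 0 = fa 0 0 * k) :
    ∃ m ∈ WO F (n + 1), (m⁻¹ * k) * fa 0 0 = fa 0 0 * (m⁻¹ * k) ∧
      (∀ x : Ix (n + 1), x 0 = 0 →
        ((m⁻¹ * k : GL (Ix (n + 1)) F) : Matrix (Ix (n + 1)) (Ix (n + 1)) F) *ᵥ Pi.single x 1 = Pi.single x 1) ∧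
      ∀ s : Fin n, k * fa s.succ 0 = fa s.succ 0 * k → m * fa s.succ 0 = fa s.succ 0 * m := by
  obtain ⟨w, hwO, hrow⟩ := exists_row h2 (hX.le_OG hk) hc
  have h1 : X.map (MulAut.conj (1 : GL (Ix (n + 1)) F)).toMonoidHom = X := by
    ext; simp
  have hw : w ∈ Wr F n := (h1 ▸ hR 1 (one_mem _)) k hk hc w hrow
  obtain ⟨k₀, hk₀, hk₀c, hk₀0, hmO⟩ := exists_stab_Om h2 0 (Wr_le_OG (liftG_mem_Wr h2 hw))
  set m : GL (Ix (n + 1)) F := gs 0 k₀ * liftG w with hm
  have hmW : m ∈ WO F (n + 1) := ⟨mul_mem (gs_mem_Wr h2 _ hk₀) (liftG_mem_Wr h2 hw), hmO⟩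
  have hk0col : ∀ i, i ≠ 0 → (k₀ : Matrix (Fin 3) (Fin 3) F) i 0 = 0 := by
    intro i hi
    have e := congrArg (fun z : GL (Fin 3) F => (z : Matrix (Fin 3) (Fin 3) F) i 0) hk₀c
    simp only [Units.val_mul, fr_val, mul_diagonal, diagonal_mul, if_neg hi, if_true] at e
    exact (mul_eq_zero.1 (by linear_combination e : (2 : F) * _ = 0)).resolve_left h2
  have hmrow : IsRow m (w : Matrix (Ix n) (Ix n) F) := by
    have := (isRow_gs_zero (n := n) hk0col).mul (isRow_liftG w)
    rwa [hk₀0, one_smul, one_mul] at this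
  have hm0 : m * fa 0 0 = fa 0 0 * m := by
    refine (Commute.mul_left (show Commute (gs 0 k₀ : GL (Ix (n + 1)) F) (fa 0 0) from ?_) ?_).eq
    · show _ * _ = _ * _
      rw [fa, ← map_mul, ← map_mul, hk₀c]
    · exact (isBlk_liftG w).comm_fa 0
  refine ⟨m, hmW, ((Commute.inv_left hm0).mul_left hc).eq, fun x hx => ?_, fun s hs => ?_⟩
  · have e : (k : Matrix (Ix (n + 1)) (Ix (n + 1)) F) *ᵥ Pi.single x 1 = (m : Matrix (Ix (n + 1)) (Ix (n + 1)) F) *ᵥ Pi.single x 1 := by
      ext y
      rw [mulVec_col, mulVec_col, ← Fin.cons_self_tail x, hx, ← Fin.cons_self_tail y, hrow, hmrow]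
    rw [Units.val_mul, ← mulVec_mulVec, e, mulVec_mulVec, Units.inv_mul, one_mulVec]
  · have hf : (fa s.succ 0 : GL (Ix (n + 1)) F) = liftG (fa s 0) := by rw [fa, fa, liftG_gs]
    rw [hf] at hs ⊢
    have hww : w * fa s 0 = fa s 0 * w := Units.ext (by
      simpa using (hrow.mul (isRow_liftG (fa s 0))).unique (hs ▸ (isRow_liftG (fa s 0)).mul hrow))
    refine (Commute.mul_left (show Commute (gs 0 k₀ : GL (Ix (n + 1)) F) (liftG (fa s 0)) from ?_)
      (show Commute (liftG w) (liftG (fa s 0)) from ?_)).eq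
    · show _ * _ = _ * _
      rw [fa, liftG_gs, gs_comm (Fin.succ_ne_zero s).symm]
    · show _ * _ = _ * _
      rw [← map_mul, hww, map_mul]

/-- Two commuting axes. -/
theorem cent_pair {k : GL (Ix (n + 1)) F} (hk : k ∈ X) (hc : k * fa 0 0 = fa 0 0 * k) {s : Fin n}
    {j : Fin 3} (hs : k * fa s.succ j = fa s.succ j * k) : k ∈ Wr F (n + 1) := by
  set v : GL (Ix (n + 1)) F := gs s.succ (cy F ^ (j : ℕ)) with hv
  have hvW := cy_pow_WO h2 (t := n + 1) s.succ (j : ℕ) (F := F)
  have hv0 : v * fa 0 0 = fa 0 0 * v := by rw [hv, fa, gs_comm (Fin.succ_ne_zero s)]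
  have hvW1 : v ∈ Wr F (n + 1) := hvW.1
  suffices h : v⁻¹ * k * v ∈ Wr F (n + 1) by
    simpa [mul_assoc] using (Wr F (n + 1)).mul_mem ((Wr F (n + 1)).mul_mem hvW1 h) ((Wr F (n + 1)).inv_mem hvW1)
  set g := v⁻¹ * k * v with hg
  have hgX : g ∈ X := mul_mem (mul_mem (inv_mem (hX.le hvW)) hk) (hX.le hvW)
  have hgc : g * fa 0 0 = fa 0 0 * g :=
    (((Commute.inv_left hv0).mul_left hc).mul_left hv0).eq
  have hgs : g * fa s.succ 0 = fa s.succ 0 * g := conj_comm (gs_cy_conj s.succ j) hs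
  obtain ⟨m, hm, hc', hfix, hms⟩ := exists_row_one h2 hq hn hX hF hR hgX hgc
  suffices h : m⁻¹ * g ∈ Wr F (n + 1) by simpa using mul_mem hm.1 h
  set k' := m⁻¹ * g
  have hkX : k' ∈ X := mul_mem (inv_mem (hX.le hm)) hgX
  have hs' : k' * fa s.succ 0 = fa s.succ 0 * k' := ((Commute.inv_left (hms s hgs)).mul_left hgs).eq
  set b : GL (Ix (n + 1)) F := fa s.succ 1 with hb
  have hbX : b ∈ X := hX.le (half_WO h2 _ (isHalf_fr 1))
  have hb0 : b * fa 0 0 = fa 0 0 * b := by rw [hb, fa, fa, gs_comm (Fin.succ_ne_zero s)]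
  have hbs : b * fa s.succ 0 = fa s.succ 0 * b := by
    rw [hb, fa, fa, ← map_mul, ← map_mul, fr_mul (k := 2) (by decide) (by decide) (by decide),
      fr_mul (k := 2) (by decide) (by decide) (by decide)]
  have hz : b * k' * b * k'⁻¹ ∈ ZS X {0, s.succ} := by
    refine ⟨mul_mem (mul_mem (mul_mem hbX hkX) hbX) (inv_mem hkX), fun l hl => ?_, fun x hx => ?_⟩
    · rcases Finset.mem_insert.1 hl with rfl | hl
      · exact ((((show Commute b _ from hb0).mul_left hc').mul_left hb0).mul_left (Commute.inv_left hc')).eq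
      · rw [Finset.mem_singleton.1 hl]
        exact ((((show Commute b _ from hbs).mul_left hs').mul_left hbs).mul_left (Commute.inv_left hs')).eq
    · obtain ⟨l, hl, hxl⟩ := hx
      simp only [Units.val_mul, ← mulVec_mulVec]
      rcases Finset.mem_insert.1 hl with rfl | hl
      · rw [mulVec_inv_of_eq (hfix x hxl), fa_mulVec_single, mulVec_smul, hfix x hxl, mulVec_smul,
          fa_mulVec_single, smul_smul]
        simp [sgn]; split_ifs <;> simp
      · rw [Finset.mem_singleton] at hl; subst hl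
        set v := ((k'⁻¹ : GL (Ix (n + 1)) F) : Matrix (Ix (n + 1)) (Ix (n + 1)) F) *ᵥ Pi.single x 1 with hvdef
        have hvsupp : ∀ z, v z ≠ 0 → z s.succ = 0 := fun z hz' =>
          (supp_of_comm h2 (Commute.inv_left hs').eq (by rwa [hvdef, mulVec_col] at hz')).2 hxl
        have hbv : ∀ u : Ix (n + 1) → F, (∀ z, u z ≠ 0 → z s.succ = 0) →
            (b : Matrix (Ix (n + 1)) (Ix (n + 1)) F) *ᵥ u = -u := by
          intro u hu
          ext z
          rw [hb, fa_val, mulVec_diagonal, Pi.neg_apply]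
          by_cases h0 : u z = 0
          · rw [h0, mul_zero, neg_zero]
          · rw [hu z h0, sgn, if_neg (by decide), neg_one_mul]
        rw [hbv v hvsupp, mulVec_neg, hvdef, mulVec_mulVec, Units.mul_inv, one_mulVec, mulVec_neg, hb,
          fa_mulVec_single, hxl, sgn, if_neg (by decide), neg_smul, one_smul, neg_neg]
  have hcard : ({0, s.succ} : Finset (Fin (n + 1))).card = 2 :=
    Finset.card_pair (Fin.succ_ne_zero s).symm
  have h1 := zs_trivial h2 hq hn hX hF hR _ _ rfl hcard.ge _ hz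
  have hkb : k' * b = b * k' := (comm_of_invert_eq (fa_sq _ 1) (mul_inv_eq_one.1 h1)).symm.symm
  refine hF k' hkX s.succ 1 (one_mem _) fun i => ?_
  simp only [one_mul, inv_one, mul_one]
  fin_cases i
  · exact hs'
  · exact hkb
  · show k' * fa s.succ 2 = fa s.succ 2 * k'
    rw [show (fa s.succ 2 : GL (Ix (n + 1)) F) = fa s.succ 0 * b by
      rw [hb, fa, fa, fa, ← map_mul, fr_mul (k := 2) (by decide) (by decide) (by decide)]]
    exact (Commute.mul_right hs' hkb).eq

/-- The first coordinate axis. -/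
theorem cent_first {g : GL (Ix (n + 1)) F} (hg : g ∈ X) (hc : g * fa 0 0 = fa 0 0 * g) :
    g ∈ Wr F (n + 1) := by
  obtain ⟨m, hm, hc', hfix, -⟩ := exists_row_one h2 hq hn hX hF hR hg hc
  suffices h : m⁻¹ * g ∈ Wr F (n + 1) by simpa using mul_mem hm.1 h
  set k := m⁻¹ * g
  have hk : k ∈ X := mul_mem (inv_mem (hX.le hm)) hg
  let s : Fin n := ⟨0, by omega⟩
  set a : GL (Ix (n + 1)) F := fa 0 0 with ha
  set u : GL (Ix (n + 1)) F := fa s.succ 0 with hu
  set b : GL (Ix (n + 1)) F := fa s.succ 1 with hb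
  have h0s : (0 : Fin (n + 1)) ≠ s.succ := (Fin.succ_ne_zero s).symm
  have hbX : b ∈ X := hX.le (half_WO h2 _ (isHalf_fr 1))
  have huX : u ∈ X := hX.le (half_WO h2 _ (isHalf_fr 0))
  have hba : b * a = a * b := by rw [hb, ha, fa, fa, gs_comm h0s.symm]
  have hua : u * a = a * u := by rw [hu, ha, fa, fa, gs_comm h0s.symm]
  set y := k * b * k⁻¹ with hy
  have hyX : y ∈ X := mul_mem (mul_mem hk hbX) (inv_mem hk)
  have hyy : y * y = 1 := by
    rw [hy, show k * b * k⁻¹ * (k * b * k⁻¹) = k * (b * b) * k⁻¹ by group, fa_sq, mul_one,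
      mul_inv_cancel]
  have hya : y * a = a * y := ((Commute.mul_left hc' hba).mul_left (Commute.inv_left hc')).eq
  have hycol : ∀ x : Ix (n + 1), x 0 = 0 →
      (y : Matrix (Ix (n + 1)) (Ix (n + 1)) F) *ᵥ Pi.single x 1 = (sgn 1 (x s.succ) : F) • Pi.single x 1 := by
    intro x hx
    simp only [hy, hb, Units.val_mul, ← mulVec_mulVec, mulVec_inv_of_eq (hfix x hx), fa_mulVec_single,
      mulVec_smul, hfix x hx]
  have hrcol : ∀ x : Ix (n + 1), x 0 = 0 → ∀ l : ℕ,
      (((y * u) ^ l : GL (Ix (n + 1)) F) : Matrix (Ix (n + 1)) (Ix (n + 1)) F) *ᵥ Pi.single x 1 =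
        (sgn 2 (x s.succ) ^ l : F) • Pi.single x 1 := by
    intro x hx l
    induction l with
    | zero => rw [pow_zero, pow_zero, Units.val_one, one_mulVec, one_smul]
    | succ l ih =>
      rw [pow_succ, Units.val_mul, ← mulVec_mulVec, Units.val_mul, ← mulVec_mulVec, hu, fa_mulVec_single,
        mulVec_smul, hycol x hx, mulVec_smul, mulVec_smul, ih, smul_smul, smul_smul, pow_succ]
      congr 1
      have hh : ∀ a : Fin 3, (sgn 0 a : F) * sgn 1 a = sgn 2 a := by
        intro a; fin_cases a <;> simp [sgn]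
      rw [← hh (x s.succ)]; ring
  have hru : ∀ l : ℕ, (y * u) ^ l * a = a * (y * u) ^ l := fun l =>
    ((Commute.mul_left hya hua).pow_left l).eq
  rcases dihedral hyy (fa_sq (F := F) s.succ 0) with ⟨l, hl⟩ | ⟨l, hl1, hll, hlu, hly, e, he⟩
  · exfalso
    rw [← hu] at hl
    have h := congrArg (fun z : GL (Ix (n + 1)) F =>
      ((z : Matrix (Ix (n + 1)) (Ix (n + 1)) F) *ᵥ Pi.single (fun _ => 0) 1) (fun _ => 0)) (mul_inv_eq_iff_eq_mul.1 hl)
    simp only [Units.val_mul ((y * u) ^ l) y, Units.val_mul u _, ← mulVec_mulVec] at h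
    rw [hycol _ rfl, mulVec_smul, hrcol _ rfl, hu, mulVec_smul, fa_mulVec_single] at h
    simp [sgn] at h
    rcases neg_one_pow_eq_or F l with h' | h' <;> rw [h'] at h <;>
      first | exact h2 (by linear_combination h) | exact h2 (by linear_combination -h)
  rw [← hu] at hl1 hll hlu hly he
  set v := (y * u) ^ l with hv
  have hvX : v ∈ X := pow_mem (mul_mem hyX huX) l
  have hvW : v ∈ Wr F (n + 1) := cent_pair h2 hq hn hX hF hR hvX (hru l) hlu
  set c : GL (Ix (n + 1)) F := fa s.succ 2 with hcdef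
  have hcc : ∀ i : ℕ, c ^ i * c ^ i = 1 := fun i => by
    rw [← (Commute.refl c).mul_pow, hcdef, fa_sq, one_pow]
  have hcW : c ∈ WO F (n + 1) := half_WO h2 _ (isHalf_fr 2)
  obtain ⟨h, hh, hh0, hvh⟩ := wr_fix_one h2 (mul_mem hvW (pow_mem hcW.1 l)) 0 fun x hx => by
    rw [Units.val_mul, ← mulVec_mulVec, hcdef, fa_pow_mulVec, mulVec_smul, hv, hrcol x hx, smul_smul,
      ← mul_pow]
    have : (sgn 2 (x s.succ) * sgn 2 (x s.succ) : F) = 1 := by simp only [sgn]; split_ifs <;> ring
    rw [this, one_pow, one_smul]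
  have hsmall : ∀ {z : GL (Ix (n + 1)) F} {w : GL (Fin 3) F}, w ∈ O3m F →
      (∀ i, (w : Matrix (Fin 3) (Fin 3) F) i 0 = if i = 0 then 1 else 0) →
      z = gs 0 w → z ∈ X → z * a = a * z → z * z = 1 → z = 1 ∨ z = a := by
    intro z w hw hw0 e hzX hza hzz
    subst e
    have hwU : w ∈ U3m F := (gs_mem_Om_iff h2 _ hw).1 (hX.top hzX)
    have hwc : w * fr F 0 = fr F 0 * w := gs_injective 0 (by rw [map_mul, map_mul]; exact hza)
    have hww : w * w = 1 := gs_injective 0 (by rw [map_mul, hzz, map_one])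
    rcases rot_invol h2 hwU hwc (by simpa using hw0 0) hww with rfl | rfl
    · left; rw [map_one]
    · right; rfl
  have hca : c * a = a * c := by rw [hcdef, ha, fa, fa, gs_comm h0s.symm]
  have hvc : v * c ^ l = c ^ l * v := by
    have hg0 : gs 0 h * c = c * gs 0 h := by rw [hcdef, fa, gs_comm h0s]
    have hv' : v = gs 0 h * c ^ l := by
      rw [← hvh, mul_assoc, hcc, mul_one]
    rw [hv']
    exact (Commute.mul_left (Commute.pow_right hg0 l) (Commute.refl (c ^ l))).eq
  have hsq : v * c ^ l * (v * c ^ l) = 1 := by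
    rw [mul_assoc, ← mul_assoc (c ^ l) v, ← hvc, mul_assoc v, hcc, mul_one, hll]
  have hv2 := hsmall hh hh0 hvh (mul_mem hvX (pow_mem (hX.le hcW) l))
    (((show Commute v a from hru l).mul_left ((show Commute c a from hca).pow_left l)).eq) hsq
  have hv3 : v = c ^ l ∨ v = a * c ^ l := by
    rcases hv2 with h' | h'
    · left; rw [← mul_one v, ← hcc l, ← mul_assoc, h', one_mul]
    · right; rw [← mul_one v, ← hcc l, ← mul_assoc, h']
  have hconj : ∀ w : GL (Ix (n + 1)) F, v * u = w → ∀ z, (∀ d, d * z * d⁻¹ ≠ u) →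
      (∀ d, d * z * d⁻¹ ≠ b) → w ≠ z := by
    rintro w hw z hzu hzb rfl
    rcases he with he | he
    · refine hzu ((y * u) ^ e)⁻¹ ?_
      rw [← hw, hv, ← he]; group
    · refine hzb (k⁻¹ * ((y * u) ^ e)⁻¹) ?_
      rw [← hw, hv, ← he, hy]; group
  rcases Nat.even_or_odd l with hev | hodd
  · exfalso
    have hc1 : c ^ l = 1 := by
      obtain ⟨i, rfl⟩ := hev; rw [pow_add, hcc]
    rw [hc1, mul_one] at hv3
    rcases hv3 with h' | h'
    · exact hl1 h'
    · refine hconj _ rfl (a * u) (fun d => ?_) (fun d => ?_) (by rw [h'])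
      · exact two_not_conj_axis h2 h0s (isAxisAt_fa 0 0) (isAxisAt_fa s.succ 0) ⟨s.succ, isAxisAt_fa s.succ 0⟩ d
      · exact two_not_conj_axis h2 h0s (isAxisAt_fa 0 0) (isAxisAt_fa s.succ 0) ⟨s.succ, isAxisAt_fa s.succ 1⟩ d
  have hc1 : c ^ l = c := by
    obtain ⟨i, rfl⟩ := hodd
    rw [pow_succ, two_mul, pow_add, hcc, one_mul]
  have hyc : y * c = c * y := by
    rw [hc1] at hv3
    rcases hv3 with h' | h'
    · rw [← h']; exact hly.symm
    · have : c = a * v := by rw [h', ← mul_assoc, ha, fa_sq, one_mul]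
      rw [this]
      exact (Commute.mul_right hya hly.symm).eq
  have hyW : y ∈ Wr F (n + 1) := cent_pair h2 hq hn hX hF hR hyX hya hyc
  obtain ⟨w, hw, hw0, hyw⟩ := wr_fix_one h2 (mul_mem hyW (half_WO h2 s.succ (isHalf_fr (F := F) 1)).1) 0
    fun x hx => by
      show ((y * b : GL (Ix (n + 1)) F) : Matrix (Ix (n + 1)) (Ix (n + 1)) F) *ᵥ _ = _
      rw [Units.val_mul, ← mulVec_mulVec, hb, fa_mulVec_single, mulVec_smul, hycol x hx, smul_smul]
      have : (sgn 1 (x s.succ) * sgn 1 (x s.succ) : F) = 1 := by simp only [sgn]; split_ifs <;> ring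
      rw [this, one_smul]
  change y * b = gs 0 w at hyw
  have hgb : gs 0 w * b = b * gs 0 w := by rw [hb, fa, gs_comm h0s]
  have hyb : y = gs 0 w * b := by rw [← hyw, mul_assoc, hb, fa_sq, mul_one]
  have hsq' : y * b * (y * b) = 1 := by
    have h' : b * y = y * b := by rw [hyb, ← mul_assoc, ← hgb]
    rw [mul_assoc, ← mul_assoc b, h', mul_assoc y b, hb, fa_sq, mul_one, hyy]
  rcases hsmall hw hw0 hyw (mul_mem hyX hbX) ((Commute.mul_left hya hba).eq) hsq' with h' | h'
  · have hkb : y = b := by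
      rw [← mul_one y, ← fa_sq (F := F) s.succ 1, ← mul_assoc, ← hb, h', one_mul]
    exact cent_pair h2 hq hn hX hF hR hk hc' (mul_inv_eq_iff_eq_mul.1 (hy ▸ hkb))
  · exfalso
    have hyab : y = a * b := by
      rw [← mul_one y, ← fa_sq (F := F) s.succ 1, ← mul_assoc, ← hb, h']
    refine two_not_conj_axis h2 h0s (isAxisAt_fa (F := F) 0 0) (isAxisAt_fa s.succ 1)
      ⟨s.succ, isAxisAt_fa s.succ 1⟩ k⁻¹ ?_
    rw [← ha, ← hb, ← hyab, hy]; group

/-- Members of `X` centralising an axis preserve the decomposition. -/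
theorem axisC : AxisC X := by
  intro g hg x ⟨r, h, hh, hx⟩ hc
  obtain ⟨c, hc3, hce⟩ := exists_conj_half h2 hh
  set w₀ : GL (Ix (n + 1)) F := gs r c * glFactorPerm 3 (Equiv.swap 0 r) with hw₀
  have hw₀W : w₀ ∈ Wr F (n + 1) := mul_mem (gs_mem_Wr h2 _ hc3) (factorPerm_mem_Wr _)
  obtain ⟨k₀, hk₀, hk₀c, -, hO⟩ := exists_stab_Om h2 0 (inv_mem (Wr_le_OG hw₀W))
  set w := w₀ * (gs 0 k₀)⁻¹ with hw
  have hwW : w ∈ WO F (n + 1) := by
    refine ⟨(Wr F (n + 1)).mul_mem hw₀W ((Wr F (n + 1)).inv_mem (gs_mem_Wr h2 _ hk₀)), ?_⟩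
    have := inv_mem hO
    rwa [_root_.mul_inv_rev, inv_inv] at this
  have he : w * fa 0 0 * w⁻¹ = x := by
    have h1 : (gs 0 k₀ : GL (Ix (n + 1)) F)⁻¹ * fa 0 0 * gs 0 k₀ = fa 0 0 := by
      rw [mul_assoc, inv_mul_eq_iff_eq_mul, fa, ← map_mul, ← map_mul, hk₀c]
    have h3 : glFactorPerm 3 (Equiv.swap 0 r) * fa 0 0 * (glFactorPerm 3 (Equiv.swap 0 r))⁻¹ =
        (fa r 0 : GL (Ix (n + 1)) F) := by
      rw [fa, fa, factorPerm_conj_gs, Equiv.swap_apply_left]
    rw [hw, show w₀ * (gs 0 k₀)⁻¹ * fa 0 0 * (w₀ * (gs 0 k₀)⁻¹)⁻¹ =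
      w₀ * ((gs 0 k₀)⁻¹ * fa 0 0 * gs 0 k₀) * w₀⁻¹ by group, h1, hw₀,
      show gs r c * glFactorPerm 3 (Equiv.swap 0 r) * fa 0 0 *
        (gs r c * glFactorPerm 3 (Equiv.swap 0 r))⁻¹ = gs r c * (glFactorPerm 3 (Equiv.swap 0 r) *
          fa 0 0 * (glFactorPerm 3 (Equiv.swap 0 r))⁻¹) * (gs r c)⁻¹ by group, h3, fa, ← map_inv,
      ← map_mul, ← map_mul, hce, hx]
  have := cent_first h2 hq hn hX hF hR (g := w⁻¹ * g * w)
    (mul_mem (mul_mem (inv_mem (hX.le hwW)) hg) (hX.le hwW)) (conj_comm he hc)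
  simpa [mul_assoc] using (Wr F (n + 1)).mul_mem ((Wr F (n + 1)).mul_mem hwW.1 this) ((Wr F (n + 1)).inv_mem hwW.1)

end Cfsg.Agent.MaxSub.OWT
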