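import Cfsg.Agent.MaxSub.OrthWreathThree.Slice
import Cfsg.Agent.MaxSub.OrthWreathThree.ClassMap
import Cfsg.Agent.MaxSub.OrthTensor.Main

/-!
An overgroup of the wreath stabiliser containing the lift of `Ω` on all factors but the first is
everything, by maximality of the stabiliser of the decomposition `3 × 3^n`.
-/

set_option autoImplicit false
set_option linter.unusedSectionVars false

namespace Cfsg.Agent.MaxSub.OWT

open Matrix Cfsg.Geo Cfsg.Agent.GeoClasses Cfsg.Agent.NotMax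
open scoped MatrixGroups Kronecker

variable {F : Type*} [Field F] {t n : ℕ}

/-- The bijection splitting off the first factor. -/
def splitEquiv (n : ℕ) : Ix (n + 1) ≃ Fin 3 × Fin (3 ^ n) :=
  (Fin.consEquiv fun _ : Fin (n + 1) => Fin 3).symm.trans
    (Equiv.prodCongr (Equiv.refl (Fin 3)) finFunctionFinEquiv)

lemma splitEquiv_cons (i : Fin 3) (u : Ix n) :
    splitEquiv n (Fin.cons i u : Ix (n + 1)) = (i, finFunctionFinEquiv u) := by
  simp [splitEquiv, Fin.consEquiv]

lemma tensor_eq_gs_liftG {g : GL (Ix (n + 1)) F} {a : GL (Fin 3) F} {b : GL (Fin (3 ^ n)) F}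
    (h : ∀ x y, (g : Matrix (Ix (n + 1)) (Ix (n + 1)) F) x y =
      ((a : Matrix (Fin 3) (Fin 3) F) ⊗ₖ (b : Matrix (Fin (3 ^ n)) (Fin (3 ^ n)) F))
        (splitEquiv n x) (splitEquiv n y)) :
    g = gs 0 a * liftG (glReindex finFunctionFinEquiv.symm b) := by
  refine Units.ext (Matrix.ext fun x y => ?_)
  obtain ⟨i, u, rfl⟩ : ∃ i u, x = (Fin.cons i u : Ix (n + 1)) :=
    ⟨x 0, Fin.tail x, (Fin.cons_self_tail x).symm⟩
  obtain ⟨j, v, rfl⟩ : ∃ j v, y = (Fin.cons j v : Ix (n + 1)) :=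
    ⟨y 0, Fin.tail y, (Fin.cons_self_tail y).symm⟩
  rw [h, splitEquiv_cons, splitEquiv_cons, Units.val_mul, gs_val, liftG_val, Matrix.mul_apply,
    sum_sigma_cons, Finset.sum_eq_single j]
  · simp [site_zero_apply_cons, liftMat_apply_cons, glReindex_apply, Finset.sum_ite_eq,
      Matrix.kroneckerMap_apply]
  · intro k _ hk
    exact Finset.sum_eq_zero fun w _ => by simp [liftMat_apply_cons, hk]
  · simp

/-- An isometry of a product of two sums of squares is a product of isometries. -/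
lemma exists_isometry_factors (h2 : (2 : F) ≠ 0) {a : GL (Fin 3) F} {w : GL (Ix n) F}
    (hg : gs 0 a * liftG w ∈ OG F (n + 1)) :
    ∃ a' ∈ O3m F, ∃ w' ∈ OG F n, gs 0 a * liftG w = gs 0 a' * liftG w' := by
  set A := (a : Matrix (Fin 3) (Fin 3) F)
  set W := (w : Matrix (Ix n) (Ix n) F)
  have e := isometry_transpose_mul h2 hg
  have key : ∀ (i j : Fin 3) (u v : Ix n), (Aᵀ * A) i j * (Wᵀ * W) u v =
      if i = j ∧ u = v then 1 else 0 := by
    intro i j u v
    have := congrFun (congrFun e (Fin.cons i u : Ix (n + 1))) (Fin.cons j v : Ix (n + 1))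
    have hrow : ∀ k z l r, (((gs 0 a * liftG w : GL (Ix (n + 1)) F)) :
        Matrix (Ix (n + 1)) (Ix (n + 1)) F) (Fin.cons k z : Ix (n + 1)) (Fin.cons l r : Ix (n + 1)) =
        A k l * W z r := by
      intro k z l r
      rw [Units.val_mul, gs_val, liftG_val, Matrix.mul_apply, sum_sigma_cons,
        Finset.sum_eq_single l]
      · simp [A, W, site_zero_apply_cons, liftMat_apply_cons]
      · intro m _ hm
        exact Finset.sum_eq_zero fun s _ => by simp [liftMat_apply_cons, hm]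
      · simp
    rw [Matrix.mul_apply, sum_sigma_cons] at this
    simp only [transpose_apply, hrow] at this
    rw [Matrix.one_apply] at this
    simp only [Matrix.mul_apply, transpose_apply, Finset.sum_mul_sum]
    refine Eq.trans ?_ (this.trans ?_)
    · exact Finset.sum_congr rfl fun _ _ => Finset.sum_congr rfl fun _ _ => by ring
    · simp [Fin.cons_inj]
  let u₀ : Ix n := fun _ => 0
  set c := (Aᵀ * A) 0 0
  set d := (Wᵀ * W) u₀ u₀
  have hcd : c * d = 1 := by simpa using key 0 0 u₀ u₀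
  have hA : Aᵀ * A = c • 1 := by
    ext i j
    have := key i j u₀ u₀
    change (Aᵀ * A) i j * d = _ at this
    rw [Matrix.smul_apply, smul_eq_mul, Matrix.one_apply]
    by_cases hij : i = j
    · rw [if_pos ⟨hij, rfl⟩] at this
      rw [if_pos hij]; linear_combination c * this - (Aᵀ * A) i j * hcd
    · rw [if_neg (fun h => hij h.1)] at this
      rw [if_neg hij]; linear_combination c * this - (Aᵀ * A) i j * hcd
  have hW : Wᵀ * W = d • 1 := by
    ext u v
    have := key 0 0 u v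
    change c * (Wᵀ * W) u v = _ at this
    rw [Matrix.smul_apply, smul_eq_mul, Matrix.one_apply]
    by_cases huv : u = v
    · rw [if_pos ⟨rfl, huv⟩] at this
      rw [if_pos huv]; linear_combination d * this - (Wᵀ * W) u v * hcd
    · rw [if_neg (fun h => huv h.2)] at this
      rw [if_neg huv]; linear_combination d * this - (Wᵀ * W) u v * hcd
  have hc : c ≠ 0 := left_ne_zero_of_mul_eq_one hcd
  have hdet : A.det * A.det = c ^ 3 := by
    have := congrArg Matrix.det hA
    simpa [Matrix.det_mul, Matrix.det_transpose, Matrix.det_smul] using this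
  set s := A.det / c with hs
  have hsc : s * s = c := by
    rw [hs]; field_simp; linear_combination hdet
  have hs0 : s ≠ 0 := fun h => hc (by rw [← hsc, h, mul_zero])
  let za : GL (Fin 3) F := Units.map (Matrix.scalar (Fin 3)).toMonoidHom (Units.mk0 s hs0)⁻¹
  let zw : GL (Ix n) F := Units.map (Matrix.scalar (Ix n)).toMonoidHom (Units.mk0 s hs0)
  have hza : ((za * a : GL (Fin 3) F) : Matrix (Fin 3) (Fin 3) F) = s⁻¹ • A := by
    show Matrix.scalar (Fin 3) s⁻¹ * A = _
    rw [Matrix.scalar_apply, ← smul_one_eq_diagonal, smul_mul_assoc, one_mul]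
  have hzw : ((zw * w : GL (Ix n) F) : Matrix (Ix n) (Ix n) F) = s • W := by
    show Matrix.scalar (Ix n) s * W = _
    rw [Matrix.scalar_apply, ← smul_one_eq_diagonal, smul_mul_assoc, one_mul]
  refine ⟨za * a, mem_isometry_of _ ?_, zw * w, mem_isometry_of _ ?_, ?_⟩
  · rw [hza, transpose_smul, smul_mul_smul_comm, hA, smul_smul]
    rw [show s⁻¹ * s⁻¹ * c = 1 by rw [← hsc]; field_simp, one_smul]
  · rw [hzw, transpose_smul, smul_mul_smul_comm, hW, smul_smul]
    rw [show s * s * d = 1 by rw [hsc, hcd], one_smul]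
  · refine Units.ext ?_
    simp only [map_mul]
    simp only [Units.val_mul, gs_val, liftG_val]
    rw [site_mul, ← liftMat_mul, ← Units.val_mul, ← Units.val_mul, hza, hzw, site_smul]
    rw [show liftMat (s • W) = s • liftMat W by ext x y; simp [liftMat],
      smul_mul_smul_comm, inv_mul_cancel₀ hs0, one_smul]

lemma swap_not_factor (h2 : (2 : F) ≠ 0) {n : ℕ} {k k' : GL (Fin 3) F} :
    gs (1 : Fin (n + 2)) (k * fr F 0 * k⁻¹) ≠ gs 0 k' := by
  intro h
  have hc : ∀ y : GL (Fin 3) F, k * fr F 0 * k⁻¹ * y = y * (k * fr F 0 * k⁻¹) := fun y => by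
    refine gs_injective (1 : Fin (n + 2)) ?_
    rw [map_mul, map_mul (gs (1 : Fin (n + 2))) y, h,
      gs_comm (show (0 : Fin (n + 2)) ≠ 1 by simp)]
  obtain ⟨z, hz⟩ : IsUnit (!![1, 1, 0; 0, 1, 0; 0, 0, 1] : Matrix (Fin 3) (Fin 3) F) := by
    rw [Matrix.isUnit_iff_isUnit_det, det_fin_three]; simp
  have h1 := hc (k * z * k⁻¹)
  have h1' : fr F 0 * z = z * fr F 0 := by
    have := congrArg (fun x => k⁻¹ * x * k) h1
    simpa [mul_assoc] using this
  have e := congrArg (fun x : GL (Fin 3) F => (x : Matrix (Fin 3) (Fin 3) F) 0 1) h1'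
  simp [Units.val_mul, fr_val, hz] at e
  exact one_ne_neg_one h2 (by linear_combination e)

/-- If `X` contains the lift of `Ω` on all factors but the first it is everything. -/
theorem eq_Om_of_lift [Finite F] (h2 : (2 : F) ≠ 0) (hq : 5 ≤ Nat.card F) (hn : 2 ≤ n)
    {X : Subgroup (GL (Ix (n + 1)) F)} (hX : Good X) (h : ∀ w ∈ Om F n, liftG w ∈ X) :
    X = Om F (n + 1) := by
  classical
  have hb : 9 ≤ 3 ^ n := by
    calc (9 : ℕ) = 3 ^ 2 := rfl
      _ ≤ 3 ^ n := Nat.pow_le_pow_right (by norm_num) hn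
  haveI : Fintype F := Fintype.ofFinite F
  have hbig : ∃ t : F, t ≠ 0 ∧ t * t ≠ 1 := by
    by_contra hall
    push Not at hall
    have : (Finset.univ : Finset F) ⊆ {0, 1, -1} := fun x _ => by
      by_cases hx : x = 0
      · simp [hx]
      · rcases mul_self_eq_one_iff.1 (hall x hx) with e | e <;> simp [e]
    have := (Finset.card_le_card this).trans Finset.card_le_three
    rw [Finset.card_univ, ← Nat.card_eq_fintype_card] at this
    omega
  have hpol : ∀ {ι : Type} [Fintype ι] (u v : ι → F),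
      QuadraticMap.polar (qs F ι) u v = 2 * (u ⬝ᵥ v) := by
    intro ι _ u v
    simp only [QuadraticMap.polar, qs, add_dotProduct, dotProduct_add, dotProduct_comm v u]
    ring
  have hnd : ∀ {ι : Type} [Fintype ι] [DecidableEq ι] (v : ι → F), v ≠ 0 →
      ∃ x : ι → F, v ⬝ᵥ x ≠ 0 := by
    intro ι _ _ v hv
    obtain ⟨i, hi⟩ := Function.ne_iff.1 hv
    exact ⟨Pi.single i 1, by rw [dotProduct_single_one]; exact hi⟩
  have hQ : IsNondegenerateQuadraticForm (qs F (Ix (n + 1))) := by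
    refine ⟨fun c v => ?_, ⟨fun x y v => ?_, fun c x v => ?_, fun v x y => ?_, fun c v x => ?_⟩,
      fun v hv => ?_⟩
    · simp [qs, smul_dotProduct, dotProduct_smul]; ring
    · simp only [hpol, add_dotProduct]; ring
    · simp only [hpol, smul_dotProduct, smul_eq_mul]; ring
    · simp only [hpol, dotProduct_add]; ring
    · simp only [hpol, dotProduct_smul, smul_eq_mul]; ring
    · obtain ⟨x, hx⟩ := hnd v hv
      exact ⟨⟨x, by rw [hpol, dotProduct_comm]; exact mul_ne_zero h2 hx⟩,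
        x, by rw [hpol]; exact mul_ne_zero h2 hx⟩
  have hf : ∀ (m : ℕ), IsSymmetricForm (fun u v : Fin m → F => u ⬝ᵥ v) := fun m =>
    ⟨⟨fun x y v => add_dotProduct x y v, fun c x v => smul_dotProduct c x v,
      fun v x y => dotProduct_add v x y, fun c v x => dotProduct_smul c v x⟩,
      fun u v => dotProduct_comm u v, fun v hv => by
        obtain ⟨x, hx⟩ := hnd v hv
        exact ⟨⟨x, by rwa [dotProduct_comm]⟩, x, hx⟩⟩
  have hT : IsTensorFormStructure id (QuadraticMap.polar (qs F (Ix (n + 1))))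
      (fun u v : Fin 3 → F => u ⬝ᵥ v) (fun u v : Fin (3 ^ n) → F => u ⬝ᵥ v) (splitEquiv n) 1 := by
    have hgram : ∀ m : ℕ, gramMatrix (fun u v : Fin m → F => u ⬝ᵥ v) = 1 := fun m => by
      ext i j; simp [gramMatrix, Matrix.one_apply, Pi.single_apply, eq_comm]
    refine ⟨2, h2, fun x y => ?_⟩
    rw [Units.val_one, one_mulVec, one_mulVec, hpol, hgram, hgram, Matrix.one_kronecker_one]
    congr 1
    simp only [formOfGram, dotProduct, Matrix.one_apply, mul_ite, mul_one, mul_zero, ite_mul,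
      zero_mul, Finset.sum_ite_eq, Finset.mem_univ, if_true, id_eq, Function.comp_apply]
    exact Fintype.sum_equiv (splitEquiv n) _ _ fun _ => rfl
  have hmax := OrthTensor.orthTensor_maximal h2 le_rfl (by omega) (by omega) (Or.inl hbig) hQ
    (splitEquiv n) 1 _ _ (hf 3) (hf (3 ^ n)) hT (Or.inr (Or.inl rfl))
  have hle : tensorProductSubgroup 3 (3 ^ n) (splitEquiv n) 1 ⊓ Om F (n + 1) ≤ X := by
    rintro g ⟨⟨g₁, ⟨k, ⟨a, b, hk⟩, rfl⟩, rfl⟩, hgO⟩
    set g := (MulAut.conj (1 : GL (Ix (n + 1)) F)).toMonoidHom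
      ((glReindex (splitEquiv n).symm).toMonoidHom k) with hgdef
    have hg : g = gs 0 a * liftG (glReindex finFunctionFinEquiv.symm b) := by
      refine tensor_eq_gs_liftG fun x y => ?_
      rw [← hk]
      simp [hgdef, glReindex_apply]
    have hO : gs 0 a * liftG (glReindex finFunctionFinEquiv.symm b) ∈ OG F (n + 1) :=
      hg ▸ Om_le_OG hgO
    obtain ⟨a', ha', w, hw, he⟩ := exists_isometry_factors h2 hO
    rw [hg, he] at hgO ⊢
    obtain ⟨k', hk', -, -, hw0⟩ := exists_stab_Om h2 (⟨0, by omega⟩ : Fin n) hw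
    have hl : gs 0 a' * liftG w = gs 0 a' * gs (⟨0, by omega⟩ : Fin n).succ k'⁻¹ *
        liftG (gs (⟨0, by omega⟩ : Fin n) k' * w) := by
      rw [← liftG_gs, mul_assoc, ← map_mul, ← mul_assoc, ← map_mul, inv_mul_cancel, map_one,
        one_mul]
    rw [hl] at hgO ⊢
    refine X.mul_mem (hX.le ⟨(Wr F (n + 1)).mul_mem (gs_mem_Wr h2 _ ha')
      (gs_mem_Wr h2 _ ((O3m F).inv_mem hk')), ?_⟩) (h _ hw0)
    have hin := hX.top (h _ hw0)
    exact ((Om F (n + 1)).mul_mem_cancel_right hin).1 hgO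
  rcases hmax.2 X hle hX.top with e | e
  swap
  · exact e
  exfalso
  obtain ⟨n, rfl⟩ : ∃ m, n = m + 1 := ⟨n - 1, by omega⟩
  let π : Equiv.Perm (Fin (n + 2)) := Equiv.swap 0 1
  have hπ : glFactorPerm (F := F) 3 π ∈ Wr F (n + 2) := by
    refine ⟨Subgroup.subset_closure (Or.inr ⟨π, fun x y => ?_⟩), mem_isometry_of _ ?_⟩
    · show factorPerm 3 π x y = _
      simp [factorPerm, eq_comm]
    · show (factorPerm (F := F) 3 π)ᵀ * factorPerm 3 π = 1
      rw [factorPerm_transpose_mul, factorPerm_mul, inv_mul_cancel, factorPerm_one]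
  obtain ⟨k, hk, -, -, hkO⟩ := exists_stab_Om h2 (0 : Fin (n + 2)) (Wr_le_OG hπ)
  set g := gs (0 : Fin (n + 2)) k * glFactorPerm 3 π with hg
  have hgX : g ∈ X := hX.le ⟨(Wr F _).mul_mem (gs_mem_Wr h2 _ hk) hπ, hkO⟩
  rw [e] at hgX
  obtain ⟨⟨g₁, ⟨z, ⟨a, b, hz⟩, rfl⟩, hzg⟩, -⟩ := hgX
  have hgt : g = gs 0 a * liftG (glReindex finFunctionFinEquiv.symm b) := by
    refine tensor_eq_gs_liftG fun x y => ?_
    rw [← hz, ← hzg]
    simp [glReindex_apply]
  have h01 : g * fa 0 0 * g⁻¹ = gs (1 : Fin (n + 2)) (fr F 0) := by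
    rw [hg, fa, show gs 0 k * glFactorPerm 3 π * gs 0 (fr F 0) * (gs 0 k * glFactorPerm 3 π)⁻¹ =
      gs 0 k * (glFactorPerm 3 π * gs 0 (fr F 0) * (glFactorPerm 3 π)⁻¹) * (gs 0 k)⁻¹ by group,
      factorPerm_conj_gs, show π 0 = (1 : Fin (n + 2)) from Equiv.swap_apply_left 0 1,
      gs_comm (show (0 : Fin (n + 2)) ≠ 1 by simp), mul_inv_cancel_right]
  have hcm : ∀ (w : GL (Ix (n + 1)) F) (y : GL (Fin 3) F), liftG w * gs 0 y = gs 0 y * liftG w := by
    intro w y
    refine Units.ext (Matrix.ext fun x z => ?_)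
    obtain ⟨i, u, rfl⟩ : ∃ i u, x = (Fin.cons i u : Ix (n + 2)) :=
      ⟨x 0, Fin.tail x, (Fin.cons_self_tail x).symm⟩
    obtain ⟨j, v, rfl⟩ : ∃ j v, z = (Fin.cons j v : Ix (n + 2)) :=
      ⟨z 0, Fin.tail z, (Fin.cons_self_tail z).symm⟩
    rw [Units.val_mul, Units.val_mul, gs_val, liftG_val, Matrix.mul_apply, Matrix.mul_apply,
      sum_sigma_cons, sum_sigma_cons]
    simp [site_zero_apply_cons, liftMat_apply_cons, mul_comm]
  have h00 : g * fa 0 0 * g⁻¹ = gs 0 (a * fr F 0 * a⁻¹) := by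
    rw [hgt, fa, mul_assoc (gs 0 a) _ (gs 0 (fr F 0)), hcm, map_mul, map_mul, map_inv]
    group
  have := h01.symm.trans h00
  exact swap_not_factor h2 (k := 1) (k' := a * fr F 0 * a⁻¹) (by rw [one_mul, inv_one, mul_one]; exact this)

end Cfsg.Agent.MaxSub.OWT
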