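import Cfsg.Agent.MaxSub.OrthWreathThree.Slice
import Cfsg.Agent.MaxSub.OrthWreathThree.ClassMap
import Cfsg.Agent.MaxSub.OrthWreathThree.Invol
import Cfsg.Agent.MaxSub.OrthWreathThree.SO3

/-!
The stabiliser of the tensor decomposition is the normaliser of the system of axes.
-/

set_option autoImplicit false
set_option linter.unusedSectionVars false
set_option linter.style.haveILetI false

namespace Cfsg.Agent.MaxSub.OWT

open Matrix Cfsg.Geo Cfsg.Agent.GeoClasses Cfsg.Agent.NotMax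
open scoped MatrixGroups

variable {F : Type*} [Field F] [Finite F] {t n : ℕ}

/-! ### The shape of the members of the stabiliser -/

lemma glPure_mem_Wr (h2 : (2 : F) ≠ 0) {A : Fin t → GL (Fin 3) F} (hA : ∀ i, A i ∈ O3m F) :
    glPure A ∈ Wr F t := by
  refine ⟨Subgroup.subset_closure (Or.inl ⟨A, fun _ _ => rfl⟩), mem_isometry_of _ ?_⟩
  show (pureMat _)ᵀ * pureMat _ = 1
  rw [pureMat_transpose, pureMat_mul]
  simp only [isometry_transpose_mul h2 (hA _)]
  exact pureMat_one 3 t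

lemma form_conj_gs (A : Fin t → GL (Fin 3) F) (π : Equiv.Perm (Fin t)) (r : Fin t)
    (h : GL (Fin 3) F) :
    glPure A * glFactorPerm 3 π * gs r h * (glPure A * glFactorPerm 3 π)⁻¹ =
      gs (π r) (A (π r) * h * (A (π r))⁻¹) := by
  rw [form_mul_gs, mul_inv_cancel_right]

lemma moves_of_mem_Wr (h2 : (2 : F) ≠ 0) {g : GL (Ix t) F} (hg : g ∈ Wr F t) :
    ∃ π, Moves g π := by
  obtain ⟨π, A, hA, rfl⟩ := exists_form h2 hg
  refine ⟨π, ?_⟩
  rintro r _ ⟨h, hh, rfl⟩
  exact ⟨_, half_conj_of_orth h2 (hA (π r)) hh, form_conj_gs A π r h⟩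

/-! ### Commuting with all the axes, permuting the axes -/

lemma scalar_of_comm_sites {A : Matrix (Ix t) (Ix t) F}
    (hA : ∀ r Y, A * site r Y = site r Y * A) : A = A 0 0 • 1 := by
  have hdiag : ∀ x, A x x = A 0 0 := fun x => by
    suffices h : ∀ U : Finset (Fin t), A (U.piecewise x 0) (U.piecewise x 0) = A 0 0 by
      simpa using h Finset.univ
    intro U
    induction U using Finset.induction with
    | empty => simp
    | insert j U hj ih =>
      rw [Finset.piecewise_insert, (apply_update_of_comm (hA j) _ _).2 _ rfl, ih]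
  ext x y
  rcases eq_or_ne x y with rfl | hne
  · simp [hdiag]
  · obtain ⟨r, hr⟩ := Function.ne_iff.1 hne
    simp [hne, (apply_update_of_comm (hA r) x y).1 hr]

lemma eq_one_or_neg_of_comm_sites (h2 : (2 : F) ≠ 0) {g : GL (Ix t) F} (hg : g ∈ OG F t)
    (hA : ∀ r Y, (g : Matrix (Ix t) (Ix t) F) * site r Y = site r Y * (g : Matrix (Ix t) (Ix t) F)) : g = 1 ∨ g = -1 := by
  have e := scalar_of_comm_sites hA
  set c := (g : Matrix (Ix t) (Ix t) F) 0 0
  have h := congrFun (congrFun (isometry_transpose_mul h2 hg) 0) 0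
  rw [e] at h
  simp [Matrix.mul_apply, Matrix.one_apply] at h
  rcases mul_self_eq_one_iff.1 h with hc | hc
  · exact Or.inl (Units.ext (by rw [e, hc, one_smul, Units.val_one]))
  · exact Or.inr (Units.ext (by rw [e, hc, neg_smul, one_smul, Units.val_neg, Units.val_one]))

lemma conjMat_refl' (Z : Matrix (Ix t) (Ix t) F) :
    conjMat (LinearEquiv.refl F (Ix t → F)) Z = Z := by
  have : LinearEquiv.conjAlgEquiv F (LinearEquiv.refl F (Ix t → F))
      (Matrix.toLinAlgEquiv' Z) = Matrix.toLinAlgEquiv' Z := rfl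
  simp only [conjMat, AlgEquiv.trans_apply, this, LinearMap.toMatrixAlgEquiv'_toLinAlgEquiv']

lemma iSup_siteAlg_eq_top :
    (⨆ i : Fin t, (siteAlg (F := F) i).range) = ⊤ := by
  set A := ⨆ i : Fin t, (siteAlg (F := F) i).range
  have hpure : ∀ Ys : Fin t → Matrix (Fin 3) (Fin 3) F, pureMat Ys ∈ A := by
    intro Ys
    suffices h : ∀ U : Finset (Fin t), pureMat (fun i => if i ∈ U then Ys i else 1) ∈ A by
      simpa using h Finset.univ
    intro U
    induction U using Finset.induction with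
    | empty => simp [pureMat_one, one_mem]
    | insert j U hj ih =>
      have : pureMat (fun i => if i ∈ insert j U then Ys i else 1) =
          site j (Ys j) * pureMat (fun i => if i ∈ U then Ys i else 1) := by
        rw [site, pureMat_mul]
        congr 1
        funext i
        by_cases hi : i = j
        · subst hi; simp [hj]
        · simp [hi]
      rw [this]
      exact mul_mem ((le_iSup (fun i : Fin t => (siteAlg (F := F) i).range) j) ⟨Ys j, rfl⟩) ih
  rw [eq_top_iff]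
  rintro B -
  rw [Matrix.matrix_eq_sum_single B]
  refine sum_mem fun x _ => sum_mem fun y _ => ?_
  have : Matrix.single x y (B x y) =
      B x y • pureMat fun i => Matrix.single (x i) (y i) (1 : F) := by
    ext a b
    rw [Matrix.smul_apply, smul_eq_mul, pureMat]
    by_cases hab : x = a ∧ y = b
    · obtain ⟨rfl, rfl⟩ := hab
      simp
    · rw [Matrix.single_apply, if_neg hab]
      rcases not_and_or.1 hab with e | e <;> obtain ⟨i, hi⟩ := Function.ne_iff.1 e
      · rw [Finset.prod_eq_zero (Finset.mem_univ i) (by simp [hi]), mul_zero]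
      · rw [Finset.prod_eq_zero (Finset.mem_univ i) (by simp [hi]), mul_zero]
  rw [this]
  exact Subalgebra.smul_mem _ (hpure _) _

/-- An isometry mapping a generating set of each factor into a factor preserves the
decomposition. -/
lemma mem_Wr_of_adjoin {S : Set (Matrix (Fin 3) (Fin 3) F)} (hS : Algebra.adjoin F S = ⊤)
    (ht : 1 ≤ t) {g : GL (Ix t) F} (hg : g ∈ OG F t) (π : Equiv.Perm (Fin t))
    (hπ : ∀ r, ∀ Y ∈ S, conjGL g (site r Y) ∈ (siteAlg (π r)).range) : g ∈ Wr F t := by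
  haveI : NeZero t := ⟨by omega⟩
  have hrange : ∀ r, ∀ x ∈ (siteAlg (F := F) r).range, conjGL g x ∈ (siteAlg (π r)).range := by
    rintro r _ ⟨Z, rfl⟩
    have hle : Algebra.adjoin F S ≤
        ((siteAlg (F := F) (π r)).range).comap ((conjGL g).toAlgHom.comp (siteAlg r)) :=
      Algebra.adjoin_le fun Y hY => hπ r Y hY
    exact hle (hS.ge (Algebra.mem_top : Z ∈ ⊤))
  have hinj : ∀ i, Function.Injective (siteAlg (F := F) (i : Fin t)) := by
    intro i X Y h
    ext a b
    have := congrFun (congrFun h (Function.update 0 i a)) (Function.update 0 i b)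
    change site i X _ _ = site i Y _ _ at this
    rwa [site_apply_of_eq _ (fun l hl => by
        rw [Function.update_of_ne hl, Function.update_of_ne hl]),
      site_apply_of_eq _ (fun l hl => by
        rw [Function.update_of_ne hl, Function.update_of_ne hl]),
      Function.update_self, Function.update_self] at this
  have hL : ∀ (i : Fin t) (Y : Matrix (Fin 3) (Fin 3) F), siteAlg i Y =
      conjMat (LinearEquiv.refl F (Ix t → F)) (pureMat (Function.update 1 i Y)) := fun i Y => by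
    rw [conjMat_refl']
    rfl
  obtain ⟨c, hc⟩ := normaliser_pure (F := F) (ι := Ix t) (a := 3) (t := t) (φ := siteAlg)
    (L := LinearEquiv.refl F (Ix t → F)) (Nat.succ_pos 2) hL iSup_siteAlg_eq_top hinj π hrange
  rw [conjMat_refl'] at hc
  have : g = glPure c * glFactorPerm 3 π := Units.ext hc
  refine ⟨this ▸ Subgroup.mul_mem _ ?_ ?_, hg⟩
  · exact Subgroup.subset_closure (Or.inl ⟨c, fun _ _ => rfl⟩)
  · exact Subgroup.subset_closure (Or.inr ⟨π, fun _ _ => rfl⟩)

/-- An isometry commuting with all the axes of the factor `r` commutes with that factor. -/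
lemma comm_gs_of_comm_axes (h2 : (2 : F) ≠ 0) (hq : 5 ≤ Nat.card F) {r : Fin t}
    {g : GL (Ix t) F} (hg : ∀ x, IsAxisAt r x → g * x = x * g) (h : GL (Fin 3) F) :
    g * gs r h = gs r h * g := by
  refine Units.ext (comm_site_of_adjoin (adjoin_half h2 hq) ?_ _)
  rintro _ ⟨k, hk, rfl⟩
  exact congrArg Units.val (hg _ ⟨k, hk, rfl⟩)

lemma eq_one_or_neg_of_comm_axes (h2 : (2 : F) ≠ 0) (hq : 5 ≤ Nat.card F) {g : GL (Ix t) F}
    (hg : g ∈ OG F t) (h : ∀ x, IsAxis x → g * x = x * g) : g = 1 ∨ g = -1 := by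
  refine eq_one_or_neg_of_comm_sites h2 hg fun r Y => comm_site_of_adjoin (adjoin_half h2 hq) ?_ Y
  rintro _ ⟨k, hk, rfl⟩
  exact congrArg Units.val (h _ ⟨r, k, hk, rfl⟩)

/-- An isometry permuting the systems of axes preserves the decomposition. -/
lemma mem_Wr_of_moves (h2 : (2 : F) ≠ 0) (hq : 5 ≤ Nat.card F) (ht : 1 ≤ t) {g : GL (Ix t) F}
    (hg : g ∈ OG F t) {π : Equiv.Perm (Fin t)} (hπ : Moves g π) : g ∈ Wr F t := by
  refine mem_Wr_of_adjoin (adjoin_half h2 hq) ht hg π ?_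
  rintro r _ ⟨k, hk, rfl⟩
  obtain ⟨k', -, e⟩ := hπ r _ ⟨k, hk, rfl⟩
  rw [conjGL_apply]
  exact ⟨(k' : Matrix (Fin 3) (Fin 3) F), (congrArg Units.val e).symm⟩

/-! ### Three items in a group of order four -/

/-- An item is an axis or swaps two factors. -/
lemma item_axis_or_swap (h2 : (2 : F) ≠ 0) (ht : 1 ≤ t) {g : GL (Ix t) F} (hg : IsItem g) :
    IsAxis g ∨ ∃ i j, i ≠ j ∧ Moves g (Equiv.swap i j) ∧
      ∀ r, r ≠ i → r ≠ j → ∀ h : GL (Fin 3) F, g * gs r h = gs r h * g :=
  item_cases_of h2 (fun r _ hh hm => (gs_mem_Om_iff h2 r hh).1 hm)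
    (fun _ hh hsq h1 => isHalf_of_invol h2 hh hsq h1) ht hg

lemma Moves.of_axis (h2 : (2 : F) ≠ 0) {x : GL (Ix t) F} (hx : IsAxis x) : Moves x 1 := by
  obtain ⟨r, h, hh, rfl⟩ := hx
  rintro s _ ⟨k, hk, rfl⟩
  rcases eq_or_ne r s with rfl | hrs
  · refine ⟨h * k * h⁻¹, half_conj_of_orth h2 (half_mem_O3m hh) hk, ?_⟩
    simp
  · exact ⟨k, hk, by rw [gs_comm hrs, mul_inv_cancel_right]; rfl⟩

lemma swap_axis_false (h2 : (2 : F) ≠ 0) (hq : 5 ≤ Nat.card F) {r i j k l : Fin t}
    {x y z : GL (Ix t) F} (hx : IsAxisAt r x) (hij : i ≠ j) (hkl : k ≠ l)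
    (hy : Moves y (Equiv.swap i j))
    (hy' : ∀ s, s ≠ i → s ≠ j → ∀ h : GL (Fin 3) F, y * gs s h = gs s h * y)
    (hz' : ∀ s, s ≠ k → s ≠ l → ∀ h : GL (Fin 3) F, z * gs s h = gs s h * z)
    (he : Equiv.swap i j = Equiv.swap k l) (hc : y * x = x * y) (hxyz : x = y * z) : False := by
  have hr : Equiv.swap i j r = r := by
    have h1 := hy r x hx
    rw [hc, mul_inv_cancel_right] at h1
    exact (axisAt_unique h2 h1 hx)
  have hri : r ≠ i := fun e => hij (by rw [e, Equiv.swap_apply_left] at hr; exact hr.symm)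
  have hrj : r ≠ j := fun e => hij (by rw [e, Equiv.swap_apply_right] at hr; exact hr)
  rw [he] at hr
  have hrk : r ≠ k := fun e => hkl (by rw [e, Equiv.swap_apply_left] at hr; exact hr.symm)
  have hrl : r ≠ l := fun e => hkl (by rw [e, Equiv.swap_apply_right] at hr; exact hr)
  obtain ⟨h, hh, rfl⟩ := hx
  obtain ⟨m, -, hm⟩ := exists_not_comm h2 hq hh
  refine hm (gs_injective r ?_)
  rw [map_mul, map_mul, hxyz, mul_assoc y z, hz' r hrk hrl, ← mul_assoc, ← hy' r hri hrj,
    mul_assoc]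

lemma sign_swap_three {i j k l a b : Fin t} (h1 : i ≠ j) (h2 : k ≠ l) (h3 : a ≠ b) :
    Equiv.swap i j * Equiv.swap k l ≠ Equiv.swap a b := fun e => by
  have := congrArg Equiv.Perm.sign e
  simp [Equiv.Perm.sign_swap h1, Equiv.Perm.sign_swap h2, Equiv.Perm.sign_swap h3] at this

lemma swap_ne_one {i j : Fin t} (h : i ≠ j) : Equiv.swap i j ≠ 1 := fun e => h (by
  simpa using (congrFun (congrArg DFunLike.coe e) j))

/-- Two items whose product is an item are axes. -/
lemma axes_triple (h2 : (2 : F) ≠ 0) (hq : 5 ≤ Nat.card F) {a b : GL (Ix t) F} (ha : IsItem a)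
    (hb : IsItem b) (hab : IsItem (a * b)) : IsAxis a ∧ IsAxis b := by
  have hai : a⁻¹ = a := inv_eq_of_mul_eq_one_right ha.2.1
  have hbi : b⁻¹ = b := inv_eq_of_mul_eq_one_right hb.2.1
  have hcomm : b * a = a * b := by
    rw [← inv_eq_of_mul_eq_one_right hab.2.1, _root_.mul_inv_rev, hai, hbi]
  rcases Nat.eq_zero_or_pos t with rfl | ht
  · obtain ⟨-, -, c, x, ⟨r, -⟩, -⟩ := ha
    exact r.elim0
  rcases item_axis_or_swap h2 ht ha with hA | ⟨i, j, hij, hmA, hcA⟩ <;>
    rcases item_axis_or_swap h2 ht hb with hB | ⟨k, l, hkl, hmB, hcB⟩ <;>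
    rcases item_axis_or_swap h2 ht hab with hC | ⟨u, v, huv, hmC, hcC⟩
  · exact ⟨hA, hB⟩
  · exact ⟨hA, hB⟩
  · exfalso
    have := (((Moves.of_axis h2 hA).mul hmB).unique h2 (Moves.of_axis h2 hC))
    rw [one_mul] at this
    exact swap_ne_one hkl this
  · exfalso
    obtain ⟨r, hr⟩ := hA
    have he := (((Moves.of_axis h2 ⟨r, hr⟩).mul hmB).unique h2 hmC).symm
    rw [one_mul] at he
    refine swap_axis_false h2 hq hr huv hkl hmC hcC hcB he ?_ ?_
    · rw [mul_assoc, hcomm]
    · rw [mul_assoc, hb.2.1, mul_one]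
  · exfalso
    have := ((hmA.mul (Moves.of_axis h2 hB)).unique h2 (Moves.of_axis h2 hC))
    rw [mul_one] at this
    exact swap_ne_one hij this
  · exfalso
    obtain ⟨r, hr⟩ := hB
    have he := (hmA.mul (Moves.of_axis h2 ⟨r, hr⟩)).unique h2 hmC
    rw [mul_one] at he
    refine swap_axis_false h2 hq hr hij huv hmA hcA hcC he hcomm.symm ?_
    rw [← mul_assoc, ha.2.1, one_mul]
  · exfalso
    obtain ⟨r, hr⟩ := hC
    have he := (hmA.mul hmB).unique h2 (Moves.of_axis h2 ⟨r, hr⟩)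
    have he' : Equiv.swap i j = Equiv.swap k l := by
      rw [mul_eq_one_iff_eq_inv, Equiv.swap_inv] at he
      exact he
    refine swap_axis_false h2 hq hr hij hkl hmA hcA hcB he' ?_ rfl
    rw [mul_assoc a b a, hcomm]
  · exfalso
    exact sign_swap_three hij hkl huv ((hmA.mul hmB).unique h2 hmC)

/-! ### An isometry carrying axes into the stabiliser -/

lemma diag_half {m : GL (Fin 3) F} (h2 : (2 : F) ≠ 0) (hm : IsHalf m)
    (h0 : m * fr F 0 = fr F 0 * m) (h1 : m * fr F 1 = fr F 1 * m) : ∃ i, m = fr F i := by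
  obtain ⟨u, hu, e⟩ := hm
  have hoff : ∀ a b, a ≠ b → u a * u b = 0 := by
    intro a b hab
    have key : ∀ k, m * fr F k = fr F k * m → (a = k ∧ b ≠ k ∨ a ≠ k ∧ b = k) →
        u a * u b = 0 := by
      intro k hk hk'
      have hk1 : ((m * fr F k : GL (Fin 3) F) : Matrix (Fin 3) (Fin 3) F) = (fr F k * m : GL (Fin 3) F) :=
        congrArg Units.val hk
      have := congrFun (congrFun hk1 a) b
      rw [Units.val_mul, Units.val_mul, fr_val, e, mul_diagonal, diagonal_mul, ax_entry,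
        if_neg hab, sub_zero] at this
      rcases hk' with ⟨p, q⟩ | ⟨p, q⟩
      · rw [if_neg q, if_pos p] at this
        exact (mul_eq_zero.1 (by linear_combination -this : (2 * 2 : F) * (u a * u b) = 0)
          ).resolve_left (mul_ne_zero h2 h2)
      · rw [if_pos q, if_neg p] at this
        exact (mul_eq_zero.1 (by linear_combination this : (2 * 2 : F) * (u a * u b) = 0)
          ).resolve_left (mul_ne_zero h2 h2)
    by_cases ha : a = 0
    · exact key 0 h0 (Or.inl ⟨ha, fun h => hab (ha.trans h.symm)⟩)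
    by_cases hb : b = 0
    · exact key 0 h0 (Or.inr ⟨ha, hb⟩)
    by_cases ha1 : a = 1
    · exact key 1 h1 (Or.inl ⟨ha1, fun h => hab (ha1.trans h.symm)⟩)
    · have : ∀ a b : Fin 3, a ≠ b → a ≠ 0 → b ≠ 0 → a ≠ 1 → b = 1 := by decide
      exact key 1 h1 (Or.inr ⟨ha1, this a b hab ha hb ha1⟩)
  obtain ⟨i, hi⟩ : ∃ i, u i ≠ 0 := by
    by_contra hc
    push Not at hc
    simp [dotProduct, hc] at hu
  have hz : ∀ b, b ≠ i → u b = 0 := fun b hb =>
    (mul_eq_zero.1 (hoff i b hb.symm)).resolve_left hi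
  have hii : u i * u i = 1 := by
    rw [dotProduct, Finset.sum_eq_single i (fun b _ hb => by rw [hz b hb, mul_zero])
      (fun h => absurd (Finset.mem_univ i) h)] at hu
    exact hu
  refine ⟨i, Units.ext (Matrix.ext fun a b => ?_)⟩
  rw [e, ax_entry, fr_val, diagonal_apply]
  by_cases hab : a = b
  · subst hab
    by_cases ha : a = i
    · subst ha; rw [hii, if_pos rfl, if_pos rfl, if_pos rfl]; ring
    · rw [hz a ha, if_pos rfl, if_pos rfl, if_neg ha]; ring
  · rw [hoff a b hab, if_neg hab, if_neg hab]; ring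

/-- Commuting half turns of different factors do not multiply to a half turn. -/
lemma same_of_product (h2 : (2 : F) ≠ 0) (hq : 5 ≤ Nat.card F) {r s u : Fin t}
    {x y : GL (Ix t) F} (hx : IsAxisAt r x) (hy : IsAxisAt s y) (hxy : IsAxisAt u (x * y)) :
    r = s := by
  by_contra hrs
  obtain ⟨h, hh, rfl⟩ := hx
  obtain ⟨k, hk, rfl⟩ := hy
  obtain ⟨m, -, e⟩ := hxy
  have hus : u = s := by
    by_contra hus
    obtain ⟨k', -, hk'⟩ := exists_not_comm h2 hq hk
    refine hk' (gs_injective s ?_)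
    have e1 : gs s k = (gs r h)⁻¹ * gs u m := by rw [← e, inv_mul_cancel_left]
    have c1 : Commute (gs s k') (gs r h) := gs_comm (Ne.symm hrs) k' h
    have c2 : Commute (gs s k') (gs u m) := gs_comm (Ne.symm hus) k' m
    rw [map_mul, map_mul, e1]
    exact c1.inv_right.mul_right c2
  subst hus
  obtain ⟨h', -, hh'⟩ := exists_not_comm h2 hq hh
  refine hh' (gs_injective r ?_)
  have e1 : gs r h = gs u m * (gs u k)⁻¹ := by rw [← e, mul_inv_cancel_right]
  have c1 : Commute (gs r h') (gs u m) := gs_comm hrs h' m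
  have c2 : Commute (gs r h') (gs u k) := gs_comm hrs h' k
  rw [map_mul, map_mul, e1]
  exact c1.mul_right c2.inv_right

/-- An isometry carrying all axes into the stabiliser preserves the decomposition. -/
lemma mem_Wr_of_axes (h2 : (2 : F) ≠ 0) (hq : 5 ≤ Nat.card F) (ht : 1 ≤ t) {g : GL (Ix t) F}
    (hg : g ∈ OG F t) (h : ∀ x, IsAxis x → g * x * g⁻¹ ∈ WO F t) : g ∈ Wr F t := by
  set φ : GL (Ix t) F ≃* GL (Ix t) F := MulAut.conj g
  have hitem : ∀ x, IsAxis x → IsItem (φ x) := fun x hx => by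
    refine ⟨h x hx, ?_, g, x, hx, rfl⟩
    obtain ⟨r, k, hk, rfl⟩ := hx
    rw [← map_mul, ← map_mul, half_mul_self hk, map_one, map_one]
  have hprod : ∀ (r : Fin t) (o : GL (Fin 3) F), o ∈ O3m F →
      IsAxisAt r (gs r (o * fr F 0 * o⁻¹) * gs r (o * fr F 1 * o⁻¹)) := fun r o ho => by
    refine ⟨o * fr F 2 * o⁻¹, half_conj_of_orth h2 ho (isHalf_fr 2), ?_⟩
    rw [← map_mul, show o * fr F 0 * o⁻¹ * (o * fr F 1 * o⁻¹) = o * (fr F 0 * fr F 1) * o⁻¹ by group,
      fr_mul (by decide : (0 : Fin 3) ≠ 1) (by decide : (0 : Fin 3) ≠ 2)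
        (by decide : (1 : Fin 3) ≠ 2)]
  have haxis : ∀ x, IsAxis x → IsAxis (φ x) := by
    rintro x ⟨r, k, hk, rfl⟩
    obtain ⟨o, ho, rfl⟩ := exists_conj_half h2 hk
    have hb : IsAxis (gs r (o * fr F 1 * o⁻¹) : GL (Ix t) F) :=
      ⟨r, _, half_conj_of_orth h2 ho (isHalf_fr 1), rfl⟩
    exact (axes_triple h2 hq (hitem _ ⟨r, _, hk, rfl⟩) (hitem _ hb)
      (by rw [← map_mul]; exact hitem _ ⟨r, hprod r o ho⟩)).1
  have hfr : ∀ (r : Fin t) (i : Fin 3), IsAxis (φ (fa r i)) := fun r i =>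
    haxis _ ⟨r, isAxisAt_fa r i⟩
  choose σ hσ using fun r => hfr r 0
  have hsame : ∀ (r : Fin t) (k k' : GL (Fin 3) F), IsHalf k → IsHalf k' →
      ∀ s s', IsAxisAt s (φ (gs r k)) → IsAxisAt s' (φ (gs r k')) → s = s' := by
    intro r k k' hk hk' s s' hs hs'
    by_cases hc : k * k' = k' * k
    · rcases eq_or_ne k k' with rfl | hne
      · exact axisAt_unique h2 hs hs'
      obtain ⟨o, ho, e0, e1⟩ := exists_conj_pair h2 hk hk' hc hne
      obtain ⟨u, hu⟩ := haxis _ ⟨r, hprod r o ho⟩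
      rw [e0, e1, map_mul] at hu
      exact same_of_product h2 hq hs hs' hu
    · by_contra hne
      obtain ⟨a, -, ea⟩ := hs
      obtain ⟨b, -, eb⟩ := hs'
      refine hc (gs_injective r (φ.injective ?_))
      simp only [map_mul, ea, eb, gs_comm hne]
  have hmove : ∀ (r : Fin t) (x : GL (Ix t) F), IsAxisAt r x → IsAxisAt (σ r) (φ x) := by
    rintro r _ ⟨k, hk, rfl⟩
    obtain ⟨s, hs⟩ := haxis _ ⟨r, k, hk, rfl⟩
    rwa [hsame r k _ hk (isHalf_fr 0) s (σ r) hs (hσ r)] at hs
  have hinj : Function.Injective σ := by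
    intro r s hrs
    by_contra hne
    obtain ⟨a, ha, ea⟩ := hmove r _ (isAxisAt_fa r 0)
    obtain ⟨b, hb, eb⟩ := hmove r _ (isAxisAt_fa r 1)
    obtain ⟨m, hm, em⟩ := hmove s _ (isAxisAt_fa s 0)
    obtain ⟨c, -, ec⟩ := hmove r _ (isAxisAt_fa r 2)
    rw [← hrs] at em
    have h01 : (0 : Fin 3) ≠ 1 := by decide
    have h02 : (0 : Fin 3) ≠ 2 := by decide
    have h12 : (1 : Fin 3) ≠ 2 := by decide
    have habc : a * b = c := gs_injective (σ r) (by
      rw [map_mul, ← ea, ← eb, ← ec, ← map_mul, fa, fa, ← map_mul,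
        fr_mul h01 h02 h12]; rfl)
    have hne' : ∀ i, φ (fa r i) ≠ φ (fa s 0) := fun i e => hne
      (axisAt_unique h2 (isAxisAt_fa r i) (by rw [φ.injective e]; exact isAxisAt_fa s 0))
    have hcab : a * b = b * a := gs_injective (σ r) (by
      rw [map_mul, map_mul, ← ea, ← eb, ← map_mul, ← map_mul, fa, fa, ← map_mul, ← map_mul,
        fr_mul h01 h02 h12, fr_mul h01.symm h12 h02])
    have hne01 : a ≠ b := by
      rintro rfl
      have := gs_injective r (φ.injective (ea.trans eb.symm))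
      have h1 : ((fr F 0 : GL (Fin 3) F) : Matrix (Fin 3) (Fin 3) F) = (fr F 1 : GL (Fin 3) F) :=
        congrArg Units.val this
      have h' := congrFun (congrFun h1 0) 0
      simp [fr_val] at h'
      exact one_ne_neg_one h2 h'
    have hcomm : ∀ i (x : GL (Fin 3) F), φ (fa r i) = gs (σ r) x → m * x = x * m := fun i x e =>
      gs_injective (σ r) (by
        rw [map_mul, map_mul, ← e, ← em, ← map_mul, ← map_mul, fa, fa, gs_comm hne])
    obtain ⟨o, ho, e0, e1⟩ := exists_conj_pair h2 ha hb hcab hne01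
    have hm' : ∀ i x, o * fr F i * o⁻¹ = x → m * x = x * m →
        o⁻¹ * m * o * fr F i = fr F i * (o⁻¹ * m * o) := by
      rintro i x rfl hx
      calc o⁻¹ * m * o * fr F i = o⁻¹ * (m * (o * fr F i * o⁻¹)) * o := by group
        _ = _ := by rw [hx]; group
    obtain ⟨i, hi⟩ := diag_half h2
      (by simpa using half_conj_of_orth h2 ((O3m F).inv_mem ho) hm :
        IsHalf (o⁻¹ * m * o)) (hm' 0 a e0 (hcomm 0 a ea)) (hm' 1 b e1 (hcomm 1 b eb))
    have hm2 : m = o * fr F i * o⁻¹ := by rw [← hi]; group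
    fin_cases i
    · exact hne' 0 (by rw [ea, em, hm2, ← e0]; rfl)
    · exact hne' 1 (by rw [eb, em, hm2, ← e1]; rfl)
    · apply hne' 2
      rw [ec, em, hm2, ← habc, ← e0, ← e1,
        show o * fr F 0 * o⁻¹ * (o * fr F 1 * o⁻¹) = o * (fr F 0 * fr F 1) * o⁻¹ by group,
        fr_mul h01 h02 h12]
      rfl
  exact mem_Wr_of_moves h2 hq ht hg
    (π := Equiv.ofBijective σ (Finite.injective_iff_bijective.1 hinj)) hmove

/-! ### Conjugating axes, splitting off the first factor -/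

/-- Any two axes are conjugate in the stabiliser inside `Om`. -/
lemma exists_conj_axis (h2 : (2 : F) ≠ 0) {r s : Fin t}
    {x y : GL (Ix t) F} (hx : IsAxisAt r x) (hy : IsAxisAt s y) :
    ∃ w ∈ WO F t, w * x * w⁻¹ = y := by
  obtain ⟨h, hh, rfl⟩ := hx
  obtain ⟨k, hk, rfl⟩ := hy
  obtain ⟨o, ho, rfl⟩ := exists_conj_half h2 hh
  obtain ⟨o', ho', rfl⟩ := exists_conj_half h2 hk
  set P : GL (Ix t) F := glFactorPerm 3 (Equiv.swap r s) with hP
  have hPW : P ∈ Wr F t := factorPerm_mem_Wr _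
  obtain ⟨k', hk', hk0, -, hOm⟩ := exists_stab_Om h2 s (g := P * gs r o⁻¹ * gs s o')
    ((OG F t).mul_mem ((OG F t).mul_mem (Wr_le_OG hPW)
      (gs_mem_OG h2 r ((O3m F).inv_mem ho))) (gs_mem_OG h2 s ho'))
  refine ⟨gs s o' * gs s k' * P * gs r o⁻¹, ⟨?_, ?_⟩, ?_⟩
  · exact (Wr F t).mul_mem ((Wr F t).mul_mem ((Wr F t).mul_mem (gs_mem_Wr h2 s ho')
      (gs_mem_Wr h2 s hk')) hPW) (gs_mem_Wr h2 r ((O3m F).inv_mem ho))
  · have := conj_mem_Om (gs_mem_OG h2 s ho') hOm
    simp only [mul_assoc, mul_inv_cancel, mul_one] at this ⊢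
    exact this
  · have e1 : (gs r o⁻¹ : GL (Ix t) F) * gs r (o * fr F 0 * o⁻¹) * (gs r o⁻¹)⁻¹ =
        gs r (fr F 0) := by
      rw [← map_inv, ← map_mul, ← map_mul, inv_inv]; group
    have e2 : P * gs r (fr F 0) * P⁻¹ = gs s (fr F 0) := by
      rw [hP, factorPerm_conj_gs, Equiv.swap_apply_left]
    calc gs s o' * gs s k' * P * gs r o⁻¹ * gs r (o * fr F 0 * o⁻¹) *
          (gs s o' * gs s k' * P * gs r o⁻¹)⁻¹
        = gs s o' * (gs s k' * (P * (gs r o⁻¹ * gs r (o * fr F 0 * o⁻¹) * (gs r o⁻¹)⁻¹) * P⁻¹) *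
            (gs s k')⁻¹) * (gs s o')⁻¹ := by group
      _ = gs s o' * gs s (fr F 0) * (gs s o')⁻¹ := by
          rw [e1, e2, ← map_mul (gs s) k', hk0, map_mul, mul_inv_cancel_right]
      _ = _ := by rw [← map_inv, ← map_mul, ← map_mul]

lemma gs_mul_liftG_apply (h : GL (Fin 3) F) (w : GL (Ix n) F) (i j : Fin 3) (u v : Ix n) :
    ((gs 0 h * liftG w : GL (Ix (n + 1)) F) : Matrix (Ix (n + 1)) (Ix (n + 1)) F)
      (Fin.cons i u : Ix (n + 1)) (Fin.cons j v : Ix (n + 1)) =
      (h : Matrix (Fin 3) (Fin 3) F) i j * (w : Matrix (Ix n) (Ix n) F) u v := by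
  rw [Units.val_mul, gs_val, liftG_val, Matrix.mul_apply, sum_sigma_cons, Finset.sum_eq_single j]
  · rw [Finset.sum_eq_single u]
    · rw [site_zero_apply_cons, if_pos rfl, liftMat_apply_cons, if_pos rfl]
    · intro z _ hz
      rw [site_zero_apply_cons, if_neg hz.symm, zero_mul]
    · simp
  · intro k _ hk
    exact Finset.sum_eq_zero fun z _ => by rw [liftMat_apply_cons, if_neg hk, mul_zero]
  · simp

lemma gs_liftG_comm (h : GL (Fin 3) F) (w : GL (Ix n) F) :
    (gs 0 h * liftG w : GL (Ix (n + 1)) F) = liftG w * gs 0 h := by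
  refine Units.ext (Matrix.ext fun x y => ?_)
  rw [← Fin.cons_self_tail x, ← Fin.cons_self_tail y, gs_mul_liftG_apply, Units.val_mul, gs_val,
    liftG_val, Matrix.mul_apply, sum_sigma_cons, Finset.sum_eq_single (x 0)]
  · rw [Finset.sum_eq_single (Fin.tail y)]
    · rw [site_zero_apply_cons, if_pos rfl, liftMat_apply_cons, if_pos rfl, mul_comm]
    · intro z _ hz
      rw [site_zero_apply_cons, if_neg hz, mul_zero]
    · simp
  · intro k _ hk
    exact Finset.sum_eq_zero fun z _ => by rw [liftMat_apply_cons, if_neg hk.symm, zero_mul]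
  · simp

/-- A member of the stabiliser commuting with the first coordinate axis splits off its first
factor. -/
lemma split_zero (h2 : (2 : F) ≠ 0) {g : GL (Ix (n + 1)) F} (hg : g ∈ Wr F (n + 1))
    (hc : g * fa 0 0 = fa 0 0 * g) :
    ∃ h ∈ O3m F, h * fr F 0 = fr F 0 * h ∧ ∃ w ∈ Wr F n, g = gs 0 h * liftG w := by
  obtain ⟨π, A, hA, rfl⟩ := exists_form h2 hg
  have hπ : π 0 = 0 := by
    refine axisAt_unique h2 ⟨_, half_conj_of_orth h2 (hA (π 0)) (isHalf_fr 0),
      form_conj_gs A π 0 (fr F 0)⟩ ?_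
    rw [← fa, hc, mul_inv_cancel_right]
    exact isAxisAt_fa 0 0
  have hne : ∀ k : Fin n, π k.succ ≠ 0 := fun k e =>
    Fin.succ_ne_zero k (π.injective (e.trans hπ.symm))
  let π' : Equiv.Perm (Fin n) := Equiv.ofBijective (fun k => (π k.succ).pred (hne k))
    (Finite.injective_iff_bijective.1 fun a b e => Fin.succ_injective n (π.injective (by
      rw [← Fin.succ_pred _ (hne a), ← Fin.succ_pred _ (hne b)]; exact congrArg Fin.succ e)))
  have hπ' : ∀ k, π k.succ = (π' k).succ := fun k => (Fin.succ_pred _ (hne k)).symm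
  have e1 : (glPure A : GL (Ix (n + 1)) F) = gs 0 (A 0) * liftG (glPure (Fin.tail A)) := by
    refine Units.ext (Matrix.ext fun x y => ?_)
    rw [← Fin.cons_self_tail x, ← Fin.cons_self_tail y, gs_mul_liftG_apply]
    show pureMat _ _ _ = _ * pureMat _ _ _
    simp only [pureMat, Fin.prod_univ_succ, Fin.cons_zero, Fin.cons_succ, Fin.tail]
  have e2 : (glFactorPerm 3 π : GL (Ix (n + 1)) F) = liftG (glFactorPerm 3 π') := by
    refine Units.ext (Matrix.ext fun x y => ?_)
    show factorPerm 3 π x y = liftMat (factorPerm 3 π') x y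
    simp only [factorPerm, liftMat]
    rw [← ite_and]
    refine if_congr ⟨fun e => ⟨?_, funext fun k => ?_⟩, fun e => funext fun k => ?_⟩ rfl rfl
    · rw [e, Function.comp_apply, hπ]
    · rw [e]; simp [Fin.tail, hπ']
    · cases k using Fin.cases with
      | zero => rw [Function.comp_apply, hπ, e.1]
      | succ k =>
        rw [Function.comp_apply, hπ']
        exact congrFun e.2 k
  have hw : glPure (Fin.tail A) * glFactorPerm 3 π' ∈ Wr F n :=
    (Wr F n).mul_mem (glPure_mem_Wr h2 fun k => hA k.succ) (factorPerm_mem_Wr π')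
  have e : glPure A * glFactorPerm 3 π =
      gs 0 (A 0) * liftG (glPure (Fin.tail A) * glFactorPerm 3 π') := by
    rw [e1, e2, map_mul, mul_assoc]
  refine ⟨A 0, hA 0, gs_injective (0 : Fin (n + 1)) ?_, _, hw, e⟩
  set W : GL (Ix (n + 1)) F := liftG (glPure (Fin.tail A) * glFactorPerm 3 π')
  have hcW : gs 0 (fr F 0) * W = W * gs 0 (fr F 0) := gs_liftG_comm _ _
  rw [e, fa, mul_assoc, ← hcW, ← mul_assoc, ← mul_assoc] at hc
  rw [map_mul, map_mul]
  exact mul_right_cancel hc

end Cfsg.Agent.MaxSub.OWT
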