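import Cfsg.Agent.MaxSub.OrthWreathThree.FrameBlk
import Cfsg.Agent.MaxSub.OrthWreathThree.SO3
import Cfsg.Agent.MaxSub.OrthWreathThree.ClassMap
import Cfsg.Agent.MaxSub.OrthWreathThree.OmegaFacts
import Cfsg.Agent.MaxSub.OrthWreathThree.Invol
import Cfsg.Agent.MaxSub.OrthWreathThree.Lift
import Cfsg.Agent.MaxSub.OrthWreathThree.Norm

/-!
Either an overgroup of the wreath stabiliser is everything, or the centralisers of the frames of
one factor preserve the decomposition.
-/

set_option autoImplicit false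
set_option linter.unusedSectionVars false
set_option maxHeartbeats 1000000

namespace Cfsg.Agent.MaxSub.OWT

open Matrix Cfsg.Geo Cfsg.Agent.GeoClasses Cfsg.Agent.NotMax
open scoped MatrixGroups commutatorElement

variable {F : Type*} [Field F] {t n : ℕ}

/-! ### The witness outside the stabiliser -/

/-- Minus one where the coordinates `i` and `j` differ. -/
def witD (F : Type*) [Field F] (i j : Fin n) (u : Ix n) : F := if u i = u j then 1 else -1

lemma witD_sq (i j : Fin n) (u : Ix n) : witD F i j u * witD F i j u = 1 := by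
  unfold witD; split_ifs <;> simp

/-- The diagonal matrix of `witD`. -/
def wit (F : Type*) [Field F] (i j : Fin n) : GL (Ix n) F where
  val := diagonal (witD F i j)
  inv := diagonal (witD F i j)
  val_inv := by rw [diagonal_mul_diagonal, ← diagonal_one]; congr 1; funext u; exact witD_sq i j u
  inv_val := by rw [diagonal_mul_diagonal, ← diagonal_one]; congr 1; funext u; exact witD_sq i j u

lemma wit_val (i j : Fin n) : (wit F i j : Matrix (Ix n) (Ix n) F) = diagonal (witD F i j) := rfl

variable [Finite F]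

lemma wit_mem_Om (h2 : (2 : F) ≠ 0) (i j : Fin n) : wit F i j ∈ Om F n := by
  refine diag_mem_Om h2 _ (witD_sq i j) ?_ (wit_val i j)
  refine Finset.prod_involution (fun u _ => u ∘ Equiv.swap i j) ?_ ?_ (fun _ _ => Finset.mem_univ _) ?_
  · intro u _
    have : witD F i j (u ∘ Equiv.swap i j) = witD F i j u := by
      simp [witD, eq_comm]
    rw [this, witD_sq]
  · intro u _ hu hfix
    apply hu
    have := congrFun hfix i
    simp only [Function.comp_apply, Equiv.swap_apply_left] at this
    simp [witD, this]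
  · intro u _
    funext l
    simp

lemma wit_not_mem_Wr (h2 : (2 : F) ≠ 0) {i j : Fin n} (hij : i ≠ j) : wit F i j ∉ Wr F n := by
  intro hx
  obtain ⟨π, A, -, he⟩ := exists_form h2 hx
  have hM : ∀ u v : Ix n, (if u = v then witD F i j u else 0) =
      ∏ r, (A r : Matrix (Fin 3) (Fin 3) F) (u r) (v (π⁻¹ r)) := by
    intro u v
    have h := congrArg (fun x : GL (Ix n) F => (x : Matrix (Ix n) (Ix n) F) u v) he
    simp only [wit_val, diagonal_apply, Units.val_mul, Matrix.mul_apply] at h
    rw [h, Finset.sum_eq_single (v ∘ ⇑π⁻¹)]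
    · show pureMat _ u (v ∘ ⇑π⁻¹) * factorPerm 3 π (v ∘ ⇑π⁻¹) v = _
      rw [factorPerm, if_pos (by funext l; simp), mul_one]
      rfl
    · intro z _ hz
      show pureMat _ u z * factorPerm 3 π z v = _
      rw [factorPerm, if_neg, mul_zero]
      rintro rfl
      exact hz (by funext l; simp)
    · simp
  set s := π⁻¹ i
  let u : Ix n := fun _ => 0
  let u' : Ix n := fun l => if l = i then 1 else if l = j then 2 else 0
  have key : (witD F i j u * witD F i j u') =
      (if Function.update u i (u' i) = Function.update u s (u' s) then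
        witD F i j (Function.update u i (u' i)) else 0) *
      (if Function.update u' i (u i) = Function.update u' s (u s) then
        witD F i j (Function.update u' i (u i)) else 0) := by
    have e1 := hM u u
    have e2 := hM u' u'
    rw [if_pos rfl] at e1 e2
    rw [e1, e2, hM, hM, ← Finset.prod_mul_distrib, ← Finset.prod_mul_distrib]
    refine Finset.prod_congr rfl fun r _ => ?_
    by_cases hr : r = i
    · subst hr
      rw [Function.update_self, Function.update_self, Function.update_self, Function.update_self]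
      ring
    · have hr' : π⁻¹ r ≠ s := fun e => hr (π⁻¹.injective e)
      rw [Function.update_of_ne hr, Function.update_of_ne hr, Function.update_of_ne hr',
        Function.update_of_ne hr']
  have h0 : witD F i j u = 1 := by simp [witD, u]
  have h1 : witD F i j u' = -1 := by simp [witD, u', hij.symm]
  have h2' : witD F i j (Function.update u i (u' i)) = -1 := by simp [witD, u, u', hij.symm]
  have h3 : witD F i j (Function.update u' i (u i)) = -1 := by simp [witD, u, u', hij.symm]
  rw [h0, h1, h2', h3] at key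
  split_ifs at key <;> simp at key
  exact one_ne_neg_one h2 key.symm

lemma wit_not_isSgn (h2 : (2 : F) ≠ 0) {i j : Fin n} (hij : i ≠ j) : ¬ IsSgn (wit F i j) := by
  rintro (h | h)
  · refine wit_not_mem_Wr h2 hij ?_
    rw [h]; exact Subgroup.one_mem _
  · have := congrArg (fun x : GL (Ix n) F => (x : Matrix (Ix n) (Ix n) F) (fun _ => 0) (fun _ => 0)) h
    simp [wit_val, witD] at this
    exact one_ne_neg_one h2 this

/-! ### Elements of the stabiliser -/

lemma gs_half_mem_WO (h2 : (2 : F) ≠ 0) (r : Fin t) {h : GL (Fin 3) F} (hh : IsHalf h) :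
    gs r h ∈ WO F t :=
  have hU := half_mem h2 hh
  ⟨gs_mem_Wr h2 r (U3m_le hU), (gs_mem_Om_iff h2 r (U3m_le hU)).2 hU⟩

lemma gs_U3m_mem_WO (h2 : (2 : F) ≠ 0) (r : Fin t) {h : GL (Fin 3) F} (hU : h ∈ U3m F) :
    gs r h ∈ WO F t :=
  ⟨gs_mem_Wr h2 r (U3m_le hU), (gs_mem_Om_iff h2 r (U3m_le hU)).2 hU⟩

lemma liftG_mem_WO (h2 : (2 : F) ≠ 0) {w : GL (Ix n) F} (hw : w ∈ WO F n) :
    liftG w ∈ WO F (n + 1) := ⟨liftG_mem_Wr h2 hw.1, liftG_mem_Om h2 hw.2⟩

lemma bracket_mem {G : Type*} [Group G] {X : Subgroup G} {a b : G} (ha : a ∈ X) (hb : b ∈ X) :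
    ⁅a, b⁆ ∈ X := by
  rw [commutatorElement_def]
  exact X.mul_mem (X.mul_mem (X.mul_mem ha hb) (X.inv_mem ha)) (X.inv_mem hb)

/-- The slots in the first place of members centralising the standard frame. -/
def slotP (h2 : (2 : F) ≠ 0) {X : Subgroup (GL (Ix (n + 1)) F)} (hX : Good X) :
    Subgroup (GL (Ix n) F) where
  carrier := {v | ∃ g ∈ X, ∃ w, Blk g w ∧ w 0 = v}
  one_mem' := ⟨1, X.one_mem, 1, blk_one, rfl⟩
  mul_mem' := by
    rintro a b ⟨g, hg, w, hw, rfl⟩ ⟨g', hg', w', hw', rfl⟩
    exact ⟨g * g', X.mul_mem hg hg', w * w', hw.mul hw', rfl⟩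
  inv_mem' := by
    rintro a ⟨g, hg, w, hw, rfl⟩
    exact ⟨g⁻¹, X.inv_mem hg, w⁻¹, hw.inv h2 (hX.le_OG hg), rfl⟩

section Standard

variable {X : Subgroup (GL (Ix (n + 1)) F)}

lemma exists_shift (h2 : (2 : F) ≠ 0) (hX : Good X) (c : Fin 3) {g : GL (Ix (n + 1)) F} (hg : g ∈ X)
    {w : Fin 3 → GL (Ix n) F} (hw : Blk g w) : ∃ g' ∈ X, Blk g' fun i => w (i + c) := by
  have hs : gs (0 : Fin (n + 1)) (pm F (Equiv.addRight (-c))) ∈ X :=
    hX.le (gs_U3m_mem_WO h2 _ (pm_rot_mem_U3m _))
  refine ⟨_, X.mul_mem (X.mul_mem hs hg) (X.inv_mem hs), ?_⟩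
  have := hw.perm (Equiv.addRight (-c))
  convert this using 5
  simp

lemma exists_slot (h2 : (2 : F) ≠ 0) (hX : Good X) {y : GL (Ix n) F} (hy : y ∈ slotP h2 hX)
    (i : Fin 3) : ∃ g ∈ X, ∃ w, Blk g w ∧ w i = y := by
  obtain ⟨g, hg, w, hw, rfl⟩ := hy
  obtain ⟨g', hg', hw'⟩ := exists_shift h2 hX (-i) hg hw
  exact ⟨g', hg', _, hw', by simp⟩

lemma exists_bracket_ne (h2 : (2 : F) ≠ 0) (hn : 2 ≤ n) {w : GL (Ix n) F} (hw : w ∈ OG F n)
    (hns : ¬ IsSgn w) : ∃ y ∈ Om F n, ¬ IsSgn ⁅w, y⁆ := by
  by_contra hno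
  push Not at hno
  have hc : ∀ y ∈ Om F n, w * y = y * w := fun y hy => commutatorElement_eq_one_iff_mul_comm.1
    (eq_one_of_isSgn_det h2 odd_card_Ix (hno y hy) (det_bracket w y))
  have hT : Om F n ≤ Subgroup.centralizer (Om F n : Set (GL (Ix n) F)) ⊓ OG F n := by
    refine normal_full h2 hn inf_le_right ?_ ⟨w, ⟨?_, hw⟩, fun e => hns (Or.inl e),
      fun e => hns (Or.inr (Units.ext (by rw [e, Units.val_neg, Units.val_one])))⟩
    · intro y hy s hs
      refine ⟨?_, (OG F n).mul_mem ((OG F n).mul_mem (Om_le_OG hy) hs.2) ((OG F n).inv_mem (Om_le_OG hy))⟩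
      have h1 : y * s * y⁻¹ = s := by
        rw [mul_inv_eq_iff_eq_mul]; exact Subgroup.mem_centralizer_iff.1 hs.1 y hy
      rw [h1]; exact hs.1
    · exact Subgroup.mem_centralizer_iff.2 fun y hy => (hc y hy).symm
  have hab : ⁅Om F n, Om F n⁆ = ⊥ := Subgroup.commutator_eq_bot_iff_le_centralizer.2 fun y hy => (hT hy).1
  rw [Om_perfect h2 hn] at hab
  have := wit_mem_Om (F := F) h2 (⟨0, by omega⟩ : Fin n) ⟨1, by omega⟩
  rw [hab, Subgroup.mem_bot] at this
  exact wit_not_isSgn h2 (by simp [Fin.ext_iff]) (Or.inl this)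

variable (h2 : (2 : F) ≠ 0) (hn : 2 ≤ n) (hX : Good X)
  (hlift : ∀ w ∈ Om F n, liftG w ∈ X → w ∈ Wr F n) (hP : Om F n ≤ slotP h2 hX)

include hn hlift hP in
lemma no_single {g : GL (Ix (n + 1)) F} (hg : g ∈ X) {v : GL (Ix n) F} {k : Fin 3}
    (hb : Blk g (Pi.mulSingle k v)) : IsSgn v := by
  by_contra hns
  let S : Subgroup (GL (Ix n) F) :=
    { carrier := {v | ∃ g ∈ X, Blk g (Pi.mulSingle k v)}
      one_mem' := ⟨1, X.one_mem, by rw [Pi.mulSingle_one]; exact blk_one⟩
      mul_mem' := by
        rintro a b ⟨g, hg, hw⟩ ⟨g', hg', hw'⟩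
        exact ⟨g * g', X.mul_mem hg hg', by rw [Pi.mulSingle_mul]; exact hw.mul hw'⟩
      inv_mem' := by
        rintro a ⟨g, hg, hw⟩
        exact ⟨g⁻¹, X.inv_mem hg, by rw [Pi.mulSingle_inv]; exact hw.inv h2 (hX.le_OG hg)⟩ }
  have hS : Om F n ≤ S := by
    refine normal_full h2 hn ?_ ?_ ⟨v, ⟨g, hg, hb⟩, fun e => hns (Or.inl e),
      fun e => hns (Or.inr (Units.ext (by rw [e, Units.val_neg, Units.val_one])))⟩
    · rintro a ⟨g', hg', hw'⟩
      have := hw'.mem_OG h2 (hX.le_OG hg') k
      rwa [Pi.mulSingle_eq_same] at this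
    · rintro y hy a ⟨g', hg', hw'⟩
      obtain ⟨h, hh, w, hw, rfl⟩ := exists_slot h2 hX (hP hy) k
      refine ⟨h * g' * h⁻¹, X.mul_mem (X.mul_mem hh hg') (X.inv_mem hh), ?_⟩
      have he : w * Pi.mulSingle k a * w⁻¹ = Pi.mulSingle k (w k * a * (w k)⁻¹) := by
        funext i
        by_cases hi : i = k
        · subst hi; simp
        · simp [hi]
      rw [← he]
      exact hw.conj h2 (hX.le_OG hh) hw'
  refine wit_not_mem_Wr (i := (⟨0, by omega⟩ : Fin n)) (j := ⟨1, by omega⟩) h2 (by simp [Fin.ext_iff]) ?_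
  refine hlift _ (wit_mem_Om h2 _ _) ?_
  set y := wit F (⟨0, by omega⟩ : Fin n) ⟨1, by omega⟩
  obtain ⟨g', hg', hw'⟩ := hS (wit_mem_Om h2 _ _ : y ∈ Om F n)
  obtain ⟨g1, hg1, hw1⟩ := exists_shift h2 hX 1 hg' hw'
  obtain ⟨g2, hg2, hw2⟩ := exists_shift h2 hX 2 hg' hw'
  have hprod : Blk (g' * g1 * g2) fun _ => y := by
    have h := (hw'.mul hw1).mul hw2
    convert h using 3
    rename_i i
    fin_cases k <;> fin_cases i <;> simp [Pi.mulSingle_apply, y]
  rw [(blk_liftG y).eq hprod]
  exact X.mul_mem (X.mul_mem hg' hg1) hg2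

include hn hlift hP in
/-- A member with a trivial slot has signs in all slots. -/
lemma no_kernel {g : GL (Ix (n + 1)) F} (hg : g ∈ X) {w : Fin 3 → GL (Ix n) F} (hw : Blk g w)
    (h0 : w 0 = 1) : IsSgn (w 1) ∧ IsSgn (w 2) := by
  have hgO := hX.le_OG hg
  by_cases h1 : IsSgn (w 1)
  · refine ⟨h1, ?_⟩
    by_contra hns
    obtain ⟨y, hy, hne⟩ := exists_bracket_ne h2 hn (hw.mem_OG h2 hgO 2) hns
    obtain ⟨h, hh, w', hw', rfl⟩ := exists_slot h2 hX (hP hy) 2
    refine hne (no_single (k := (2 : Fin 3)) (v := ⁅w 2, w' 2⁆) h2 hn hX hlift hP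
      (bracket_mem hg hh) ?_)
    have he : ⁅w, w'⁆ = Pi.mulSingle (2 : Fin 3) ⁅w 2, w' 2⁆ := by
      funext i
      fin_cases i
      · simp [commutatorElement_def, h0]
      · simpa [commutatorElement_def] using h1.bracket_left (w' 1)
      · simp [commutatorElement_def]
    rw [← he]
    exact hw.bracket h2 hgO (hX.le_OG hh) hw'
  · exfalso
    by_cases h2' : IsSgn (w 2)
    · obtain ⟨y, hy, hne⟩ := exists_bracket_ne h2 hn (hw.mem_OG h2 hgO 1) h1
      obtain ⟨h, hh, w', hw', rfl⟩ := exists_slot h2 hX (hP hy) 1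
      refine hne (no_single (k := (1 : Fin 3)) (v := ⁅w 1, w' 1⁆) h2 hn hX hlift hP
        (bracket_mem hg hh) ?_)
      have he : ⁅w, w'⁆ = Pi.mulSingle (1 : Fin 3) ⁅w 1, w' 1⁆ := by
        funext i
        fin_cases i
        · simp [commutatorElement_def, h0]
        · simp [commutatorElement_def]
        · simpa [commutatorElement_def] using h2'.bracket_left (w' 2)
      rw [← he]
      exact hw.bracket h2 hgO (hX.le_OG hh) hw'
    · let N : Subgroup (GL (Ix n) F) :=
        { carrier := {v | ∃ g ∈ X, ∃ w, Blk g w ∧ w 0 = 1 ∧ w 1 = v}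
          one_mem' := ⟨1, X.one_mem, 1, blk_one, rfl, rfl⟩
          mul_mem' := by
            rintro a b ⟨g, hg, w, hw, hw0, rfl⟩ ⟨g', hg', w', hw', hw0', rfl⟩
            exact ⟨g * g', X.mul_mem hg hg', w * w', hw.mul hw', by simp [hw0, hw0'], rfl⟩
          inv_mem' := by
            rintro a ⟨g, hg, w, hw, hw0, rfl⟩
            exact ⟨g⁻¹, X.inv_mem hg, w⁻¹, hw.inv h2 (hX.le_OG hg), by simp [hw0], rfl⟩ }
      have hN : Om F n ≤ N := by
        refine normal_full h2 hn ?_ ?_ ⟨w 1, ⟨g, hg, w, hw, h0, rfl⟩, fun e => h1 (Or.inl e),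
          fun e => h1 (Or.inr (Units.ext (by rw [e, Units.val_neg, Units.val_one])))⟩
        · rintro a ⟨g', hg', w', hw', -, rfl⟩
          exact hw'.mem_OG h2 (hX.le_OG hg') 1
        · rintro y hy a ⟨g', hg', w', hw', hw0', rfl⟩
          obtain ⟨h, hh, v, hv, rfl⟩ := exists_slot h2 hX (hP hy) 1
          exact ⟨_, X.mul_mem (X.mul_mem hh hg') (X.inv_mem hh), _, hv.conj h2 (hX.le_OG hh) hw',
            by simp [hw0'], rfl⟩
      obtain ⟨y, hy, hne⟩ := exists_bracket_ne h2 hn (hw.mem_OG h2 hgO 2) h2'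
      obtain ⟨g', hg', w', hw', hw0', rfl⟩ := hN hy
      obtain ⟨h, hh, hv⟩ := exists_shift h2 hX 2 hg' hw'
      refine hne (no_single (k := (2 : Fin 3)) (v := ⁅w 2, w' 1⁆) h2 hn hX hlift hP
        (bracket_mem hg hh) ?_)
      have he : ⁅w, fun i => w' (i + 2)⁆ = Pi.mulSingle (2 : Fin 3) ⁅w 2, w' 1⁆ := by
        funext i
        fin_cases i <;> simp [commutatorElement_def, h0, hw0']
      rw [← he]
      exact hw.bracket h2 hgO (hX.le_OG hh) hv

include hn hlift hP in
/-- A member with a sign in the first slot has signs in all slots. -/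
lemma all_isSgn {g : GL (Ix (n + 1)) F} (hg : g ∈ X) {w : Fin 3 → GL (Ix n) F} (hw : Blk g w)
    (h0 : IsSgn (w 0)) (i : Fin 3) : IsSgn (w i) := by
  rcases h0 with h0 | h0
  · have := no_kernel h2 hn hX hlift hP hg hw h0
    fin_cases i
    exacts [Or.inl h0, this.1, this.2]
  · have hε : fa (0 : Fin (n + 1)) 1 ∈ X := hX.le (gs_half_mem_WO h2 _ (isHalf_fr 1))
    let ε : Fin 3 → GL (Ix n) F := fun i => if i = 1 then 1 else -1
    have hb : Blk (fa 0 1 : GL (Ix (n + 1)) F) ε := by
      intro a b u v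
      rw [fa, gs_val, site_zero_apply_cons, fr_val, diagonal_apply]
      by_cases hab : a = b
      · subst hab
        by_cases huv : u = v <;> by_cases ha : a = 1 <;> simp [ε, huv, ha]
      · simp [hab]
    have h := no_kernel h2 hn hX hlift hP (X.mul_mem hε hg) (hb.mul hw) (by simp [ε, h0])
    have e1 : IsSgn (w 1) := by simpa [ε] using h.1
    have e2 : IsSgn (w 2) := by
      have := IsSgn.mul (Or.inr rfl : IsSgn (-1 : GL (Ix n) F)) h.2
      simpa [ε] using this
    fin_cases i
    exacts [Or.inr h0, e1, e2]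

include hn hlift hP in
lemma Om_not_le : False := by
  set i0 : Fin n := ⟨0, by omega⟩
  set i1 : Fin n := ⟨1, by omega⟩
  have hij : i0 ≠ i1 := by simp [i0, i1, Fin.ext_iff]
  set x := wit F i0 i1
  have hxns : ¬ IsSgn x := wit_not_isSgn h2 hij
  obtain ⟨g, hg, w, hw, hw0⟩ := hP (wit_mem_Om h2 i0 i1 : x ∈ Om F n)
  have hgO := hX.le_OG hg
  -- every stabiliser element commuting with the witness commutes with the other slots
  have hcomm : ∀ W ∈ WO F n, W * x = x * W → ∀ a : Fin 3, w a * W = W * w a := by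
    intro W hW hWx a
    have hh : liftG W ∈ X := hX.le (liftG_mem_WO h2 hW)
    have h := hw.bracket h2 hgO (hX.le_OG hh) (blk_liftG W)
    have h0 : IsSgn ((⁅w, (fun _ => W : Fin 3 → GL (Ix n) F)⁆) 0) := Or.inl <| by
      simp only [commutatorElement_def, Pi.mul_apply, Pi.inv_apply]
      rw [hw0, show wit F i0 i1 = x from rfl, ← hWx]; group
    have h1 : IsSgn ⁅w a, W⁆ := by
      simpa [commutatorElement_def] using
        all_isSgn h2 hn hX hlift hP (bracket_mem hg hh) h h0 a
    exact commutatorElement_eq_one_iff_mul_comm.1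
      (eq_one_of_isSgn_det h2 odd_card_Ix h1 (det_bracket _ _))
  have hsign : ∀ a : Fin 3, ∃ e f : F, e * e = 1 ∧ f * f = 1 ∧ (w a : Matrix (Ix n) (Ix n) F) =
      diagonal fun u => if u i0 = u i1 then e else f := by
    intro a
    set D : Matrix (Ix n) (Ix n) F := (w a : Matrix (Ix n) (Ix n) F)
    have hcD : ∀ W ∈ WO F n, W * x = x * W → D * (W : Matrix (Ix n) (Ix n) F) = W * D := by
      intro W hW hWx
      rw [← Units.val_mul, ← Units.val_mul, hcomm W hW hWx a]
    have hdiag : ∀ u v : Ix n, u ≠ v → D u v = 0 := by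
      intro u v huv
      obtain ⟨r, hr⟩ := Function.ne_iff.1 huv
      have e := congrFun (congrFun (hcD (fa r (u r)) (gs_half_mem_WO h2 r (isHalf_fr _))
        (Units.ext (by
          rw [Units.val_mul, Units.val_mul, fa, gs_val, fr_val, site_diagonal, wit_val,
            diagonal_mul_diagonal, diagonal_mul_diagonal]
          simp only [mul_comm]))) u) v
      rw [fa, gs_val, fr_val, site_diagonal, Matrix.mul_diagonal, Matrix.diagonal_mul, if_pos rfl,
        if_neg (Ne.symm hr)] at e
      exact (mul_eq_zero.1 (by linear_combination -e : (2 : F) * D u v = 0)).resolve_left h2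
    set δ : Ix n → F := fun u => D u u
    have hD : D = diagonal δ := Matrix.ext fun u v => by
      by_cases huv : u = v
      · subst huv; simp [δ]
      · rw [diagonal_apply_ne _ huv, hdiag u v huv]
    -- permutation matrices commuting with the witness
    have hperm : ∀ W ∈ WO F n, ∀ f : Ix n → Ix n,
        (∀ p q, (W : Matrix (Ix n) (Ix n) F) p q = if p = f q then 1 else 0) →
        (∀ q, witD F i0 i1 (f q) = witD F i0 i1 q) → ∀ q, δ (f q) = δ q := by
      intro W hW f hf hfw q
      have hWx : W * x = x * W := Units.ext <| Matrix.ext fun p q => by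
        rw [Units.val_mul, Units.val_mul, wit_val, Matrix.mul_diagonal, Matrix.diagonal_mul, hf]
        split_ifs with hp
        · subst hp; rw [hfw]; ring
        · ring
      have e := congrFun (congrFun (hcD W hW hWx) (f q)) q
      rw [hD, Matrix.mul_diagonal, Matrix.diagonal_mul, hf, if_pos rfl] at e
      linear_combination e
    have hsite : ∀ (r : Fin n) (σ : Equiv.Perm (Fin 3)) (p q : Ix n),
        site r (pm F σ : Matrix (Fin 3) (Fin 3) F) p q =
          if p = Function.update q r (σ (q r)) then 1 else 0 := by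
      intro r σ p q
      by_cases ho : ∀ l, l ≠ r → p l = q l
      · rw [site_apply_of_eq _ ho, pm_apply]
        refine if_congr ⟨fun e => funext fun l => ?_, fun e => by rw [e]; simp⟩ rfl rfl
        by_cases hl : l = r
        · subst hl; simpa using e
        · simpa [hl] using ho l hl
      · push Not at ho
        obtain ⟨l, hl, hne⟩ := ho
        rw [site_apply_of_ne _ hl hne, if_neg]
        intro e
        exact hne (by rw [e, Function.update_of_ne hl])
    have hrot : ∀ r : Fin n, r ≠ i0 → r ≠ i1 → ∀ (u : Ix n) (b : Fin 3),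
        δ (Function.update u r b) = δ u := by
      intro r hr0 hr1 u b
      have := hperm _ (gs_U3m_mem_WO h2 r (pm_rot_mem_U3m (b - u r)))
        (fun q => Function.update q r (q r + (b - u r))) (fun p q => hsite r _ p q)
        (fun q => by simp [witD, hr0.symm, hr1.symm]) u
      simpa using this
    have hpair : ∀ (u : Ix n) (σ : Equiv.Perm (Fin 3)),
        δ (Function.update (Function.update u i0 (σ (u i0))) i1 (σ (u i1))) = δ u := by
      intro u σ
      refine hperm (gs i1 (pm F σ) * gs i0 (pm F σ)) ⟨Subgroup.mul_mem _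
        (gs_mem_Wr h2 _ (pm_mem_O3m σ)) (gs_mem_Wr h2 _ (pm_mem_O3m σ)),
        gs_mul_gs_mem_Om h2 i1 i0 (pm_mem_O3m σ)⟩
        (fun q => Function.update (Function.update q i0 (σ (q i0))) i1 (σ (q i1))) ?_ ?_ u
      · intro p q
        rw [Units.val_mul, gs_val, gs_val, Matrix.mul_apply,
          Finset.sum_eq_single (Function.update q i0 (σ (q i0)))]
        · rw [hsite, hsite, if_pos rfl, mul_one, Function.update_of_ne hij.symm]
        · intro z _ hz; rw [hsite i0, if_neg hz, mul_zero]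
        · simp
      · intro q
        simp [witD, hij]
    have hconst : ∀ u v : Ix n, (u i0 = u i1 ↔ v i0 = v i1) → δ u = δ v := by
      intro u v hiff
      have hex : ∀ a b a' b' : Fin 3, (a = b ↔ a' = b') →
          ∃ σ : Equiv.Perm (Fin 3), σ a = a' ∧ σ b = b' := by decide
      obtain ⟨σ, hσ0, hσ1⟩ := hex _ _ _ _ hiff
      set u1 := Function.update (Function.update u i0 (σ (u i0))) i1 (σ (u i1))
      rw [← hpair u σ]
      -- change the remaining coordinates one at a time
      suffices H : ∀ s : Finset (Fin n), ∀ u' : Ix n, (∀ l ∉ s, u' l = v l) → i0 ∉ s → i1 ∉ s →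
          δ u' = δ v by
        refine H (Finset.univ \ {i0, i1}) u1 (fun l hl => ?_) (by simp) (by simp)
        simp only [Finset.mem_sdiff, Finset.mem_univ, true_and, not_not, Finset.mem_insert,
          Finset.mem_singleton] at hl
        rcases hl with rfl | rfl
        · simp [u1, hij, hσ0]
        · simp [u1, hσ1]
      intro s
      induction s using Finset.induction with
      | empty => intro u' hu' _ _; rw [funext fun l => hu' l (by simp)]
      | insert r s hr ih =>
        intro u' hu' hs0 hs1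
        simp only [Finset.mem_insert, not_or] at hs0 hs1
        rw [← hrot r (Ne.symm hs0.1) (Ne.symm hs1.1) u' (v r)]
        refine ih _ (fun l hl => ?_) hs0.2 hs1.2
        by_cases hlr : l = r
        · subst hlr; simp
        · rw [Function.update_of_ne hlr]; exact hu' l (by simp [hlr, hl])
    have horth : ∀ u, δ u * δ u = 1 := by
      intro u
      have h := isometry_transpose_mul h2 (hw.mem_OG h2 hgO a)
      change Dᵀ * D = 1 at h
      rw [hD, diagonal_transpose, diagonal_mul_diagonal, ← diagonal_one] at h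
      exact congrFun (diagonal_injective h) u
    let u0 : Ix n := fun _ => 0
    let u1 : Ix n := Function.update u0 i0 1
    refine ⟨δ u0, δ u1, horth _, horth _, ?_⟩
    rw [hD]
    congr 1
    funext u
    split_ifs with hu
    · exact hconst u u0 (by simp [hu, u0])
    · exact hconst u u1 (by simp [hu, u1, u0, hij.symm])
  -- each slot is a sign times the witness
  have hslot : ∀ a : Fin 3, w a = x ∨ w a = -x := by
    intro a
    obtain ⟨e, f, he, hf, hD⟩ := hsign a
    rcases mul_self_eq_one_iff.1 he with rfl | rfl <;> rcases mul_self_eq_one_iff.1 hf with rfl | rfl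
    case inl.inr => exact Or.inl (Units.ext (by rw [hD, wit_val]; rfl))
    case inr.inl =>
      refine Or.inr (Units.ext ?_)
      rw [hD, Units.val_neg, wit_val, diagonal_neg]
      congr 1
      funext u
      simp only [witD]; split_ifs <;> simp
    all_goals
      exfalso
      obtain ⟨g', hg', hv⟩ := exists_shift h2 hX a hg hw
      have h := all_isSgn h2 hn hX hlift hP hg' hv
        (by
          first
            | (left; apply Units.ext; simp [hD]; done)
            | (right; apply Units.ext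
               rw [zero_add, hD, Units.val_neg, Units.val_one, ← diagonal_one, diagonal_neg]
               congr 1; funext u; simp; done))
        (-a)
      simp only [neg_add_cancel, hw0] at h
      exact hxns h
  -- so the element is a diagonal of the first factor times the lift of the witness
  choose c hc using fun a : Fin 3 => (show ∃ c : F, c * c = 1 ∧
      (w a : Matrix (Ix n) (Ix n) F) = c • (x : Matrix (Ix n) (Ix n) F) from by
    rcases hslot a with h | h
    · exact ⟨1, by simp, by simp [h]⟩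
    · exact ⟨-1, by simp, by simp [h]⟩)
  let d : GL (Fin 3) F :=
    { val := diagonal c
      inv := diagonal c
      val_inv := by rw [diagonal_mul_diagonal, ← diagonal_one]; congr 1; funext i; exact (hc i).1
      inv_val := by rw [diagonal_mul_diagonal, ← diagonal_one]; congr 1; funext i; exact (hc i).1 }
  have hd : d ∈ O3m F := by
    refine mem_isometry_of _ ?_
    show (diagonal c)ᵀ * diagonal c = 1
    rw [diagonal_transpose, diagonal_mul_diagonal, ← diagonal_one]
    congr 1; funext i; exact (hc i).1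
  have hge : g = gs 0 d * liftG x := by
    refine hw.eq ?_
    have h1 : IsBlk (gs (0 : Fin (n + 1)) d) fun i => c i • (1 : Matrix (Ix n) (Ix n) F) := by
      intro a b u v
      rw [gs_val, site_zero_apply_cons]
      show (if u = v then diagonal c a b else 0) = _
      by_cases hab : a = b
      · subst hab; by_cases huv : u = v <;> simp [huv]
      · simp [hab]
    have h := IsBlk.mul h1 (blk_liftG x)
    convert h using 2
    rename_i a
    rw [(hc a).2, Matrix.smul_mul, one_mul]
  have hdO : gs (0 : Fin (n + 1)) d ∈ Om F (n + 1) := by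
    have : gs (0 : Fin (n + 1)) d = g * (liftG x)⁻¹ := by rw [hge]; group
    rw [this]
    exact (Om F (n + 1)).mul_mem (hX.top hg)
      ((Om F (n + 1)).inv_mem (liftG_mem_Om h2 (wit_mem_Om h2 i0 i1)))
  have hdX : gs (0 : Fin (n + 1)) d ∈ X := hX.le ⟨gs_mem_Wr h2 _ hd, hdO⟩
  refine wit_not_mem_Wr h2 hij (hlift x (wit_mem_Om h2 i0 i1) ?_)
  have : liftG x = (gs (0 : Fin (n + 1)) d)⁻¹ * g := by rw [hge]; group
  rw [this]
  exact X.mul_mem (X.inv_mem hdX) hg

end Standard

/-- In a proper overgroup the first slots preserve the decomposition. -/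
lemma slotP_le_Wr (h2 : (2 : F) ≠ 0) (hq : 5 ≤ Nat.card F) (hn : 2 ≤ n) (hD : Dicho F n)
    {X : Subgroup (GL (Ix (n + 1)) F)} (hX : Good X) (hne : X ≠ Om F (n + 1)) :
    slotP h2 hX ≤ Wr F n := by
  have hlift : ∀ w ∈ Om F n, liftG w ∈ X → w ∈ Wr F n := by
    intro w hw hwX
    have hY : Good (X.comap liftG ⊓ Om F n) :=
      ⟨fun y hy => ⟨hX.le (liftG_mem_WO h2 hy), hy.2⟩, inf_le_right⟩
    rcases hD _ hY with h | h
    · exact h ⟨hwX, hw⟩
    · exact absurd (eq_Om_of_lift h2 hq hn hX fun v hv => ((le_of_eq h.symm) hv).1) hne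
  have hWP : WO F n ≤ slotP h2 hX := fun y hy =>
    ⟨liftG y, hX.le (liftG_mem_WO h2 hy), _, blk_liftG y, rfl⟩
  have hY : slotP h2 hX ⊓ Om F n ≤ Wr F n := by
    rcases hD _ ⟨le_inf hWP inf_le_right, inf_le_right⟩ with h | h
    · exact h
    · exact (Om_not_le h2 hn hX hlift (h ▸ inf_le_left)).elim
  intro p hp
  have hpO : p ∈ OG F n := by
    obtain ⟨g, hg, w, hw, rfl⟩ := hp
    exact hw.mem_OG h2 (hX.le_OG hg) 0
  refine mem_Wr_of_axes h2 hq (by omega) hpO fun x hx => ?_
  obtain ⟨r, h, hh, rfl⟩ := hx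
  have hW := gs_half_mem_WO h2 r hh
  have hO : p * gs r h * p⁻¹ ∈ Om F n := conj_mem_Om hpO hW.2
  exact ⟨hY ⟨(slotP h2 hX).mul_mem ((slotP h2 hX).mul_mem hp (hWP hW)) ((slotP h2 hX).inv_mem hp), hO⟩, hO⟩

/-- A member of a proper overgroup commuting with a whole factor preserves the decomposition. -/
lemma mem_Wr_of_comm_factor (h2 : (2 : F) ≠ 0) (hq : 5 ≤ Nat.card F) (hn : 2 ≤ n) (hD : Dicho F n)
    {X : Subgroup (GL (Ix (n + 1)) F)} (hX : Good X) (hne : X ≠ Om F (n + 1))
    {e : GL (Ix (n + 1)) F} (he : e ∈ X) (r : Fin (n + 1))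
    (hc : ∀ h, e * gs r h = gs r h * e) : e ∈ Wr F (n + 1) := by
  set c : GL (Ix (n + 1)) F := glFactorPerm 3 (Equiv.swap r 0) with hcdef
  have hcW : c ∈ Wr F (n + 1) := factorPerm_mem_Wr _
  have hX' := hX.conj hcW
  set e' := c * e * c⁻¹
  have he' : e' ∈ X.map (MulAut.conj c).toMonoidHom := ⟨e, he, rfl⟩
  have hc' : ∀ h, e' * gs 0 h = gs 0 h * e' := by
    intro h
    have h1 : c * gs r h * c⁻¹ = gs 0 h := by
      rw [hcdef, factorPerm_conj_gs, Equiv.swap_apply_left]
    rw [← h1]
    calc e' * (c * gs r h * c⁻¹) = c * (e * gs r h) * c⁻¹ := by simp [e', mul_assoc]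
      _ = c * (gs r h * e) * c⁻¹ := by rw [hc h]
      _ = _ := by simp [e', mul_assoc]
  obtain ⟨w, -, hw⟩ := exists_blk h2 (hX'.le_OG he') fun k => hc' _
  have hconst : ∀ a, w a = w 0 := by
    intro a
    have h := Blk.perm (Equiv.addRight a) (show Blk e' w from hw)
    rw [← hc' _, mul_inv_cancel_right] at h
    have := congrFun ((show Blk e' w from hw).unique h) a
    simpa using this
  have heq : e' = liftG (w 0) :=
    (show Blk e' w from hw).eq (by rw [show w = fun _ => w 0 from funext hconst]; exact blk_liftG _)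
  have hw0 : w 0 ∈ Wr F n :=
    slotP_le_Wr h2 hq hn hD hX' (map_conj_ne_Om hne (Wr_le_OG hcW))
      ⟨e', he', w, hw, rfl⟩
  have h' : e' ∈ Wr F (n + 1) := heq ▸ liftG_mem_Wr h2 hw0
  have : e = c⁻¹ * e' * c := by simp [e', mul_assoc]
  rw [this]
  exact (Wr F (n + 1)).mul_mem ((Wr F (n + 1)).mul_mem ((Wr F (n + 1)).inv_mem hcW) h') hcW

/-- A member of the stabiliser centralising the standard frame has proportional slots. -/
lemma slots_prop (h2 : (2 : F) ≠ 0) {g : GL (Ix (n + 1)) F} (hg : g ∈ Wr F (n + 1))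
    {w : Fin 3 → GL (Ix n) F} (hw : Blk g w) (i : Fin 3) : w i = w 0 ∨ w i = -w 0 := by
  obtain ⟨h, hh, hh0, v, hv, he⟩ := split_zero h2 hg (hw.comm 0)
  have hfa : ∀ k, h * fr F k = fr F k * h := by
    intro k
    apply gs_injective (t := n + 1) 0
    have h1 : gs (0 : Fin (n + 1)) h = g * (liftG v)⁻¹ := by rw [he]; group
    have hc : Commute (gs (0 : Fin (n + 1)) h) (fa 0 k) := by
      rw [h1]
      exact Commute.mul_left (hw.comm k) (Commute.inv_left ((blk_liftG v).comm k))
    simpa [fa] using hc.eq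
  have hd : ∀ a b : Fin 3, a ≠ b → (h : Matrix (Fin 3) (Fin 3) F) a b = 0 := by
    intro a b hab
    have e := congrArg (fun x : GL (Fin 3) F => (x : Matrix (Fin 3) (Fin 3) F) a b) (hfa a)
    simp only [Units.val_mul, fr_val, Matrix.mul_diagonal, Matrix.diagonal_mul, if_neg (Ne.symm hab),
      if_pos] at e
    exact (mul_eq_zero.1 (by linear_combination -e : (2 : F) * _ = 0)).resolve_left h2
  have h1 : IsBlk (gs (0 : Fin (n + 1)) h)
      fun a => (h : Matrix (Fin 3) (Fin 3) F) a a • (1 : Matrix (Ix n) (Ix n) F) := by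
    intro a b u x
    rw [gs_val, site_zero_apply_cons]
    by_cases hab : a = b
    · subst hab; by_cases hux : u = x <;> simp [hux]
    · simp [hab, hd a b hab]
  have hsq : ∀ a, (h : Matrix (Fin 3) (Fin 3) F) a a * (h : Matrix (Fin 3) (Fin 3) F) a a = 1 := by
    intro a
    have e := congrFun (congrFun (isometry_transpose_mul h2 hh) a) a
    rw [Matrix.mul_apply, Finset.sum_eq_single a, Matrix.one_apply_eq, transpose_apply] at e
    · exact e
    · intro b _ hb; rw [transpose_apply, hd b a hb, zero_mul]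
    · simp
  have key : ∀ a, (w a : Matrix (Ix n) (Ix n) F) =
      (h : Matrix (Fin 3) (Fin 3) F) a a • (v : Matrix (Ix n) (Ix n) F) := by
    intro a
    have hp := IsBlk.mul h1 (blk_liftG v)
    rw [← he] at hp
    have := IsBlk.unique hw hp a
    rwa [Matrix.smul_mul, one_mul] at this
  have hs : ∀ a, w a = v ∨ w a = -v := fun a => by
    rcases mul_self_eq_one_iff.1 (hsq a) with e | e
    · exact Or.inl (Units.ext (by rw [key a, e, one_smul]))
    · exact Or.inr (Units.ext (by rw [key a, e, neg_one_smul, Units.val_neg]))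
  rcases hs i with e | e <;> rcases hs 0 with e0 | e0 <;> simp [e, e0]

/-- The centraliser of the standard frame of the first factor preserves the decomposition. -/
lemma mem_Wr_of_comm_frame (h2 : (2 : F) ≠ 0) (hq : 5 ≤ Nat.card F) (hn : 2 ≤ n) (hD : Dicho F n)
    {X : Subgroup (GL (Ix (n + 1)) F)} (hX : Good X) (hne : X ≠ Om F (n + 1))
    {g : GL (Ix (n + 1)) F} (hg : g ∈ X) (hc : ∀ k, g * fa 0 k = fa 0 k * g) :
    g ∈ Wr F (n + 1) := by
  obtain ⟨w, hwO, hw⟩ := exists_blk h2 (hX.le_OG hg) hc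
  replace hw : Blk g w := hw
  have hP := slotP_le_Wr h2 hq hn hD hX hne
  have hwW : ∀ i, w i ∈ Wr F n := fun i => by
    obtain ⟨g', hg', hw'⟩ := exists_shift h2 hX i hg hw
    exact hP ⟨g', hg', _, hw', by simp⟩
  have hsame : ∀ x, IsAxis x → ∀ i, w i * x * (w i)⁻¹ = w 0 * x * (w 0)⁻¹ := by
    intro x hx
    obtain ⟨r, hxr⟩ := hx
    have hxW : x ∈ WO F n := by
      obtain ⟨h, hh, rfl⟩ := hxr
      exact gs_half_mem_WO h2 r hh
    have hd : g * liftG x * g⁻¹ ∈ X :=
      X.mul_mem (X.mul_mem hg (hX.le (liftG_mem_WO h2 hxW))) (X.inv_mem hg)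
    have hy : Blk (g * liftG x * g⁻¹) fun i => w i * x * (w i)⁻¹ :=
      hw.conj h2 (hX.le_OG hg) (blk_liftG x)
    choose π hπ using fun i => moves_of_mem_Wr h2 (hwW i)
    choose s hs using fun i => (⟨π i r, hπ i r x hxr⟩ : ∃ s, IsAxisAt s (w i * x * (w i)⁻¹))
    choose k hk hke using fun i => hs i
    have hdet : ∀ {a b : GL (Ix n) F}, (a = b ∨ a = -b) →
        (a : Matrix (Ix n) (Ix n) F).det = (b : Matrix (Ix n) (Ix n) F).det → a = b := by
      rintro a b (rfl | rfl) hab
      · rfl
      · rw [Units.val_neg, Matrix.det_neg, odd_card_Ix.neg_one_pow] at hab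
        have hu : (b : Matrix (Ix n) (Ix n) F).det ≠ 0 :=
          ((Matrix.isUnit_iff_isUnit_det _).1 b.isUnit).ne_zero
        exact absurd (mul_right_cancel₀ hu (hab.trans (one_mul _).symm)).symm (one_ne_neg_one h2)
    by_cases hall : ∀ i, s i = s 0
    · intro i
      obtain ⟨r', hr'⟩ : ∃ r' : Fin n, r' ≠ s 0 := by
        have : Nontrivial (Fin n) := Fin.nontrivial_iff_two_le.2 hn
        exact exists_ne _
      have hcf : ∀ h, g * liftG x * g⁻¹ * gs r'.succ h = gs r'.succ h * (g * liftG x * g⁻¹) := by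
        intro h
        rw [← liftG_gs]
        have h' := (blk_liftG (gs r' h)).mul hy
        have hcm : (fun i => w i * x * (w i)⁻¹) * (fun _ => gs r' h) =
            (fun _ => gs r' h) * fun i => w i * x * (w i)⁻¹ := funext fun j => by
          simp only [Pi.mul_apply, hke j, hall j]
          rw [gs_comm hr'.symm]
        exact (hy.mul (blk_liftG (gs r' h))).eq (hcm.symm ▸ h')
      have hW := mem_Wr_of_comm_factor h2 hq hn hD hX hne hd _ hcf
      refine hdet (slots_prop h2 hW hy i) ?_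
      simp only [Units.val_mul, Matrix.det_units_conj]
    · exfalso
      push Not at hall
      obtain ⟨c, hcs⟩ := hall
      obtain ⟨k', hk', hne'⟩ := exists_not_comm h2 hq (hk 0)
      have hkW : gs (s 0) k' ∈ WO F n := gs_half_mem_WO h2 _ hk'
      have hkX : liftG (gs (s 0) k') ∈ X := hX.le (liftG_mem_WO h2 hkW)
      set e := ⁅g * liftG x * g⁻¹, liftG (gs (s 0) k')⁆
      have heX : e ∈ X := bracket_mem hd hkX
      have heb : Blk e ⁅(fun i => w i * x * (w i)⁻¹), fun _ => gs (s 0) k'⁆ :=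
        hy.bracket h2 (hX.le_OG hd) (hX.le_OG hkX) (blk_liftG _)
      have hcf : ∀ h, e * gs (s c).succ h = gs (s c).succ h * e := by
        intro h
        rw [← liftG_gs]
        have h' := (blk_liftG (gs (s c) h)).mul heb
        suffices hcm : ⁅(fun i => w i * x * (w i)⁻¹), (fun _ => gs (s 0) k' : Fin 3 → GL (Ix n) F)⁆ *
            (fun _ => gs (s c) h) = (fun _ => gs (s c) h) *
            ⁅(fun i => w i * x * (w i)⁻¹), (fun _ => gs (s 0) k' : Fin 3 → GL (Ix n) F)⁆ from
          (heb.mul (blk_liftG (gs (s c) h))).eq (hcm.symm ▸ h')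
        funext j
        show ⁅w j * x * (w j)⁻¹, gs (s 0) k'⁆ * gs (s c) h =
          gs (s c) h * ⁅w j * x * (w j)⁻¹, gs (s 0) k'⁆
        rw [hke j]
        by_cases hj : s j = s 0
        · rw [hj, ← map_commutatorElement, gs_comm (Ne.symm hcs)]
        · rw [commutatorElement_eq_one_iff_mul_comm.2 (gs_comm hj (k j) k'), one_mul, mul_one]
      have hW := mem_Wr_of_comm_factor h2 hq hn hD hX hne heX _ hcf
      have hcase : ⁅w c * x * (w c)⁻¹, gs (s 0) k'⁆ = 1 := by
        rw [hke c, commutatorElement_eq_one_iff_mul_comm]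
        exact gs_comm hcs _ _
      have hz : ⁅w 0 * x * (w 0)⁻¹, gs (s 0) k'⁆ = 1 := by
        have hp : ⁅w c * x * (w c)⁻¹, gs (s 0) k'⁆ = ⁅w 0 * x * (w 0)⁻¹, gs (s 0) k'⁆ :=
          hdet (slots_prop h2 hW heb c) (by rw [det_bracket, det_bracket])
        rw [← hp, hcase]
      rw [hke 0, commutatorElement_eq_one_iff_mul_comm, ← map_mul, ← map_mul] at hz
      exact hne' ((gs_injective _ hz).symm)
  have hpm : ∀ i, w i = w 0 ∨ w i = -w 0 := by
    intro i
    rcases eq_one_or_neg_of_comm_axes h2 hq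
      ((OG F n).mul_mem ((OG F n).inv_mem (hwO 0)) (hwO i)) (fun x hx => by
        have e := hsame x hx i
        calc (w 0)⁻¹ * w i * x = (w 0)⁻¹ * (w i * x * (w i)⁻¹) * w i := by group
          _ = (w 0)⁻¹ * (w 0 * x * (w 0)⁻¹) * w i := by rw [e]
          _ = x * ((w 0)⁻¹ * w i) := by group) with h | h
    · exact Or.inl (inv_mul_eq_one.1 h).symm
    · exact Or.inr (by rw [← mul_neg_one, ← h]; group)
  choose c hc1 hc2 using fun a : Fin 3 => (show ∃ c : F, c * c = 1 ∧
      (w a : Matrix (Ix n) (Ix n) F) = c • (w 0 : Matrix (Ix n) (Ix n) F) from by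
    rcases hpm a with h | h
    · exact ⟨1, by simp, by simp [h]⟩
    · exact ⟨-1, by simp, by simp [h]⟩)
  let d : GL (Fin 3) F :=
    { val := diagonal c
      inv := diagonal c
      val_inv := by rw [diagonal_mul_diagonal, ← diagonal_one]; congr 1; funext i; exact hc1 i
      inv_val := by rw [diagonal_mul_diagonal, ← diagonal_one]; congr 1; funext i; exact hc1 i }
  have hd : d ∈ O3m F := by
    refine mem_isometry_of _ ?_
    show (diagonal c)ᵀ * diagonal c = 1
    rw [diagonal_transpose, diagonal_mul_diagonal, ← diagonal_one]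
    congr 1; funext i; exact hc1 i
  have hge : g = gs 0 d * liftG (w 0) := by
    refine hw.eq ?_
    have h1 : IsBlk (gs (0 : Fin (n + 1)) d) fun i => c i • (1 : Matrix (Ix n) (Ix n) F) := by
      intro a b u v
      rw [gs_val, site_zero_apply_cons]
      show (if u = v then diagonal c a b else 0) = _
      by_cases hab : a = b
      · subst hab; by_cases huv : u = v <;> simp [huv]
      · simp [hab]
    have h := IsBlk.mul h1 (blk_liftG (w 0))
    convert h using 2
    rename_i a
    rw [hc2 a, Matrix.smul_mul, one_mul]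
  rw [hge]
  exact (Wr F (n + 1)).mul_mem (gs_mem_Wr h2 _ hd) (liftG_mem_Wr h2 (hwW 0))

/-- Either the overgroup is everything or frame centralisers preserve the decomposition. -/
theorem frameC_or_top (h2 : (2 : F) ≠ 0) (hq : 5 ≤ Nat.card F) (hn : 2 ≤ n) (hD : Dicho F n)
    {X : Subgroup (GL (Ix (n + 1)) F)} (hX : Good X) : X = Om F (n + 1) ∨ FrameC X := by
  refine or_iff_not_imp_left.2 fun hne g hg r h hh hc => ?_
  set c : GL (Ix (n + 1)) F := gs r h * glFactorPerm 3 (Equiv.swap 0 r) with hcdef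
  have hcW : c ∈ Wr F (n + 1) := (Wr F (n + 1)).mul_mem (gs_mem_Wr h2 _ hh) (factorPerm_mem_Wr _)
  have hci := (Wr F (n + 1)).inv_mem hcW
  have hfa : ∀ k, c * fa 0 k * c⁻¹ = gs r (h * fr F k * h⁻¹) := by
    intro k
    have h1 := factorPerm_conj_gs (F := F) (Equiv.swap (0 : Fin (n + 1)) r) 0 (fr F k)
    rw [Equiv.swap_apply_left] at h1
    rw [hcdef, fa, map_mul, map_mul, map_inv, ← h1]
    group
  have hmem : c⁻¹ * g * c ∈ X.map (MulAut.conj c⁻¹).toMonoidHom := ⟨g, hg, by simp [mul_assoc]⟩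
  have hW := mem_Wr_of_comm_frame h2 hq hn hD (hX.conj hci) (map_conj_ne_Om hne (Wr_le_OG hci)) hmem
    (fun k => by
      have e := hc k
      rw [← hfa k] at e
      calc c⁻¹ * g * c * fa 0 k = c⁻¹ * (g * (c * fa 0 k * c⁻¹)) * c := by group
        _ = c⁻¹ * (c * fa 0 k * c⁻¹ * g) * c := by rw [e]
        _ = _ := by group)
  have : g = c * (c⁻¹ * g * c) * c⁻¹ := by group
  rw [this]
  exact (Wr F (n + 1)).mul_mem ((Wr F (n + 1)).mul_mem hcW hW) hci

end Cfsg.Agent.MaxSub.OWT
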