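import Cfsg.Agent.MaxSub.OrthWreathThree.Slice
import Cfsg.Agent.MaxSub.OrthWreathThree.Setting

/-!
Invertible slots of block diagonal elements, permutations of slots, and coordinate permutations of
one factor.
-/

set_option autoImplicit false
set_option linter.unusedSectionVars false

namespace Cfsg.Agent.MaxSub.OWT

open Matrix Cfsg.Geo Cfsg.Agent.GeoClasses Cfsg.Agent.NotMax
open scoped MatrixGroups commutatorElement

variable {F : Type*} [Field F] {t n : ℕ}

/-! ### Signs -/

/-- A central sign. -/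
def IsSgn {ι : Type} [Fintype ι] [DecidableEq ι] (w : GL ι F) : Prop := w = 1 ∨ w = -1

section PM

variable {ι : Type} [Fintype ι] [DecidableEq ι]

lemma IsSgn.comm {w : GL ι F} (h : IsSgn w) (y : GL ι F) : w * y = y * w := by
  rcases h with rfl | rfl <;> simp

lemma IsSgn.bracket_left {w : GL ι F} (h : IsSgn w) (y : GL ι F) : ⁅w, y⁆ = 1 :=
  commutatorElement_eq_one_iff_mul_comm.2 (h.comm y)

lemma IsSgn.sq {w : GL ι F} (h : IsSgn w) : w * w = 1 := by
  rcases h with rfl | rfl <;> simp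

lemma IsSgn.mul {w y : GL ι F} (h : IsSgn w) (h' : IsSgn y) : IsSgn (w * y) := by
  rcases h with rfl | rfl <;> rcases h' with rfl | rfl <;> simp [IsSgn]

lemma det_bracket (w y : GL ι F) : (((⁅w, y⁆ : GL ι F)) : Matrix ι ι F).det = 1 := by
  have h : Matrix.GeneralLinearGroup.det ⁅w, y⁆ = 1 := by
    rw [map_commutatorElement, commutatorElement_eq_one_iff_mul_comm]
    exact mul_comm _ _
  rw [← Matrix.GeneralLinearGroup.val_det_apply, h, Units.val_one]

lemma eq_one_of_isSgn_det (h2 : (2 : F) ≠ 0) (hodd : Odd (Fintype.card ι)) {w : GL ι F} (h : IsSgn w)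
    (hd : (w : Matrix ι ι F).det = 1) : w = 1 := by
  rcases h with rfl | rfl
  · rfl
  · rw [Units.val_neg, Units.val_one, Matrix.det_neg, Matrix.det_one, mul_one, hodd.neg_one_pow] at hd
    exact absurd hd.symm (one_ne_neg_one h2)

end PM

lemma odd_card_Ix : Odd (Fintype.card (Ix n)) := by
  simp only [Fintype.card_fun, Fintype.card_fin]
  exact Odd.pow (by decide)

/-! ### Slots -/

/-- Block diagonal with invertible slots. -/
abbrev Blk (g : GL (Ix (n + 1)) F) (w : Fin 3 → GL (Ix n) F) : Prop :=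
  IsBlk g fun i => (w i : Matrix (Ix n) (Ix n) F)

lemma Blk.mul {g g' : GL (Ix (n + 1)) F} {w w' : Fin 3 → GL (Ix n) F} (h : Blk g w)
    (h' : Blk g' w') : Blk (g * g') (w * w') := by
  have := IsBlk.mul h h'
  exact this

lemma blk_liftG (w : GL (Ix n) F) : Blk (liftG w) fun _ => w := isBlk_liftG w

lemma blk_one : Blk (1 : GL (Ix (n + 1)) F) (1 : Fin 3 → GL (Ix n) F) := by
  have h := blk_liftG (F := F) (n := n) 1
  rwa [map_one] at h

lemma Blk.unique {g : GL (Ix (n + 1)) F} {w w' : Fin 3 → GL (Ix n) F} (h : Blk g w)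
    (h' : Blk g w') : w = w' := funext fun i => Units.ext (IsBlk.unique h h' i)

lemma Blk.comm {g : GL (Ix (n + 1)) F} {w : Fin 3 → GL (Ix n) F} (h : Blk g w) (k : Fin 3) :
    g * fa 0 k = fa 0 k * g := IsBlk.comm_fa h k

lemma Blk.mem_OG (h2 : (2 : F) ≠ 0) {g : GL (Ix (n + 1)) F} {w : Fin 3 → GL (Ix n) F}
    (hg : g ∈ OG F (n + 1)) (h : Blk g w) (i : Fin 3) : w i ∈ OG F n := by
  obtain ⟨w', hw', hb⟩ := exists_blk h2 hg h.comm
  rw [h.unique hb]
  exact hw' i

lemma Blk.inv (h2 : (2 : F) ≠ 0) {g : GL (Ix (n + 1)) F} {w : Fin 3 → GL (Ix n) F}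
    (hg : g ∈ OG F (n + 1)) (h : Blk g w) : Blk g⁻¹ w⁻¹ := by
  have hc : ∀ k, g⁻¹ * fa 0 k = fa 0 k * g⁻¹ := fun k =>
    (Commute.inv_left (show Commute g (fa 0 k) from h.comm k)).eq
  obtain ⟨w', -, hb⟩ := exists_blk h2 ((OG F (n + 1)).inv_mem hg) hc
  have h1 : w * w' = 1 := (h.mul hb).unique (by rw [mul_inv_cancel]; exact blk_one)
  rwa [inv_eq_of_mul_eq_one_right h1]

lemma Blk.conj (h2 : (2 : F) ≠ 0) {g g' : GL (Ix (n + 1)) F} {w w' : Fin 3 → GL (Ix n) F}
    (hg : g ∈ OG F (n + 1)) (h : Blk g w) (h' : Blk g' w') :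
    Blk (g * g' * g⁻¹) (w * w' * w⁻¹) := (h.mul h').mul (h.inv h2 hg)

lemma Blk.bracket (h2 : (2 : F) ≠ 0) {g g' : GL (Ix (n + 1)) F} {w w' : Fin 3 → GL (Ix n) F}
    (hg : g ∈ OG F (n + 1)) (hg' : g' ∈ OG F (n + 1)) (h : Blk g w) (h' : Blk g' w') :
    Blk ⁅g, g'⁆ ⁅w, w'⁆ := by
  rw [commutatorElement_def, commutatorElement_def]
  exact (h.conj h2 hg h').mul (h'.inv h2 hg')

lemma Blk.eq {g g' : GL (Ix (n + 1)) F} {w : Fin 3 → GL (Ix n) F} (h : Blk g w) (h' : Blk g' w) :
    g = g' := IsBlk.ext h h'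

/-! ### Diagonal and monomial matrices of one factor -/

lemma site_diagonal (r : Fin t) (d : Fin 3 → F) :
    site r (diagonal d) = diagonal fun u : Ix t => d (u r) := by
  ext u v
  by_cases h : u = v
  · subst h
    rw [site_apply_of_eq _ (fun _ _ => rfl), diagonal_apply_eq, diagonal_apply_eq]
  · rw [diagonal_apply_ne _ h]
    obtain ⟨j, hj⟩ := Function.ne_iff.1 h
    by_cases hr : j = r
    · subst hr
      by_cases ho : ∀ l, l ≠ j → u l = v l
      · rw [site_apply_of_eq _ ho, diagonal_apply_ne _ hj]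
      · push Not at ho
        obtain ⟨l, hl, hne⟩ := ho
        exact site_apply_of_ne _ hl hne
    · exact site_apply_of_ne _ hr hj

/-- The permutation matrix of `σ`. -/
def pm (F : Type*) [Field F] : Equiv.Perm (Fin 3) →* GL (Fin 3) F where
  toFun σ :=
    { val := Matrix.of fun i j => if i = σ j then 1 else 0
      inv := Matrix.of fun i j => if i = σ⁻¹ j then 1 else 0
      val_inv := by ext i j; simp [Matrix.mul_apply, Matrix.one_apply]
      inv_val := by ext i j; simp [Matrix.mul_apply, Matrix.one_apply] }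
  map_one' := Units.ext <| Matrix.ext fun i j => by
    simp only [Units.val_one, Matrix.one_apply, Matrix.of_apply, Equiv.Perm.one_apply]
    split_ifs <;> simp [*]
  map_mul' σ τ := Units.ext <| Matrix.ext fun i j => by
    simp only [Units.val_mul, Matrix.mul_apply, Matrix.of_apply, Equiv.Perm.mul_apply, mul_ite, mul_one, mul_zero,
      Finset.sum_ite_eq', Finset.mem_univ, if_true]
    split_ifs <;> simp [*]

lemma pm_apply (σ : Equiv.Perm (Fin 3)) (i j : Fin 3) :
    (pm F σ : Matrix (Fin 3) (Fin 3) F) i j = if i = σ j then 1 else 0 := rfl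

lemma pm_mem_O3m (σ : Equiv.Perm (Fin 3)) : pm F σ ∈ O3m F := by
  refine mem_isometry_of _ (Matrix.ext fun i j => ?_)
  simp [Matrix.mul_apply, pm_apply, Matrix.one_apply, eq_comm]

lemma pm_rot_mem_U3m (c : Fin 3) : pm F (Equiv.addRight c) ∈ U3m F := by
  have h : ∀ c : Fin 3, ∃ a b : Equiv.Perm (Fin 3), Equiv.addRight c = a * b * a⁻¹ * b⁻¹ := by decide
  obtain ⟨a, b, hab⟩ := h c
  have he : U3m F = ⁅O3m F, O3m F⁆ := by
    rw [U3m, omegaGL, Cfsg.Omega, commutator_def, Subgroup.map_commutator, ← MonoidHom.range_eq_map,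
      Subgroup.range_subtype]
  rw [hab, he, map_mul, map_mul, map_mul, map_inv, map_inv]
  exact Subgroup.commutator_mem_commutator (pm_mem_O3m a) (pm_mem_O3m b)

/-- Conjugation by a coordinate permutation of the first factor permutes the slots. -/
lemma Blk.perm (σ : Equiv.Perm (Fin 3)) {g : GL (Ix (n + 1)) F} {w : Fin 3 → GL (Ix n) F}
    (h : Blk g w) :
    Blk (gs 0 (pm F σ) * g * (gs 0 (pm F σ))⁻¹) fun i => w (σ⁻¹ i) := by
  intro i j u v
  rw [← map_inv, ← map_inv]
  simp only [Units.val_mul, gs_val, Matrix.mul_apply, sum_sigma_cons, site_zero_apply_cons, h _ _ _ _,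
    pm_apply]
  rw [Finset.sum_eq_single (σ⁻¹ j)]
  · rw [Finset.sum_eq_single v]
    · rw [Finset.sum_eq_single (σ⁻¹ i)]
      · rw [Finset.sum_eq_single u]
        · by_cases hij : i = j
          · subst hij; simp
          · simp [hij]
        · intro z _ hz; simp [hz.symm]
        · simp
      · intro a _ ha
        refine Finset.sum_eq_zero fun z _ => ?_
        have : i ≠ σ a := fun e => ha (by simp [e])
        simp [this]
      · simp
    · intro z _ hz; simp [hz]
    · simp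
  · intro a _ ha
    refine Finset.sum_eq_zero fun z _ => ?_
    rw [if_neg ha, ite_self, mul_zero]
  · simp

end Cfsg.Agent.MaxSub.OWT
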