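import Cfsg.Agent.MaxSub.OrthWreathThree.Setting
import Cfsg.Agent.MaxSub.OrthWreathThree.OmegaFacts
import Cfsg.Agent.MaxSub.OrthWreathThree.Norm

/-!
Members of an overgroup centralising an axis have rows preserving the decomposition.
-/

set_option autoImplicit false
set_option linter.unusedSectionVars false

namespace Cfsg.Agent.MaxSub.OWT

open Matrix Cfsg.Geo Cfsg.Agent.GeoClasses Cfsg.Agent.NotMax
open scoped MatrixGroups

variable {F : Type*} [Field F] [Finite F] {t n : ℕ}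

lemma commutator_twist {G : Type*} [Group G] {u v T S : G} (hT : Commute u T) (hS : Commute u S)
    (hT' : Commute v T) (hS' : Commute v S) (huv : Commute u v) :
    u * T * (v * S) * (u * T)⁻¹ * (v * S)⁻¹ = T * S * T⁻¹ * S⁻¹ := by
  have e : ∀ {a b A B : G}, Commute b A → a * A * (b * B) = a * b * (A * B) :=
    fun {a b A B} h => by
      simp only [mul_assoc]
      rw [← mul_assoc A b, ← h.eq, mul_assoc]
  have hc : Commute (u * v) (T * S * (S * T)⁻¹) :=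
    ((hT.mul_left hT').mul_right (hS.mul_left hS')).mul_right
      ((hS.mul_left hS').mul_right (hT.mul_left hT')).inv_right
  rw [mul_assoc _ (u * T)⁻¹, ← _root_.mul_inv_rev, e hT', e hS, ← huv.eq, _root_.mul_inv_rev (u * v),
    show T * S * T⁻¹ * S⁻¹ = T * S * (S * T)⁻¹ by group, ← mul_assoc, mul_assoc (u * v) (T * S),
    hc.eq, mul_inv_cancel_right]

lemma fr_entry (i : Fin 3) :
    (fr F i : Matrix (Fin 3) (Fin 3) F) 0 0 = if (0 : Fin 3) = i then 1 else -1 := by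
  rw [fr_val, diagonal_apply_eq]

lemma liftG_comm_gs_zero (x : GL (Ix n) F) (h : GL (Fin 3) F) :
    liftG x * gs 0 h = gs (0 : Fin (n + 1)) h * liftG x := by
  refine Units.ext (Matrix.ext fun a b => ?_)
  rw [← Fin.cons_self_tail a, ← Fin.cons_self_tail b]
  simp only [Units.val_mul, gs_val, liftG_val, Matrix.mul_apply, sum_sigma_cons,
    site_zero_apply_cons, liftMat_apply_cons, ite_mul, mul_ite, zero_mul, mul_zero,
    Finset.sum_ite_eq, Finset.sum_ite_eq', Finset.mem_univ, if_true]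
  simp [mul_comm]

lemma neg_mem_Wr (h2 : (2 : F) ≠ 0) (hq : 5 ≤ Nat.card F) (hn : 1 ≤ n) {w v : GL (Ix n) F}
    (hw : w ∈ Wr F n) {s : F} (hs : s = 1 ∨ s = -1)
    (hv : (v : Matrix (Ix n) (Ix n) F) = s • (w : Matrix (Ix n) (Ix n) F)) : v ∈ Wr F n := by
  rcases hs with rfl | rfl
  · rwa [show v = w from Units.ext (by simpa using hv)]
  · have hm : gs (⟨0, hn⟩ : Fin n) (-1 : GL (Fin 3) F) ∈ Wr F n :=
      gs_mem_Wr h2 _ (mem_isometry_of _ (by simp))
    rw [show v = gs (⟨0, hn⟩ : Fin n) (-1 : GL (Fin 3) F) * w from Units.ext (by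
      rw [hv, Units.val_mul, gs_val, Units.val_neg, Units.val_one, ← neg_one_smul F
        (1 : Matrix (Fin 3) (Fin 3) F), site_smul, site_one, Matrix.smul_mul, one_mul])]
    exact (Wr F n).mul_mem hm hw

lemma Om_not_le_Wr (h2 : (2 : F) ≠ 0) (hq : 5 ≤ Nat.card F) (hn : 2 ≤ n) :
    ¬ Om F n ≤ Wr F n := by
  intro hle
  obtain ⟨m, rfl⟩ : ∃ m, n = m + 2 := ⟨n - 2, by omega⟩
  set d : Ix (m + 2) → F := fun u => if u 0 = u 1 then 1 else -1 with hd
  have hdd : ∀ u, d u * d u = 1 := fun u => by simp only [hd]; split_ifs <;> ring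
  have hprod : ∏ u, d u = 1 := by
    rw [Finset.prod_ite, Finset.prod_const_one, one_mul, Finset.prod_const]
    have hev : Even (Finset.univ.filter fun u : Ix (m + 2) => ¬ u 0 = u 1).card := by
      have h6 : ((Finset.univ.filter fun u : Ix (m + 2) => ¬ u 0 = u 1).card : ZMod 2) = 0 := by
        rw [← Fintype.card_subtype,
          Fintype.card_congr (show {u : Ix (m + 2) // ¬ u 0 = u 1} ≃
            {p : Fin 3 × Fin 3 // ¬ p.1 = p.2} × Ix m from
            { toFun := fun u => (⟨(u.1 0, u.1 1), u.2⟩, fun k => u.1 k.succ.succ)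
              invFun := fun p => ⟨Fin.cons p.1.1.1 (Fin.cons p.1.1.2 p.2), p.1.2⟩
              left_inv := fun u => Subtype.ext (funext fun k => by
                cases k using Fin.cases with
                | zero => rfl
                | succ k => cases k using Fin.cases <;> rfl)
              right_inv := fun p => by obtain ⟨⟨⟨a, b⟩, hab⟩, w⟩ := p; rfl }),
          Fintype.card_prod, Nat.cast_mul,
          show Fintype.card {p : Fin 3 × Fin 3 // ¬ p.1 = p.2} = 6 by decide,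
          show ((6 : ℕ) : ZMod 2) = 0 by decide, zero_mul]
      exact (ZMod.natCast_eq_zero_iff_even).1 h6
    rw [hev.neg_one_pow]
  set g : GL (Ix (m + 2)) F :=
    ⟨diagonal d, diagonal d, by rw [diagonal_mul_diagonal, ← diagonal_one]; congr 1; funext u; exact hdd u,
      by rw [diagonal_mul_diagonal, ← diagonal_one]; congr 1; funext u; exact hdd u⟩ with hg
  have hgW : g ∈ Wr F (m + 2) := hle (diag_mem_Om h2 d hdd hprod rfl)
  obtain ⟨π, hπ⟩ := moves_of_mem_Wr h2 hgW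
  have hfix : g * fa 0 0 * g⁻¹ = fa 0 0 := by
    rw [mul_inv_eq_iff_eq_mul]
    refine Units.ext (Matrix.ext fun a b => ?_)
    rw [Units.val_mul, Units.val_mul, show (g : Matrix (Ix (m + 2)) (Ix (m + 2)) F) = diagonal d from rfl,
      fa, gs_val, diagonal_mul, mul_diagonal]
    by_cases hab : a = b
    · subst hab; ring
    · rw [← Fin.cons_self_tail a, ← Fin.cons_self_tail b, site_zero_apply_cons, fr_val]
      split_ifs with ht
      · rw [diagonal_apply_ne _ (fun h0 => hab (by rw [← Fin.cons_self_tail a, h0, ht, Fin.cons_self_tail b]))]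
        ring
      · ring
  have hπ0 : π 0 = 0 := by
    have := hπ 0 _ (isAxisAt_fa 0 0)
    rw [hfix] at this
    exact axisAt_unique h2 this (isAxisAt_fa 0 0)
  obtain ⟨k, hk, hkc⟩ := exists_not_comm h2 hq (isHalf_fr (F := F) 0)
  obtain ⟨j, hj, hne⟩ : ∃ j, j ≠ 0 ∧ ((k : Matrix (Fin 3) (Fin 3) F) 0 j ≠ 0 ∨
      (k : Matrix (Fin 3) (Fin 3) F) j 0 ≠ 0) := by
    by_contra hcon
    push Not at hcon
    refine hkc (Units.ext (Matrix.ext fun a b => ?_))
    simp only [Units.val_mul, fr_val, mul_diagonal, diagonal_mul]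
    by_cases ha : a = 0 <;> by_cases hb : b = 0
    · subst ha hb; ring
    · subst ha; rw [(hcon b hb).1]; ring
    · subst hb; rw [(hcon a ha).2]; ring
    · rw [if_neg ha, if_neg hb]; ring
  obtain ⟨k', -, hk'⟩ := hπ 0 _ ⟨k, hk, rfl⟩
  rw [hπ0, mul_inv_eq_iff_eq_mul] at hk'
  have hent : ∀ (a b : Fin 3) (u : Ix (m + 1)),
      d (Fin.cons a u) * (k : Matrix (Fin 3) (Fin 3) F) a b =
        (k' : Matrix (Fin 3) (Fin 3) F) a b * d (Fin.cons b u) := fun a b u => by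
    have h := congrArg (fun x : GL (Ix (m + 2)) F => (x : Matrix (Ix (m + 2)) (Ix (m + 2)) F)
      (Fin.cons a u : Ix (m + 2)) (Fin.cons b u : Ix (m + 2))) hk'
    simp only [Units.val_mul, gs_val, show (g : Matrix (Ix (m + 2)) (Ix (m + 2)) F) = diagonal d from rfl,
      diagonal_mul, mul_diagonal, site_zero_apply_cons, if_true] at h
    exact h
  obtain ⟨l, hl0, hlj⟩ := (by decide : ∀ j : Fin 3, j ≠ 0 → ∃ l : Fin 3, l ≠ 0 ∧ l ≠ j) j hj
  have hv : ∀ (a : Fin 3) (u : Ix (m + 1)), d (Fin.cons a u) = if a = u 0 then 1 else -1 :=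
    fun a u => rfl
  rcases hne with hne | hne
  · have e1 := hent 0 j (fun _ => j)
    have e2 := hent 0 j (fun _ => l)
    simp [hv, Ne.symm hj, Ne.symm hl0, Ne.symm hlj] at e1 e2
    exact hne ((mul_eq_zero.1 (by linear_combination e2 - e1 : (2 : F) * _ = 0)).resolve_left h2)
  · have e1 := hent j 0 (fun _ => j)
    have e2 := hent j 0 (fun _ => l)
    simp [hv, Ne.symm hj, Ne.symm hl0, Ne.symm hlj] at e1 e2
    exact hne ((mul_eq_zero.1 (by linear_combination e1 + e2 : (2 : F) * _ = 0)).resolve_left h2)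

lemma IsRow.inv' (h2 : (2 : F) ≠ 0) {g : GL (Ix (n + 1)) F} {w : GL (Ix n) F}
    (hg : g ∈ OG F (n + 1)) (hc : g * fa 0 0 = fa 0 0 * g)
    (hw : IsRow g (w : Matrix (Ix n) (Ix n) F)) :
    IsRow g⁻¹ ((w⁻¹ : GL (Ix n) F) : Matrix (Ix n) (Ix n) F) := by
  have hc' : g⁻¹ * fa 0 0 = fa 0 0 * g⁻¹ := (Commute.inv_left (show Commute g (fa 0 0) from hc)).eq
  obtain ⟨v, -, hv⟩ := exists_row h2 ((OG F (n + 1)).inv_mem hg) hc'
  have h : (v : Matrix (Ix n) (Ix n) F) * (w : Matrix (Ix n) (Ix n) F) = 1 :=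
    (hv.mul hw).unique (by rw [inv_mul_cancel]; exact isRow_one)
  rwa [show ((w⁻¹ : GL (Ix n) F) : Matrix (Ix n) (Ix n) F) = v from
    Units.inv_eq_of_mul_eq_one_left h]

/-- Members centralising the first axis with scalar row. -/
def rowKer (h2 : (2 : F) ≠ 0) (X : Subgroup (GL (Ix (n + 1)) F)) :
    Subgroup (GL (Ix (n + 1)) F) where
  carrier := {g | g ∈ X ∧ g ∈ OG F (n + 1) ∧ g * fa 0 0 = fa 0 0 * g ∧
    ∃ s : F, (s = 1 ∨ s = -1) ∧ IsRow g (s • (1 : Matrix (Ix n) (Ix n) F))}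
  one_mem' := ⟨X.one_mem, (OG F (n + 1)).one_mem, by simp, 1, Or.inl rfl, by
    rw [one_smul]; exact isRow_one⟩
  mul_mem' := by
    rintro a b ⟨haX, haO, hac, s, hs, har⟩ ⟨hbX, hbO, hbc, u, hu, hbr⟩
    refine ⟨X.mul_mem haX hbX, (OG F (n + 1)).mul_mem haO hbO,
      ((show Commute a (fa 0 0) from hac).mul_left hbc).eq, s * u, ?_, ?_⟩
    · rcases hs with rfl | rfl <;> rcases hu with rfl | rfl <;> simp
    · have := har.mul hbr
      rwa [Matrix.smul_mul, one_mul, smul_smul] at this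
  inv_mem' := by
    rintro a ⟨haX, haO, hac, s, hs, har⟩
    refine ⟨X.inv_mem haX, (OG F (n + 1)).inv_mem haO,
      ((show Commute a (fa 0 0) from hac).inv_left).eq, s, hs, ?_⟩
    have hss : s * s = 1 := by rcases hs with rfl | rfl <;> simp
    exact IsRow.inv' h2 (w := ⟨s • 1, s • 1, by rw [Matrix.smul_mul, one_mul, smul_smul, hss, one_smul],
      by rw [Matrix.smul_mul, one_mul, smul_smul, hss, one_smul]⟩) haO hac har

/-- The rows of members centralising the first axis. -/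
def rowGrp (h2 : (2 : F) ≠ 0) (X : Subgroup (GL (Ix (n + 1)) F)) : Subgroup (GL (Ix n) F) where
  carrier := {w | ∃ g ∈ X, g ∈ OG F (n + 1) ∧ g * fa 0 0 = fa 0 0 * g ∧
    IsRow g (w : Matrix (Ix n) (Ix n) F)}
  one_mem' := ⟨1, X.one_mem, (OG F (n + 1)).one_mem, by simp, by simpa using isRow_one⟩
  mul_mem' := by
    rintro a b ⟨g, hgX, hgO, hgc, hgr⟩ ⟨k, hkX, hkO, hkc, hkr⟩
    exact ⟨g * k, X.mul_mem hgX hkX, (OG F (n + 1)).mul_mem hgO hkO,
      ((show Commute g (fa 0 0) from hgc).mul_left hkc).eq, by simpa using hgr.mul hkr⟩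
  inv_mem' := by
    rintro a ⟨g, hgX, hgO, hgc, hgr⟩
    exact ⟨g⁻¹, X.inv_mem hgX, (OG F (n + 1)).inv_mem hgO,
      ((show Commute g (fa 0 0) from hgc).inv_left).eq, hgr.inv' h2 hgO hgc⟩

/-- The rotations about the first coordinate axis. -/
def rotGrp (h2 : (2 : F) ≠ 0) (hq : 5 ≤ Nat.card F) : Subgroup (GL (Fin 3) F) where
  carrier := {h | h ∈ U3m F ∧ h * fr F 0 = fr F 0 * h ∧ (h : Matrix (Fin 3) (Fin 3) F) 0 0 = 1}
  one_mem' := ⟨(U3m F).one_mem, by simp, by simp⟩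
  mul_mem' := by
    rintro a b ⟨ha, hac, ha0⟩ ⟨hb, hbc, hb0⟩
    refine ⟨(U3m F).mul_mem ha hb, ((show Commute a (fr F 0) from hac).mul_left hbc).eq, ?_⟩
    have h := (comm_fr0 h2 (U3m_le ha) hac).2
    rw [Units.val_mul, Matrix.mul_apply, Fin.sum_univ_three, (h 1 (by decide)).1,
      (h 2 (by decide)).1, ha0, hb0]
    ring
  inv_mem' := by
    rintro a ⟨ha, hac, ha0⟩
    refine ⟨(U3m F).inv_mem ha, ((show Commute a (fr F 0) from hac).inv_left).eq, ?_⟩
    have h := (comm_fr0 h2 (U3m_le ha) hac).2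
    have e := congrArg (fun x : GL (Fin 3) F => (x : Matrix (Fin 3) (Fin 3) F) 0 0) (mul_inv_cancel a)
    simp only [Units.val_mul, Units.val_one, Matrix.mul_apply, Fin.sum_univ_three,
      (h 1 (by decide)).1, (h 2 (by decide)).1, ha0, one_mul, zero_mul, add_zero,
      Matrix.one_apply_eq] at e
    exact e

variable {X : Subgroup (GL (Ix (n + 1)) F)}

lemma gs_mem_of_U3m (h2 : (2 : F) ≠ 0) (hq : 5 ≤ Nat.card F) (hX : Good X) {h : GL (Fin 3) F}
    (hh : h ∈ U3m F) : gs (0 : Fin (n + 1)) h ∈ X :=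
  hX.le ⟨gs_mem_Wr h2 _ (U3m_le hh), (gs_mem_Om_iff h2 _ (U3m_le hh)).2 hh⟩

lemma gs_mem_rowKer (h2 : (2 : F) ≠ 0) (hq : 5 ≤ Nat.card F) (hX : Good X) {h : GL (Fin 3) F}
    (hh : h ∈ U3m F) (hc : h * fr F 0 = fr F 0 * h) : gs (0 : Fin (n + 1)) h ∈ rowKer h2 X := by
  have hm := gs_mem_of_U3m h2 hq hX hh
  refine ⟨hm, hX.le_OG hm, by rw [fa, ← map_mul, ← map_mul, hc], _,
    (comm_fr0 h2 (U3m_le hh) hc).1, ?_⟩
  exact isRow_gs_zero fun i hi => ((comm_fr0 h2 (U3m_le hh) hc).2 i hi).2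

lemma fa_mem_rowKer (h2 : (2 : F) ≠ 0) (hq : 5 ≤ Nat.card F) (hX : Good X) (i : Fin 3) :
    fa (0 : Fin (n + 1)) i ∈ rowKer h2 X :=
  gs_mem_rowKer h2 hq hX (half_mem h2 (isHalf_fr i)) (fr_comm i 0)

lemma rowKer_conj (h2 : (2 : F) ≠ 0) {g k : GL (Ix (n + 1)) F} (hgX : g ∈ X)
    (hgO : g ∈ OG F (n + 1)) (hgc : g * fa 0 0 = fa 0 0 * g) (hk : k ∈ rowKer h2 X) :
    g * k * g⁻¹ ∈ rowKer h2 X := by
  obtain ⟨hkX, hkO, hkc, s, hs, hkr⟩ := hk
  obtain ⟨w, -, hw⟩ := exists_row h2 hgO hgc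
  refine ⟨X.mul_mem (X.mul_mem hgX hkX) (X.inv_mem hgX),
    (OG F (n + 1)).mul_mem ((OG F (n + 1)).mul_mem hgO hkO) ((OG F (n + 1)).inv_mem hgO),
    (((show Commute g (fa 0 0) from hgc).mul_left hkc).mul_left
      (show Commute g (fa 0 0) from hgc).inv_left).eq, s, hs, ?_⟩
  have := (hw.mul hkr).mul (hw.inv' h2 hgO hgc)
  rwa [Matrix.mul_smul, mul_one, Matrix.smul_mul, ← Units.val_mul, mul_inv_cancel,
    Units.val_one] at this

/-- Scalar row and in the stabiliser means acting on the first factor only. -/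
lemma eq_gs_of_rowKer (h2 : (2 : F) ≠ 0) (hq : 5 ≤ Nat.card F) (hX : Good X)
    {k : GL (Ix (n + 1)) F} (hk : k ∈ rowKer h2 X) (hW : k ∈ Wr F (n + 1)) :
    ∃ h ∈ U3m F, h * fr F 0 = fr F 0 * h ∧ k = gs 0 h := by
  obtain ⟨hkX, -, hkc, s, hs, hkr⟩ := hk
  obtain ⟨h, hh, hhc, w, -, rfl⟩ := split_zero h2 hW hkc
  obtain ⟨h00, hoff⟩ := comm_fr0 h2 hh hhc
  have he := ((isRow_gs_zero (n := n) fun i hi => (hoff i hi).2).mul (isRow_liftG w)).unique hkr
  rw [Matrix.smul_mul, one_mul] at he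
  set c := (h : Matrix (Fin 3) (Fin 3) F) 0 0 with hcdef
  have hcc : c * c = 1 := by rcases h00 with e | e <;> rw [e] <;> simp
  have hw : (w : Matrix (Ix n) (Ix n) F) = (c * s) • 1 := by
    rw [← smul_smul, ← he, smul_smul, hcc, one_smul]
  have hcs : c * s = 1 ∨ c * s = -1 := by
    rcases h00 with e | e <;> rcases hs with rfl | rfl <;> rw [e] <;> simp
  have key : ∀ h', h' ∈ O3m F → h' * fr F 0 = fr F 0 * h' →
      gs 0 h * liftG w = gs (0 : Fin (n + 1)) h' →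
      ∃ h ∈ U3m F, h * fr F 0 = fr F 0 * h ∧ gs (0 : Fin (n + 1)) h' = gs 0 h := fun h' h1 h3 h4 =>
    ⟨h', (gs_mem_Om_iff h2 _ h1).1 (h4 ▸ hX.top hkX), h3, rfl⟩
  rcases hcs with e | e <;> rw [e] at hw
  · obtain rfl : w = 1 := Units.ext (by simpa using hw)
    rw [map_one, mul_one] at *
    exact key h hh hhc rfl
  · have hl : liftG w = gs (0 : Fin (n + 1)) (-1 : GL (Fin 3) F) := by
      refine Units.ext (Matrix.ext fun a b => ?_)
      rw [← Fin.cons_self_tail a, ← Fin.cons_self_tail b, liftG_val, liftMat_apply_cons, gs_val,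
        site_zero_apply_cons, hw]
      by_cases h1 : a 0 = b 0 <;> by_cases h3 : Fin.tail a = Fin.tail b <;>
        simp [h1, h3, Matrix.one_apply, Units.val_neg]
    have hmem : (-1 : GL (Fin 3) F) ∈ O3m F := mem_isometry_of _ (by simp)
    rw [hl, ← map_mul]
    exact key _ ((O3m F).mul_mem hh hmem)
      (by rw [mul_neg_one, neg_mul, mul_neg, hhc]) (by rw [hl, ← map_mul])

/-- Conjugating the second coordinate axis into the stabiliser forces membership. -/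
lemma mem_Wr_of_conj_mem (h2 : (2 : F) ≠ 0) (hq : 5 ≤ Nat.card F) (hn : 2 ≤ n) (hX : Good X)
    (hF : FrameC X) {k : GL (Ix (n + 1)) F} (hk : k ∈ rowKer h2 X)
    (hv : k * fa 0 1 * k⁻¹ ∈ Wr F (n + 1)) : k ∈ Wr F (n + 1) := by
  obtain ⟨hkX, hkO, hkc, s, hs, hkr⟩ := hk
  have hk' : k ∈ rowKer h2 X := ⟨hkX, hkO, hkc, s, hs, hkr⟩
  have hbK := fa_mem_rowKer h2 hq hX (1 : Fin 3)
  obtain ⟨h, -, -, hh⟩ := eq_gs_of_rowKer h2 hq hX (rowKer_conj h2 hkX hkO hkc hbK) hv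
  have hkb : k * fa 0 1 = gs 0 h * k := by rw [← hh, inv_mul_cancel_right]
  set e : GL (Ix n) F → GL (Ix (n + 1)) F := fun x => k⁻¹ * liftG x * k * (liftG x)⁻¹ with he
  have hsmall : ∀ x ∈ WO F n, e x = 1 ∨ e x = fa 0 0 := by
    intro x hx
    have htX : liftG x ∈ X := hX.le ⟨liftG_mem_Wr h2 hx.1, liftG_mem_Om h2 hx.2⟩
    have heX : e x ∈ X := X.mul_mem (X.mul_mem (X.mul_mem (X.inv_mem hkX) htX) hkX) (X.inv_mem htX)
    have ct : ∀ i, Commute (liftG x) (fa (0 : Fin (n + 1)) i) := fun i => liftG_comm_gs_zero x _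
    have c0 : Commute (e x) (fa 0 0) :=
      (((show Commute k (fa 0 0) from hkc).inv_left.mul_left (ct 0)).mul_left hkc).mul_left
        (ct 0).inv_left
    have c1 : Commute (e x) (fa 0 1) := by
      refine Commute.mul_left ?_ (ct 1).inv_left
      show k⁻¹ * liftG x * k * fa 0 1 = fa 0 1 * (k⁻¹ * liftG x * k)
      rw [mul_assoc _ k, hkb, ← mul_assoc, mul_assoc k⁻¹, liftG_comm_gs_zero, ← mul_assoc,
        show k⁻¹ * gs 0 h = fa 0 1 * k⁻¹ by rw [eq_mul_inv_iff_mul_eq, mul_assoc, ← hkb,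
          inv_mul_cancel_left]]
      group
    have c2 : Commute (e x) (fa 0 2) := by
      have h012 : fr F 0 * fr F 1 = fr F (2 : Fin 3) :=
        fr_mul (by decide) (by decide) (by decide)
      rw [fa, ← h012, map_mul]
      exact c0.mul_right c1
    have hW : e x ∈ Wr F (n + 1) := hF _ heX 0 1 (O3m F).one_mem fun i => by
      simp only [one_mul, inv_one, mul_one]
      fin_cases i
      · exact c0
      · exact c1
      · exact c2
    have heO : e x ∈ OG F (n + 1) := hX.le_OG heX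
    have htK : IsRow (e x) ((1 : F) • (1 : Matrix (Ix n) (Ix n) F)) := by
      have r1 := (IsRow.inv' h2 (w := ⟨s • 1, s • 1,
        by rcases hs with rfl | rfl <;> simp, by rcases hs with rfl | rfl <;> simp⟩) hkO hkc hkr)
      have r2 := ((r1.mul (isRow_liftG x)).mul hkr).mul
        ((isRow_liftG x).inv' h2 (hX.le_OG htX) (ct 0).eq)
      rw [one_smul]
      convert r2 using 1
      show (1 : Matrix (Ix n) (Ix n) F) = (s • (1 : Matrix (Ix n) (Ix n) F)) * _ * _ * _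
      rcases hs with rfl | rfl <;> simp
    obtain ⟨h', hh'U, hh'c, hh'⟩ := eq_gs_of_rowKer h2 hq hX ⟨heX, heO, c0.eq, 1, Or.inl rfl, htK⟩ hW
    have h00 : (h' : Matrix (Fin 3) (Fin 3) F) 0 0 = 1 := by
      have hu := (isRow_gs_zero (n := n) fun i hi =>
        ((comm_fr0 h2 (U3m_le hh'U) hh'c).2 i hi).2).unique (hh' ▸ htK)
      have := congrFun (congrFun hu fun _ => 0) fun _ => 0
      simpa using this
    have hsq : h' * h' = 1 := by
      have hb : h' * fr F 1 = fr F 1 * h' :=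
        gs_injective (0 : Fin (n + 1)) (by rw [map_mul, map_mul, ← hh']; exact c1.eq)
      have hi := rot_conj h2 hh'U hh'c h00
      rw [mul_assoc, hb, ← mul_assoc, fr_mul_self, one_mul] at hi
      exact mul_eq_one_iff_eq_inv.2 hi
    rcases rot_invol h2 hh'U hh'c h00 hsq with rfl | rfl
    · exact Or.inl (hh'.trans (map_one _))
    · exact Or.inr hh'
  have hcomm : ∀ x ∈ WO F n, ∀ y ∈ WO F n, k * liftG (x * y * x⁻¹ * y⁻¹) =
      liftG (x * y * x⁻¹ * y⁻¹) * k := by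
    intro x hx y hy
    have hconj : ∀ z ∈ WO F n, ∃ u, k⁻¹ * liftG z * k = u * liftG z ∧
        ∀ v : GL (Ix n) F, Commute u (liftG v) ∧ Commute u (fa 0 0) := fun z hz => by
      refine ⟨e z, by rw [he]; simp [mul_assoc], fun v => ?_⟩
      rcases hsmall z hz with e1 | e1 <;> rw [e1]
      · exact ⟨Commute.one_left _, Commute.one_left _⟩
      · exact ⟨(liftG_comm_gs_zero v _).symm, Commute.refl _⟩
    obtain ⟨u, hu, hu'⟩ := hconj x hx
    obtain ⟨v, hv', hv''⟩ := hconj y hy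
    have huv : Commute u v := by
      have : e y = v := by
        rw [he]; simp only [hv', mul_inv_cancel_right]
      rcases hsmall y hy with e1 | e1 <;> rw [← this, e1]
      · exact Commute.one_right _
      · exact (hu' 1).2
    have key : k⁻¹ * liftG (x * y * x⁻¹ * y⁻¹) * k = liftG (x * y * x⁻¹ * y⁻¹) := by
      calc k⁻¹ * liftG (x * y * x⁻¹ * y⁻¹) * k
          = (k⁻¹ * liftG x * k) * (k⁻¹ * liftG y * k) * (k⁻¹ * liftG x * k)⁻¹ *
              (k⁻¹ * liftG y * k)⁻¹ := by simp only [map_mul, map_inv]; group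
        _ = liftG x * liftG y * (liftG x)⁻¹ * (liftG y)⁻¹ := by
            rw [hu, hv']
            exact commutator_twist (hu' x).1 (hu' y).1 (hv'' x).1 (hv'' y).1 huv
        _ = _ := by simp only [map_mul, map_inv]
    conv_lhs => rw [← key]
    group
  refine hF k hkX (Fin.succ (⟨0, by omega⟩ : Fin n)) 1 (O3m F).one_mem fun i => ?_
  simp only [one_mul, inv_one, mul_one]
  obtain ⟨p, hp, r, hr, hpr⟩ := half_commutator h2 (isHalf_fr (F := F) i)
  have hwo : ∀ z ∈ U3m F, gs (⟨0, by omega⟩ : Fin n) z ∈ WO F n := fun z hz =>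
    ⟨gs_mem_Wr h2 _ (U3m_le hz), (gs_mem_Om_iff h2 _ (U3m_le hz)).2 hz⟩
  have := hcomm _ (hwo p hp) _ (hwo r hr)
  rw [← map_inv, ← map_inv, ← map_mul, ← map_mul, ← map_mul, ← hpr, liftG_gs] at this
  exact this

/-- Every involution with scalar row is conjugate to one acting on the first factor only. -/
lemma exists_conj_mem_Wr (h2 : (2 : F) ≠ 0) (hq : 5 ≤ Nat.card F) (hn : 2 ≤ n) (hX : Good X)
    (hF : FrameC X) {i : GL (Ix (n + 1)) F} (hi : i ∈ rowKer h2 X) (hii : i * i = 1) :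
    ∃ k ∈ rowKer h2 X, k * i * k⁻¹ ∈ Wr F (n + 1) := by
  classical
  set K := rowKer h2 X with hK
  set D := (Wr F (n + 1)).subgroupOf K with hD
  haveI : Fintype (↥K ⧸ D) := Fintype.ofFinite _
  haveI : Fact (Nat.Prime 2) := ⟨Nat.prime_two⟩
  have hbb : (⟨fa 0 1, fa_mem_rowKer h2 hq hX 1⟩ : ↥K) * ⟨fa 0 1, fa_mem_rowKer h2 hq hX 1⟩ = 1 :=
    Subtype.ext (by show fa 0 1 * fa 0 1 = 1; rw [fa, ← map_mul, fr_mul_self, map_one])
  have hinv : ∀ b : ↥K, b * b = 1 →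
      (MulAction.toPerm b : Equiv.Perm (↥K ⧸ D)) ^ 2 ^ 1 = 1 := fun b hb => Equiv.ext fun q => by
    rw [pow_one, pow_two, Equiv.Perm.mul_apply, MulAction.toPerm_apply, MulAction.toPerm_apply,
      smul_smul, hb, one_smul, Equiv.Perm.one_apply]
  have hfix : ∀ b k : ↥K, b • (QuotientGroup.mk k : ↥K ⧸ D) = QuotientGroup.mk k →
      ((k⁻¹ * b⁻¹ * k : ↥K) : GL (Ix (n + 1)) F) ∈ Wr F (n + 1) := fun b k h => by
    rw [MulAction.Quotient.smul_mk, smul_eq_mul, QuotientGroup.eq, _root_.mul_inv_rev] at h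
    exact Subgroup.mem_subgroupOf.1 h
  have hodd : ¬ 2 ∣ Nat.card (↥K ⧸ D) := fun hdvd => by
    set b : ↥K := ⟨fa 0 1, fa_mem_rowKer h2 hq hX 1⟩
    have h1 : b • (QuotientGroup.mk (1 : ↥K) : ↥K ⧸ D) = QuotientGroup.mk 1 := by
      rw [MulAction.Quotient.smul_mk, smul_eq_mul, QuotientGroup.eq, mul_one, mul_one]
      refine D.inv_mem (Subgroup.mem_subgroupOf.2 ?_)
      exact gs_mem_Wr h2 _ (U3m_le (half_mem h2 (isHalf_fr 1)))
    obtain ⟨q, hq1, hq2⟩ := Equiv.Perm.exists_fixed_point_of_prime'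
      (n := 1) (Nat.card_eq_fintype_card (α := ↥K ⧸ D) ▸ hdvd) (hinv b hbb)
      (a := QuotientGroup.mk 1) h1
    obtain ⟨k, rfl⟩ := QuotientGroup.mk_surjective q
    have hbm := hfix b k hq1
    have hb' : b⁻¹ = b := inv_eq_of_mul_eq_one_right hbb
    rw [hb', Subgroup.coe_mul, Subgroup.coe_mul, Subgroup.coe_inv] at hbm
    have hmem := mem_Wr_of_conj_mem h2 hq hn hX hF (K.inv_mem k.2) (by simpa using hbm)
    exact hq2 (QuotientGroup.eq.2 (by
      rw [mul_one]; exact D.inv_mem (Subgroup.mem_subgroupOf.2 (inv_mem_iff.1 hmem))))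
  obtain ⟨q, hq'⟩ := Equiv.Perm.exists_fixed_point_of_prime (n := 1)
    (Nat.card_eq_fintype_card (α := ↥K ⧸ D) ▸ hodd) (hinv ⟨i, hi⟩ (Subtype.ext hii))
  obtain ⟨k, rfl⟩ := QuotientGroup.mk_surjective q
  refine ⟨_, K.inv_mem k.2, ?_⟩
  have := hfix ⟨i, hi⟩ k hq'
  rw [show (⟨i, hi⟩ : ↥K)⁻¹ = ⟨i, hi⟩ from inv_eq_of_mul_eq_one_right (Subtype.ext hii),
    Subgroup.coe_mul, Subgroup.coe_mul, Subgroup.coe_inv] at this
  rwa [inv_inv]

/-- Two elements are conjugate by a member with scalar row. -/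
def Rel (h2 : (2 : F) ≠ 0) (X : Subgroup (GL (Ix (n + 1)) F)) (x y : GL (Ix (n + 1)) F) : Prop :=
  ∃ k ∈ rowKer h2 X, k * x * k⁻¹ = y

lemma Rel.symm {h2 : (2 : F) ≠ 0} {x y : GL (Ix (n + 1)) F} : Rel h2 X x y → Rel h2 X y x := by
  rintro ⟨k, hk, rfl⟩; exact ⟨k⁻¹, (rowKer h2 X).inv_mem hk, by group⟩

lemma Rel.trans {h2 : (2 : F) ≠ 0} {x y z : GL (Ix (n + 1)) F} :
    Rel h2 X x y → Rel h2 X y z → Rel h2 X x z := by
  rintro ⟨k, hk, rfl⟩ ⟨l, hl, rfl⟩; exact ⟨l * k, (rowKer h2 X).mul_mem hl hk, by group⟩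

/-- Representatives of the classes of the conjugates of the second axis. -/
lemma exists_rep (h2 : (2 : F) ≠ 0) (hq : 5 ≤ Nat.card F) (hn : 2 ≤ n) (hX : Good X) (hF : FrameC X)
    {a : GL (Ix (n + 1)) F} (haX : a ∈ X) (hac : a * fa 0 0 = fa 0 0 * a) :
    ∃ ρ ∈ rotGrp h2 hq, Rel h2 X (a * fa 0 1 * a⁻¹) (gs 0 (ρ * fr F 1)) := by
  set b : GL (Ix (n + 1)) F := fa 0 1 with hb
  have hbK := fa_mem_rowKer h2 hq hX (n := n) (1 : Fin 3)
  have hbb : b * b = 1 := by rw [hb, fa, ← map_mul, fr_mul_self, map_one]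
  have hbr : IsRow b ((-1 : F) • (1 : Matrix (Ix n) (Ix n) F)) := by
    have := isRow_gs_zero (n := n) (h := fr F 1) fun i hi => by rw [fr_val, diagonal_apply_ne _ hi]
    rwa [fr_entry, if_neg (by decide)] at this
  have haO := hX.le_OG haX
  have hiK := rowKer_conj h2 haX haO hac hbK
  have hii : a * b * a⁻¹ * (a * b * a⁻¹) = 1 := by
    rw [show a * b * a⁻¹ * (a * b * a⁻¹) = a * (b * b) * a⁻¹ by group, hbb, mul_one, mul_inv_cancel]
  obtain ⟨k, hk, hkW⟩ := exists_conj_mem_Wr h2 hq hn hX hF hiK hii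
  obtain ⟨h, hhU, hhc, hh⟩ := eq_gs_of_rowKer h2 hq hX
    (rowKer_conj h2 hk.1 hk.2.1 hk.2.2.1 hiK) hkW
  obtain ⟨w, -, hw⟩ := exists_row h2 haO hac
  obtain ⟨hkX, hkO, hkc, s, hs, hkr⟩ := hk
  have hk' : k ∈ rowKer h2 X := ⟨hkX, hkO, hkc, s, hs, hkr⟩
  obtain ⟨v, -, hv⟩ := exists_row h2 hkO hkc
  have hr : IsRow (gs (0 : Fin (n + 1)) h) ((-1 : F) • (1 : Matrix (Ix n) (Ix n) F)) := by
    rw [← hh]
    convert (hv.mul ((hw.mul hbr).mul (hw.inv' h2 haO hac))).mul (hv.inv' h2 hkO hkc) using 1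
    simp [← Units.val_mul]
  have h00 : (h : Matrix (Fin 3) (Fin 3) F) 0 0 = -1 := by
    have hu := (isRow_gs_zero (n := n) fun i hi =>
      ((comm_fr0 h2 (U3m_le hhU) hhc).2 i hi).2).unique hr
    have := congrFun (congrFun hu fun _ => 0) fun _ => 0
    simpa using this
  refine ⟨h * fr F 1, ⟨(U3m F).mul_mem hhU (half_mem h2 (isHalf_fr 1)),
    ((show Commute h (fr F 0) from hhc).mul_left (fr_comm 1 0)).eq, ?_⟩, k, hk', ?_⟩
  · rw [Units.val_mul, fr_val, mul_diagonal, h00]; simp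
  · rw [hh, mul_assoc, fr_mul_self, mul_one]

/-- Among three classes of involutions on the first factor two agree. -/
lemma two_classes (h2 : (2 : F) ≠ 0) (hq : 5 ≤ Nat.card F) (hX : Good X)
    {a b c : GL (Fin 3) F} (ha : a ∈ rotGrp h2 hq) (hb : b ∈ rotGrp h2 hq) (hc : c ∈ rotGrp h2 hq) :
    Rel h2 X (gs 0 (a * fr F 1)) (gs 0 (b * fr F 1)) ∨
    Rel h2 X (gs 0 (a * fr F 1)) (gs 0 (c * fr F 1)) ∨
    Rel h2 X (gs 0 (b * fr F 1)) (gs 0 (c * fr F 1)) := by
  have hcomm : ∀ ρ ∈ rotGrp h2 hq, ∀ σ ∈ rotGrp h2 hq, ρ * σ = σ * ρ :=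
    fun ρ hρ σ hσ => rot_comm h2 hρ.1 hσ.1 hρ.2.1 hσ.2.1 hρ.2.2 hσ.2.2
  let sq : ↥(rotGrp h2 hq) →* ↥(rotGrp h2 hq) :=
    { toFun := fun ρ => ρ * ρ
      map_one' := mul_one 1
      map_mul' := fun x y => by
        have e : y * x = x * y := Subtype.ext (hcomm _ y.2 _ x.2)
        rw [mul_assoc, ← mul_assoc y, e, mul_assoc x y, mul_assoc] }
  have hker : Nat.card sq.ker ≤ 2 := by
    classical
    let f : Bool → ↥sq.ker := fun c => if c then 1 else
      ⟨⟨fr F 0, half_mem h2 (isHalf_fr 0), rfl, by rw [fr_entry]; rfl⟩,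
        MonoidHom.mem_ker.2 (Subtype.ext (fr_mul_self 0))⟩
    have hf : Function.Surjective f := fun x => by
      rcases rot_invol h2 x.1.2.1 x.1.2.2.1 x.1.2.2.2
          (congrArg Subtype.val (MonoidHom.mem_ker.1 x.2)) with h | h
      · exact ⟨true, Subtype.ext (Subtype.ext h.symm)⟩
      · exact ⟨false, Subtype.ext (Subtype.ext h.symm)⟩
    exact (Nat.card_le_card_of_surjective f hf).trans (by simp)
  have hidx : sq.range.index ≤ 2 := by
    have h1 := sq.range.card_mul_index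
    have h3 : Nat.card sq.range * Nat.card sq.ker = Nat.card ↥(rotGrp h2 hq) := by
      rw [← sq.ker.card_mul_index, Subgroup.index_ker, mul_comm]
    have hpos : 0 < Nat.card sq.range := Nat.card_pos
    have : sq.range.index = Nat.card sq.ker := Nat.eq_of_mul_eq_mul_left hpos (h1.trans h3.symm)
    omega
  have two : ∀ x y z : ↥(rotGrp h2 hq),
      x * y⁻¹ ∈ sq.range ∨ x * z⁻¹ ∈ sq.range ∨ y * z⁻¹ ∈ sq.range := by
    intro x y z
    rcases Nat.lt_or_ge sq.range.index 2 with hl | hl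
    · have : sq.range.index = 1 := by have := sq.range.index_ne_zero_of_finite; omega
      exact Or.inl ((Subgroup.index_eq_one.1 this).symm ▸ Subgroup.mem_top _)
    · have hi2 : sq.range.index = 2 := by omega
      simp only [Subgroup.mul_mem_iff_of_index_two hi2, inv_mem_iff]
      tauto
  have conjR : ∀ x y : ↥(rotGrp h2 hq), x * y⁻¹ ∈ sq.range →
      Rel h2 X (gs 0 ((x : GL (Fin 3) F) * fr F 1)) (gs 0 ((y : GL (Fin 3) F) * fr F 1)) := by
    rintro x y ⟨σ, hσ⟩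
    refine Rel.symm ⟨gs 0 σ.1, gs_mem_rowKer h2 hq hX σ.2.1 σ.2.2.1, ?_⟩
    have hx : (x : GL (Fin 3) F) = σ.1 * σ.1 * y := by
      have := congrArg Subtype.val hσ
      change σ.1 * σ.1 = x.1 * y.1⁻¹ at this
      rw [this, inv_mul_cancel_right]
    rw [← map_inv, ← map_mul, ← map_mul]
    congr 1
    have hsig : fr F 1 * σ.1⁻¹ = σ.1 * fr F 1 := by
      rw [← rot_conj h2 σ.2.1 σ.2.2.1 σ.2.2.2, ← mul_assoc, ← mul_assoc, fr_mul_self, one_mul]
    calc σ.1 * (y.1 * fr F 1) * σ.1⁻¹ = σ.1 * (y.1 * (fr F 1 * σ.1⁻¹)) := by group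
      _ = σ.1 * (σ.1 * y.1) * fr F 1 := by
          rw [hsig, ← mul_assoc y.1, hcomm _ y.2 _ σ.2]
          simp only [mul_assoc]
      _ = x.1 * fr F 1 := by rw [hx]; group
  rcases two ⟨a, ha⟩ ⟨b, hb⟩ ⟨c, hc⟩ with h | h | h
  · exact Or.inl (conjR ⟨a, ha⟩ ⟨b, hb⟩ h)
  · exact Or.inr (Or.inl (conjR ⟨a, ha⟩ ⟨c, hc⟩ h))
  · exact Or.inr (Or.inr (conjR ⟨b, hb⟩ ⟨c, hc⟩ h))

/-- The square of a member centralising the first axis fixes the class of the second axis. -/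
lemma rel_sq (h2 : (2 : F) ≠ 0) (hq : 5 ≤ Nat.card F) (hn : 2 ≤ n) (hX : Good X) (hF : FrameC X)
    {g : GL (Ix (n + 1)) F} (hgX : g ∈ X) (hgc : g * fa 0 0 = fa 0 0 * g) :
    Rel h2 X (fa 0 1) (g * g * fa 0 1 * (g * g)⁻¹) := by
  have hgO := hX.le_OG hgX
  obtain ⟨x, hx, rx⟩ := exists_rep h2 hq hn hX hF X.one_mem (by rw [one_mul, mul_one])
  obtain ⟨y, hy, ry⟩ := exists_rep h2 hq hn hX hF hgX hgc
  obtain ⟨z, hz, rz⟩ := exists_rep h2 hq hn hX hF (X.mul_mem hgX hgX)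
    ((show Commute g (fa 0 0) from hgc).mul_left hgc).eq
  rw [one_mul, inv_one, mul_one] at rx
  rcases two_classes h2 hq hX hx hy hz with h | h | h
  · have r := (rx.trans h).trans ry.symm
    obtain ⟨k, hk, hkb⟩ := r
    refine Rel.trans ⟨k, hk, hkb⟩ ⟨g * k * g⁻¹, rowKer_conj h2 hgX hgO hgc hk, ?_⟩
    calc g * k * g⁻¹ * (g * fa 0 1 * g⁻¹) * (g * k * g⁻¹)⁻¹
        = g * (k * fa 0 1 * k⁻¹) * g⁻¹ := by group
      _ = g * g * fa 0 1 * (g * g)⁻¹ := by rw [hkb]; group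
  · exact (rx.trans h).trans rz.symm
  · have r := (ry.trans h).trans rz.symm
    obtain ⟨k, hk, hkb⟩ := r
    have hgc' : g⁻¹ * fa 0 0 = fa 0 0 * g⁻¹ := (show Commute g (fa 0 0) from hgc).inv_left.eq
    refine Rel.trans ⟨g⁻¹ * k * g⁻¹⁻¹,
      rowKer_conj h2 (X.inv_mem hgX) ((OG F (n + 1)).inv_mem hgO) hgc' hk, ?_⟩ ⟨k, hk, hkb⟩
    calc g⁻¹ * k * g⁻¹⁻¹ * fa 0 1 * (g⁻¹ * k * g⁻¹⁻¹)⁻¹
        = g⁻¹ * (k * (g * fa 0 1 * g⁻¹) * k⁻¹) * g := by group
      _ = g * fa 0 1 * g⁻¹ := by rw [hkb]; group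

/-- Rows of members centralising the first coordinate axis preserve the decomposition. -/
theorem rowC (h2 : (2 : F) ≠ 0) (hq : 5 ≤ Nat.card F) (hn : 2 ≤ n) (hD : Dicho F n)
    (hX : Good X) (hF : FrameC X) : RowC X := by
  have hsq : ∀ p ∈ rowGrp h2 X, p * p ∈ Wr F n := by
    rintro p ⟨g, hgX, hgO, hgc, hgr⟩
    obtain ⟨k, hk, hkb⟩ := rel_sq h2 hq hn hX hF hgX hgc
    obtain ⟨hkX, hkO, hkc, s, hs, hkr⟩ := hk
    set c := k⁻¹ * (g * g) with hcdef
    have hcX : c ∈ X := X.mul_mem (X.inv_mem hkX) (X.mul_mem hgX hgX)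
    have c0 : Commute c (fa 0 0) := (show Commute k (fa 0 0) from hkc).inv_left.mul_left
      ((show Commute g (fa 0 0) from hgc).mul_left hgc)
    have c1 : Commute c (fa 0 1) := by
      show c * fa 0 1 = fa 0 1 * c
      have hb : g * g * fa 0 1 = k * fa 0 1 * k⁻¹ * (g * g) := by
        rw [hkb]; group
      rw [hcdef, mul_assoc k⁻¹, hb]
      group
    have c2 : Commute c (fa 0 2) := by
      rw [fa, ← fr_mul (F := F) (i := 0) (j := 1) (k := (2 : Fin 3)) (by decide) (by decide)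
        (by decide), map_mul]
      exact c0.mul_right c1
    have hW : c ∈ Wr F (n + 1) := hF _ hcX 0 1 (O3m F).one_mem fun i => by
      simp only [one_mul, inv_one, mul_one]
      fin_cases i
      · exact c0
      · exact c1
      · exact c2
    obtain ⟨h, hh, hhc, w, hw, hcw⟩ := split_zero h2 hW c0.eq
    obtain ⟨h00, hoff⟩ := comm_fr0 h2 hh hhc
    have hrow : IsRow (k * (gs 0 h * liftG w)) ((p * p : GL (Ix n) F) : Matrix (Ix n) (Ix n) F) := by
      rw [← hcw, hcdef, mul_inv_cancel_left, Units.val_mul]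
      exact hgr.mul hgr
    have he := (hkr.mul ((isRow_gs_zero (n := n) fun i hi => (hoff i hi).2).mul
      (isRow_liftG w))).unique hrow
    rw [Matrix.smul_mul, one_mul, Matrix.smul_mul, one_mul, smul_smul] at he
    refine neg_mem_Wr h2 hq (by omega) hw ?_ he.symm
    rcases hs with rfl | rfl <;> rcases h00 with e | e <;> rw [e] <;> simp
  have hgood : Good (rowGrp h2 X ⊓ Om F n) := by
    refine ⟨fun x hx => ⟨?_, hx.2⟩, inf_le_right⟩
    have hm : liftG x ∈ X := hX.le ⟨liftG_mem_Wr h2 hx.1, liftG_mem_Om h2 hx.2⟩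
    exact ⟨liftG x, hm, hX.le_OG hm, liftG_comm_gs_zero x _, isRow_liftG x⟩
  rcases hD _ hgood with hle | htop
  · intro g hg hgc w hw
    obtain ⟨v, hvO, hv⟩ := exists_row h2 (hX.le_OG hg) hgc
    obtain rfl : w = v := Units.ext (hw.unique hv)
    have hwP : w ∈ rowGrp h2 X := ⟨g, hg, hX.le_OG hg, hgc, hw⟩
    refine mem_Wr_of_axes h2 hq (by omega) hvO fun x hx => ?_
    obtain ⟨r, k, hk, rfl⟩ := hx
    have hkU := half_mem h2 hk
    have hxWO : gs r k ∈ WO F n :=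
      ⟨gs_mem_Wr h2 r (U3m_le hkU), (gs_mem_Om_iff h2 r (U3m_le hkU)).2 hkU⟩
    have hmem : w * gs r k * w⁻¹ ∈ rowGrp h2 X ⊓ Om F n :=
      ⟨(rowGrp h2 X).mul_mem ((rowGrp h2 X).mul_mem hwP (hgood.le hxWO).1)
        ((rowGrp h2 X).inv_mem hwP), conj_mem_Om hvO hxWO.2⟩
    exact ⟨hle hmem, hmem.2⟩
  · refine absurd (Om_le_of_squares h2 hn fun p hp => hsq p ?_) (Om_not_le_Wr h2 hq hn)
    rw [← htop] at hp
    exact hp.1

end Cfsg.Agent.MaxSub.OWT
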