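import Cfsg.Agent.MaxSub.OrthWreathThree.Top
import Cfsg.Agent.MaxSub.OrthWreathThree.Proj
import Cfsg.Agent.MaxSub.OrthWreathThree.Centr
import Cfsg.Agent.MaxSub.OrthWreathThree.Frame
import Cfsg.Agent.MaxSub.OrthWreathThree.Base

/-!
The dichotomy for every number of factors.
-/

set_option autoImplicit false

namespace Cfsg.Agent.MaxSub.OWT

open Matrix
open scoped MatrixGroups

variable {F : Type*} [Field F] [Finite F]

/-- An overgroup of the wreath stabiliser inside `Om` stabilises the decomposition or is `Om`. -/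
theorem dicho (h2 : (2 : F) ≠ 0) (hq : 5 ≤ Nat.card F) : ∀ t, 2 ≤ t → Dicho F t := by
  intro t ht
  induction t, ht using Nat.le_induction with
  | base => exact dicho_two h2 hq
  | succ n hn ih =>
    intro X hX
    by_cases hne : X = Om F (n + 1)
    · exact Or.inr hne
    have hF := (frameC_or_top h2 hq hn ih hX).resolve_left hne
    have hR : ∀ g ∈ Wr F (n + 1), RowC (X.map (MulAut.conj g).toMonoidHom) := fun g hg =>
      rowC h2 hq hn ih (hX.conj hg)
        ((frameC_or_top h2 hq hn ih (hX.conj hg)).resolve_left (map_conj_ne_Om hne (Wr_le_OG hg)))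
    exact Or.inl (le_Wr h2 hq (by omega) hX (axisC h2 hq hn hX hF hR))

end Cfsg.Agent.MaxSub.OWT
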