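import Cfsg.Agent.MaxSub.OrthWreathThree.Invol
import Cfsg.Agent.MaxSub.OrthWreathThree.ClassMap
import Cfsg.Agent.MaxSub.OrthWreathThree.SO3

/-!
The involutions of the stabiliser conjugate to an axis: axes and transpositions of two factors.
-/

set_option autoImplicit false

namespace Cfsg.Agent.MaxSub.OWT

open Matrix
open scoped MatrixGroups

variable {F : Type*} [Field F] [Finite F] {t : ℕ}

lemma item_cases (h2 : (2 : F) ≠ 0) (ht : 2 ≤ t) {g : GL (Ix t) F} (hg : IsItem g) :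
    IsAxis g ∨ ∃ i j : Fin t, i ≠ j ∧ Moves g (Equiv.swap i j) ∧
      ∀ r, r ≠ i → r ≠ j → ∀ h : GL (Fin 3) F, g * gs r h = gs r h * g :=
  item_cases_of h2 (fun r _ hh => (gs_mem_Om_iff h2 r hh).1)
    (fun _ hh hhh hne => isHalf_of_invol h2 hh hhh hne) (by omega) hg

end Cfsg.Agent.MaxSub.OWT
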