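import Cfsg.Agent.MaxSub.OrthWreathThree.Base
import Cfsg.Agent.MaxSub.OrthWreathBig.Main

/-!
From the dichotomy in the standard model to the maximality of orthogonal tensor wreath stabilisers.
-/

set_option autoImplicit false
set_option linter.unusedSectionVars false
set_option linter.style.haveILetI false

namespace Cfsg.Agent.MaxSub.OWT

open Matrix Cfsg.Geo Cfsg.Agent.NotMax Cfsg.Agent.GeoClasses
open scoped MatrixGroups

variable {F : Type*} [Field F] {t : ℕ}

lemma omegaGL_eq_commutator {ι : Type} [Fintype ι] [DecidableEq ι] (Q : (ι → F) → F) :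
    omegaGL Q = ⁅Cfsg.isometryGroup F Q, Cfsg.isometryGroup F Q⁆ := by
  rw [omegaGL, Cfsg.Omega, commutator_def, Subgroup.map_commutator, ← MonoidHom.range_eq_map,
    Subgroup.range_subtype]

lemma mem_isometry_iff {ι : Type} [Fintype ι] [DecidableEq ι] {Q : (ι → F) → F} {g : GL ι F} :
    g ∈ Cfsg.isometryGroup F Q ↔ ∀ u, Q ((g : Matrix ι ι F) *ᵥ u) = Q u :=
  ⟨fun h u => h u u, fun h u _ => h u⟩

/-- The permutation matrix of a permutation of the basis. -/
def permGL (s : Equiv.Perm (Ix t)) : GL (Ix t) F where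
  val := s.permMatrix F
  inv := s⁻¹.permMatrix F
  val_inv := by rw [← Matrix.permMatrix_mul, inv_mul_cancel, Matrix.permMatrix_one]
  inv_val := by rw [← Matrix.permMatrix_mul, mul_inv_cancel, Matrix.permMatrix_one]

lemma permGL_mulVec (s : Equiv.Perm (Ix t)) (v : Ix t → F) :
    ((permGL s : GL (Ix t) F) : Matrix (Ix t) (Ix t) F) *ᵥ v = v ∘ s :=
  Matrix.permMatrix_mulVec (σ := s)

lemma permGL_inv_mulVec (s : Equiv.Perm (Ix t)) (v : Ix t → F) :
    (((permGL s : GL (Ix t) F)⁻¹ : GL (Ix t) F) : Matrix (Ix t) (Ix t) F) *ᵥ v = v ∘ ⇑s⁻¹ :=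
  Matrix.permMatrix_mulVec (σ := s⁻¹)

lemma permGL_mem (s : Equiv.Perm (Ix t)) : (permGL s : GL (Ix t) F) ∈ OG F t := by
  refine mem_isometry_iff.2 fun u => ?_
  rw [permGL_mulVec]
  exact (comp_equiv_dotProduct_comp_equiv u u s)

/-- The stabiliser is proper in `Om`. -/
lemma not_Om_le [Finite F] (ht : 2 ≤ t) : ¬ Om F t ≤ tensorWreathStandard 3 t F := by
  classical
  intro hle
  haveI : Nontrivial (Fin t) := Fin.nontrivial_iff_two_le.2 ht
  obtain ⟨i, j, hij⟩ := exists_pair_ne (Fin t)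
  set a : Ix t := fun _ => 0 with ha
  set b : Ix t := Function.update (Function.update a i 1) j 1 with hb
  set c : Ix t := Function.update (Function.update a i 2) j 2 with hc
  set p : Ix t := Function.update a i 1 with hp
  set a' : Ix t := Function.update a i 2 with ha'
  set r : Ix t := Function.update (Function.update a i 2) j 1 with hr
  set s₁ := Equiv.swap a b with hs₁
  set s₂ := Equiv.swap a c with hs₂
  have hg := hle (commutator_mem_Om (permGL_mem (F := F) s₁) (permGL_mem (F := F) s₂))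
  obtain ⟨gs', σ, hgs⟩ := MaxSub.tensorWreath_apply hg
  set g : GL (Ix t) F := permGL s₁ * permGL s₂ * (permGL s₁)⁻¹ * (permGL s₂)⁻¹ with hgdef
  have hg' : (g : Matrix (Ix t) (Ix t) F) = pureMat gs' * factorPerm 3 σ⁻¹ := by
    ext x y
    rw [hgs, Matrix.mul_apply, Finset.sum_eq_single (y ∘ σ)]
    · rw [factorPerm, if_pos (funext fun l => by simp), mul_one]
      rfl
    · intro z _ hz
      rw [factorPerm, if_neg, mul_zero]
      rintro rfl
      exact hz (funext fun l => by simp)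
    · simp
  set f : Fin t → Fin 3 → F :=
    Function.update (fun _ => Pi.single 0 1) i (Pi.single 0 1 + Pi.single 2 1) with hf
  obtain ⟨T, hT⟩ : ∃ T, (g : Matrix (Ix t) (Ix t) F) *ᵥ pureVec f = pureVec T := by
    refine ⟨fun l => gs' l *ᵥ f ((σ⁻¹).symm l), ?_⟩
    rw [hg', ← mulVec_mulVec, OrthWreathBig.factorPerm_pureVec, pureMat_mulVec]
  have hw : ∀ x, pureVec T x = pureVec f (s₂ (s₁ (s₂ (s₁ x)))) := fun x => by
    rw [← hT, hgdef]
    simp only [Units.val_mul, ← mulVec_mulVec, permGL_mulVec, permGL_inv_mulVec, hs₁, hs₂,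
      Equiv.swap_inv, Function.comp_apply]
  have hfix : ∀ x, x ≠ a → x ≠ b → x ≠ c → s₂ (s₁ (s₂ (s₁ x))) = x := fun x h1 h2 h3 => by
    simp [hs₁, hs₂, Equiv.swap_apply_of_ne_of_ne, h1, h2, h3]
  have hba : b ≠ a := fun h => by simpa [hb, ha] using congrFun h j
  have hca : c ≠ a := fun h => by simpa [hc, ha] using congrFun h j
  have hcb : c ≠ b := fun h => by simpa [hc, hb] using congrFun h j
  have hb' : s₂ (s₁ (s₂ (s₁ b))) = a := by
    simp [hs₁, hs₂, Equiv.swap_apply_of_ne_of_ne, hca, hcb]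
  have hval : ∀ x, pureVec f x = if ∀ l, l ≠ i → x l = 0 then
      (if x i = 0 ∨ x i = 2 then 1 else 0) else 0 := by
    intro x
    rw [pureVec]
    by_cases hx : ∀ l, l ≠ i → x l = 0
    · rw [if_pos hx, Finset.prod_eq_single i (fun l _ hl => by simp [hf, hl, hx l hl]) (by simp)]
      have : ∀ z : Fin 3, ((Pi.single 0 1 + Pi.single 2 1 : Fin 3 → F) z) =
          if z = 0 ∨ z = 2 then 1 else 0 := fun z => by fin_cases z <;> simp
      simpa [hf] using this (x i)
    · push Not at hx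
      obtain ⟨l, hl, hl0⟩ := hx
      rw [if_neg (fun h => hl0 (h l hl)), Finset.prod_eq_zero (Finset.mem_univ l)]
      simp [hf, hl, hl0]
  have hwb : pureVec T b = 1 := by rw [hw, hb', hval]; simp [ha]
  have hwa : pureVec T a' = 1 := by
    rw [hw, hfix a' (fun h => by simpa [ha', ha] using congrFun h i)
      (fun h => by simpa [ha', hb, hp, ha, hij] using congrFun h i)
      (fun h => by simpa [ha', hc, ha, hij.symm] using congrFun h j), hval]
    simp +contextual [ha', ha]
  have hwp : pureVec T p = 0 := by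
    rw [hw, hfix p (fun h => by simpa [hp, ha] using congrFun h i)
      (fun h => by simpa [hp, hb, ha, hij.symm] using congrFun h j)
      (fun h => by simpa [hp, hc, ha, hij.symm] using congrFun h j), hval]
    simp +contextual [hp, ha]
  have hminor : pureVec T b * pureVec T a' = pureVec T p * pureVec T r := by
    simp only [pureVec, ← Finset.prod_mul_distrib]
    refine Finset.prod_congr rfl fun l _ => ?_
    by_cases hli : l = i
    · subst hli; simp [hb, ha', hp, hr, hij]
    by_cases hlj : l = j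
    · subst hlj; simp [hb, ha', hp, hr, ha, hij.symm, mul_comm]
    · simp [hb, ha', hp, hr, ha, hli, hlj]
  rw [hwb, hwa, hwp, one_mul, zero_mul] at hminor
  exact one_ne_zero hminor

/-- The maximality statement in the standard model. -/
theorem maximal_standard [Finite F] (ht : 2 ≤ t) (hD : Dicho F t) :
    IsMaximalIn (Om F t) (tensorWreathStandard 3 t F ⊓ Om F t) := by
  refine ⟨lt_of_le_of_ne inf_le_right fun h => not_Om_le ht (h.symm.le.trans inf_le_left),
    fun X hle hX => ?_⟩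
  rcases hD X ⟨fun g hg => hle ⟨hg.1.1, hg.2⟩, hX⟩ with h | h
  · exact Or.inl (le_antisymm (fun g hg => ⟨(h hg).1, hX hg⟩) hle)
  · exact Or.inr h

/-- The stabiliser of an orthogonal tensor power with three dimensional factors is maximal in `Ω`,
given the dichotomy in the standard model. -/
theorem omegaGL_tensorWreath_maximal_three {F : Type*} [Field F] [Fintype F]
    (hodd : Odd (Fintype.card F)) (hq : 5 ≤ Fintype.card F) {ι : Type} [Fintype ι] [DecidableEq ι]
    {Q : (ι → F) → F} (hQ : Cfsg.Geo.IsNondegenerateQuadraticForm Q) {t : ℕ} (ht : 2 ≤ t)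
    (e : ι ≃ (Fin t → Fin 3)) (P : Matrix.GeneralLinearGroup ι F)
    (f₁ : (Fin 3 → F) → (Fin 3 → F) → F) (hf₁ : Cfsg.Geo.IsSymmetricForm f₁)
    (hT : Cfsg.Geo.IsTensorPowerFormStructure id (QuadraticMap.polar Q) f₁ e P)
    (hD : ∀ t, 2 ≤ t → Dicho F t) :
    Cfsg.Geo.IsMaximalIn (Cfsg.Geo.omegaGL Q)
      (Cfsg.Geo.tensorWreathSubgroup 3 t e P ⊓ Cfsg.Geo.omegaGL Q) := by
  classical
  have h2 : (2 : F) ≠ 0 := Cfsg.Agent.Classical.two_ne_zero_of_odd (by rwa [Nat.card_eq_fintype_card])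
  obtain ⟨c, hc0, hc⟩ := hT
  set Gm := gramMatrix f₁ with hGm
  have hGt : Gmᵀ = Gm := by ext a b; exact hf₁.symm _ _
  have hdet := TensorSquareThree.det_gramMatrix_ne hf₁
  rw [← hGm] at hdet
  obtain ⟨R, hR⟩ := GraphForms.exists_congr_of_isSquare h2
    (A := (1 : Matrix (Fin 3) (Fin 3) F)) (B := Gm.det⁻¹ • Gm) transpose_one
    (by rw [transpose_smul, hGt]) (by rw [det_one]; exact one_ne_zero)
    (by rw [det_smul]; exact mul_ne_zero (pow_ne_zero _ (inv_ne_zero hdet)) hdet)
    ⟨Gm.det⁻¹, by rw [det_one, one_mul, det_smul, Fintype.card_fin]; field_simp⟩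
  have hRG : (R : Matrix (Fin 3) (Fin 3) F)ᵀ * Gm * R = Gm.det • (1 : Matrix (Fin 3) (Fin 3) F) := by
    rw [← hR, Matrix.mul_smul, Matrix.smul_mul, smul_smul, mul_inv_cancel₀ hdet, one_smul]
  set D : GL (Ix t) F := glPure fun _ => R with hD'
  have hDmem : D ∈ tensorWreathStandard 3 t F :=
    Subgroup.subset_closure (Or.inl ⟨fun _ => R, fun x y => rfl⟩)
  set P' : GL ι F := P * glReindex e.symm D with hP'
  let Φ : GL (Ix t) F ≃* GL ι F := (glReindex e.symm).trans (MulAut.conj P')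
  have hW : (tensorWreathStandard 3 t F).map Φ.toMonoidHom = tensorWreathSubgroup 3 t e P := by
    have key : ∀ g, Φ g = P * glReindex e.symm (D * g * D⁻¹) * P⁻¹ := fun g => by
      show P' * glReindex e.symm g * P'⁻¹ = _
      rw [hP', map_mul, map_mul, map_inv]
      group
    ext x
    constructor
    · rintro ⟨g, hg, rfl⟩
      exact ⟨_, ⟨D * g * D⁻¹, mul_mem (mul_mem hDmem hg) (inv_mem hDmem), rfl⟩, (key g).symm⟩
    · rintro ⟨_, ⟨g, hg, rfl⟩, rfl⟩
      refine ⟨D⁻¹ * g * D, mul_mem (mul_mem (inv_mem hDmem) hg) hDmem, ?_⟩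
      show Φ (D⁻¹ * g * D) = _
      rw [key, show D * (D⁻¹ * g * D) * D⁻¹ = g by group]
      rfl
  -- the form
  have hψ : ∀ x, powVec e P' x = powVec e P ((D : Matrix (Ix t) (Ix t) F) *ᵥ x) := fun x => by
    rw [powVec_apply, powVec_apply, hP', Units.val_mul, ← mulVec_mulVec, glReindex_apply,
      Matrix.coe_reindexAlgEquiv, Matrix.reindex_apply, Equiv.symm_symm,
      Matrix.submatrix_mulVec_equiv, Function.comp_assoc, Equiv.self_comp_symm, Function.comp_id]
  set κ : F := (2 : F)⁻¹ * (c * Gm.det ^ t) with hκ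
  have hκ0 : κ ≠ 0 := mul_ne_zero (inv_ne_zero h2) (mul_ne_zero hc0 (pow_ne_zero _ hdet))
  have hQψ : ∀ x, Q (powVec e P' x) = κ * qs F (Ix t) x := by
    intro x
    set y := (D : Matrix (Ix t) (Ix t) F) *ᵥ x with hy
    have hpol := hc y y
    have hself : QuadraticMap.polar Q (powVec e P y) (powVec e P y) = 2 * Q (powVec e P y) := by
      have := hQ.smul 2 (powVec e P y)
      rw [QuadraticMap.polar, ← two_smul F (powVec e P y), this]
      ring
    have hsum : ∑ a, ∑ b, y a * (∏ l, Gm (a l) (b l)) * id (y b) =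
        y ⬝ᵥ pureMat (fun _ => Gm) *ᵥ y := by
      simp only [dotProduct, Matrix.mulVec, Finset.mul_sum, id, mul_assoc]
      rfl
    have hDG : (D : Matrix (Ix t) (Ix t) F)ᵀ * pureMat (fun _ => Gm) * (D : Matrix (Ix t) (Ix t) F) =
        Gm.det ^ t • (1 : Matrix (Ix t) (Ix t) F) := by
      show (pureMat _)ᵀ * _ * pureMat _ = _
      rw [pureMat_transpose, pureMat_mul, pureMat_mul]
      simp only [hRG]
      rw [pureMat_smul (fun _ : Fin t => Gm.det) (fun _ => (1 : Matrix (Fin 3) (Fin 3) F)),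
        Finset.prod_const, Finset.card_univ, Fintype.card_fin, pureMat_one]
    have hconj : y ⬝ᵥ pureMat (fun _ => Gm) *ᵥ y = Gm.det ^ t * (x ⬝ᵥ x) := by
      calc y ⬝ᵥ pureMat (fun _ => Gm) *ᵥ y
          = x ⬝ᵥ ((D : Matrix (Ix t) (Ix t) F)ᵀ * pureMat (fun _ => Gm) *
              (D : Matrix (Ix t) (Ix t) F)) *ᵥ x := by
            rw [hy, ← mulVec_mulVec, ← mulVec_mulVec, dotProduct_mulVec x, vecMul_transpose]
        _ = _ := by rw [hDG, smul_mulVec, one_mulVec, dotProduct_smul, smul_eq_mul]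
    rw [← powVec_apply, hself, hsum, hconj] at hpol
    rw [hψ, hκ, qs]
    field_simp
    linear_combination hpol
  have hΦval : ∀ g x, (Φ g : Matrix ι ι F) *ᵥ powVec e P' x =
      powVec e P' ((g : Matrix (Ix t) (Ix t) F) *ᵥ x) := fun g x => powAlg_mulVec e P' _ x
  have hiso : (OG F t).map Φ.toMonoidHom = Cfsg.isometryGroup F Q := by
    ext x
    obtain ⟨g, rfl⟩ := Φ.surjective x
    rw [show Φ g = Φ.toMonoidHom g from rfl,
      Subgroup.mem_map_iff_mem Φ.injective, mem_isometry_iff, mem_isometry_iff]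
    refine ⟨fun h v => ?_, fun h v => mul_left_cancel₀ hκ0 ?_⟩
    · obtain ⟨u, rfl⟩ := powVec_surjective e P' v
      show Q ((Φ g : Matrix ι ι F) *ᵥ _) = _
      rw [hΦval, hQψ, hQψ, h]
    · rw [← hQψ, ← hQψ, ← hΦval]
      exact h _
  have hΩ : (Om F t).map Φ.toMonoidHom = omegaGL Q := by
    rw [Om_eq, Subgroup.map_commutator, hiso, omegaGL_eq_commutator]
  have := GeoClasses.isMaximalIn_map (j := Φ.toMonoidHom) Φ.injective
    (maximal_standard ht (hD t ht))
  rwa [Subgroup.map_inf _ _ _ Φ.injective, hW, hΩ] at this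

/-- The statement on odd orthogonal tensor wreath stabilisers, given the dichotomy. -/
theorem orthogonal_odd_tensor_wreath_of_dicho {F : Type*} [Field F] [Fintype F]
    (hodd : Odd (Fintype.card F)) (m : ℕ) (hm : 6 ≤ m) (k t : ℕ) (hk : 3 ≤ k) (ht : 2 ≤ t)
    (hex : ¬ (Fintype.card F = 3 ∧ k = 3))
    (e : (Unit ⊕ (Fin m ⊕ Fin m)) ≃ (Fin t → Fin k))
    (P : Matrix.GeneralLinearGroup (Unit ⊕ (Fin m ⊕ Fin m)) F)
    (f₁ : (Fin k → F) → (Fin k → F) → F) (hf₁ : Cfsg.Geo.IsSymmetricForm f₁)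
    (hT : Cfsg.Geo.IsTensorPowerFormStructure id (QuadraticMap.polar (Cfsg.quadFormOdd m F)) f₁ e P)
    (hD : 5 ≤ Nat.card F → ∀ t, 2 ≤ t → Dicho F t) :
    Cfsg.Geo.IsMaximalIn (Cfsg.Geo.omegaGL (Cfsg.quadFormOdd m F))
      (Cfsg.Geo.tensorWreathSubgroup k t e P ⊓ Cfsg.Geo.omegaGL (Cfsg.quadFormOdd m F)) := by
  have hQ := NotMax.nondegenerate_quadFormOdd (m := m)
    (Cfsg.Agent.Classical.two_ne_zero_of_odd (F := F) (by rwa [Nat.card_eq_fintype_card]))
  have hcard := Fintype.card_congr e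
  simp only [Fintype.card_sum, Fintype.card_unit, Fintype.card_fin, Fintype.card_fun] at hcard
  have hkodd : Odd k := by
    by_contra h
    have : Even (k ^ t) := (Nat.not_odd_iff_even.1 h).pow_of_ne_zero (by omega)
    rw [← hcard, Nat.even_iff] at this
    omega
  by_cases h5 : 5 ≤ k
  · exact OrthWreathBig.omegaGL_tensorWreath_maximal hodd hQ h5 ht e P f₁ hf₁ hT
  · obtain ⟨r, rfl⟩ := hkodd
    obtain rfl : r = 1 := by omega
    have hq : 5 ≤ Fintype.card F := by
      have h1 := Fintype.one_lt_card (α := F)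
      obtain ⟨s, hs⟩ := hodd
      have : Fintype.card F ≠ 3 := fun h => hex ⟨h, rfl⟩
      omega
    exact omegaGL_tensorWreath_maximal_three hodd hq hQ ht e P f₁ hf₁ hT
      (hD (by rwa [Nat.card_eq_fintype_card]))

end Cfsg.Agent.MaxSub.OWT
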