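import Cfsg.Agent.MaxSub.OrthWreathThree.Basic

/-!
Actions on single factors, rows and blocks of the tensor power of a three dimensional space.
-/

set_option autoImplicit false
set_option linter.unusedSectionVars false

namespace Cfsg.Agent.MaxSub.OWT

open Matrix Cfsg.Geo Cfsg.Agent.GeoClasses Cfsg.Agent.NotMax
open scoped MatrixGroups

variable {F : Type*} [Field F] {t n : ℕ}

lemma one_ne_neg_one (h2 : (2 : F) ≠ 0) : (1 : F) ≠ -1 := fun h => h2 (by linear_combination h)

lemma ax_entry (u : Fin 3 → F) (a b : Fin 3) :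
    ax u a b = 2 * (u a * u b) - if a = b then 1 else 0 := by
  rw [ax, Matrix.sub_apply, two_smul, Matrix.add_apply, vecMulVec_apply, Matrix.one_apply]
  ring

lemma isHalf_fr (i : Fin 3) : IsHalf (fr F i) := by
  refine ⟨Pi.single i 1, by simp, ?_⟩
  ext a b
  show diagonal (fun j => if j = i then (1 : F) else -1) a b = _
  simp only [ax_entry, diagonal_apply, Pi.single_apply]
  by_cases hab : a = b
  · subst hab; by_cases ha : a = i <;> simp [ha]; norm_num
  · rw [if_neg hab, if_neg hab]
    by_cases ha : a = i <;> by_cases hb : b = i <;> simp [ha, hb]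
    exact absurd (ha.trans hb.symm) hab

lemma isAxisAt_fa (r : Fin t) (i : Fin 3) : IsAxisAt r (fa r i : GL (Ix t) F) :=
  ⟨fr F i, isHalf_fr i, rfl⟩

lemma half_not_scalar (h2 : (2 : F) ≠ 0) {h : GL (Fin 3) F} (hh : IsHalf h) (c : F) :
    (h : Matrix (Fin 3) (Fin 3) F) ≠ c • 1 := by
  obtain ⟨u, hu, hm⟩ := hh
  intro he
  have hd : ∀ i, 2 * (u i * u i) = c + 1 := fun i => by
    have := congrFun (congrFun (hm.symm.trans he) i) i
    simp [ax_entry] at this
    linear_combination this
  have ho : u 0 * u 1 = 0 := by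
    have := congrFun (congrFun (hm.symm.trans he) 0) 1
    simpa [ax_entry, h2] using this
  have hall : ∀ i, u i * u i = u 0 * u 0 := fun i =>
    mul_left_cancel₀ h2 ((hd i).trans (hd 0).symm)
  have h0 : u 0 * u 0 = 0 := by
    rcases mul_eq_zero.1 ho with h | h
    · rw [h, mul_zero]
    · rw [← hall 1, h, mul_zero]
  have : u ⬝ᵥ u = 0 := by
    simp [dotProduct, Fin.sum_univ_three, hall 1, hall 2, h0]
  exact one_ne_zero (hu.symm.trans this)

/-! ### One factor -/

lemma gs_comm {r s : Fin t} (h : r ≠ s) (g k : GL (Fin 3) F) :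
    gs r g * gs s k = gs s k * gs r g := Units.ext (site_comm h _ _)

lemma gs_injective (r : Fin t) : Function.Injective (gs r : GL (Fin 3) F → GL (Ix t) F) := by
  intro g k h
  refine Units.ext (Matrix.ext fun i j => ?_)
  have := congrArg (fun x : GL (Ix t) F => (x : Matrix (Ix t) (Ix t) F)
    (Function.update (fun _ => 0) r i) (Function.update (fun _ => 0) r j)) h
  simp only [gs_val] at this
  rw [site_apply_of_eq _ (fun l hl => by rw [Function.update_of_ne hl, Function.update_of_ne hl]),
    site_apply_of_eq _ (fun l hl => by rw [Function.update_of_ne hl, Function.update_of_ne hl]),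
    Function.update_self, Function.update_self] at this
  exact this

lemma factorPerm_mul_site (π : Equiv.Perm (Fin t)) (r : Fin t) (Y : Matrix (Fin 3) (Fin 3) F) :
    factorPerm 3 π * site r Y = site (π r) Y * factorPerm (F := F) 3 π := by
  rw [site, site, pureMat_mul_factorPerm]
  congr 2
  funext k
  by_cases hk : k = r
  · subst hk; simp
  · rw [Function.update_of_ne hk, Function.update_of_ne (fun h => hk (π.injective h))]
    rfl

lemma factorPerm_conj_gs (π : Equiv.Perm (Fin t)) (r : Fin t) (h : GL (Fin 3) F) :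
    glFactorPerm 3 π * gs r h * (glFactorPerm 3 π)⁻¹ = gs (π r) h := by
  rw [mul_inv_eq_iff_eq_mul]
  exact Units.ext (factorPerm_mul_site π r _)

/-- The action of one factor, as an algebra map. -/
def siteAlg (r : Fin t) : Matrix (Fin 3) (Fin 3) F →ₐ[F] Matrix (Ix t) (Ix t) F where
  toFun := site r
  map_one' := site_one r
  map_mul' X Y := (site_mul r X Y).symm
  map_zero' := site_zero r
  map_add' := site_add r
  commutes' c := by rw [Algebra.algebraMap_eq_smul_one, site_smul, site_one,
    Algebra.algebraMap_eq_smul_one]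

lemma comm_site_of_adjoin {S : Set (Matrix (Fin 3) (Fin 3) F)} (hS : Algebra.adjoin F S = ⊤)
    {r : Fin t} {A : Matrix (Ix t) (Ix t) F} (hA : ∀ Y ∈ S, A * site r Y = site r Y * A)
    (Y : Matrix (Fin 3) (Fin 3) F) : A * site r Y = site r Y * A := by
  have hle : Algebra.adjoin F S ≤ (Subalgebra.centralizer F {A}).comap (siteAlg r) :=
    Algebra.adjoin_le fun Z hZ => by
      rw [SetLike.mem_coe, Subalgebra.mem_comap, Subalgebra.mem_centralizer_iff]
      rintro _ rfl
      exact hA Z hZ
  have := hle (hS.ge (Algebra.mem_top : Y ∈ ⊤))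
  rw [Subalgebra.mem_comap, Subalgebra.mem_centralizer_iff] at this
  exact this A rfl

/-- A matrix commuting with one factor is constant in it. -/
lemma apply_update_of_comm {r : Fin t} {A : Matrix (Ix t) (Ix t) F}
    (hA : ∀ Y, A * site r Y = site r Y * A) (x y : Ix t) :
    (x r ≠ y r → A x y = 0) ∧
      ∀ a, x r = y r → A (Function.update x r a) (Function.update y r a) = A x y := by
  have key : ∀ (x y : Ix t) (a b : Fin 3),
      (if y r = b then A x (Function.update y r a) else 0) =
        if x r = a then A (Function.update x r b) y else 0 := by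
    intro x y a b
    have h := congrFun (congrFun (hA (Matrix.single a b (1 : F))) x) y
    rw [Matrix.mul_apply, Matrix.mul_apply,
      Finset.sum_eq_single (Function.update y r a), Finset.sum_eq_single (Function.update x r b)] at h
    · rw [site_apply_of_eq _ (fun j hj => by rw [Function.update_of_ne hj]),
        site_apply_of_eq _ (fun j hj => by rw [Function.update_of_ne hj]), Function.update_self,
        Function.update_self] at h
      simpa [Matrix.single_apply, eq_comm] using h
    · intro z _ hz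
      by_cases hz' : ∀ j, j ≠ r → x j = z j
      · rw [site_apply_of_eq _ hz', Matrix.single_apply, if_neg, zero_mul]
        rintro ⟨-, hb⟩
        exact hz (funext fun j => by
          by_cases hj : j = r
          · subst hj; rw [Function.update_self, hb]
          · rw [Function.update_of_ne hj, hz' j hj])
      · push Not at hz'
        obtain ⟨j, hj, hne⟩ := hz'
        rw [site_apply_of_ne _ hj hne, zero_mul]
    · simp
    · intro z _ hz
      by_cases hz' : ∀ j, j ≠ r → z j = y j
      · rw [site_apply_of_eq _ hz', Matrix.single_apply, if_neg, mul_zero]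
        rintro ⟨ha, -⟩
        exact hz (funext fun j => by
          by_cases hj : j = r
          · subst hj; rw [Function.update_self, ha]
          · rw [Function.update_of_ne hj, hz' j hj])
      · push Not at hz'
        obtain ⟨j, hj, hne⟩ := hz'
        rw [site_apply_of_ne _ hj hne, mul_zero]
    · simp
  refine ⟨fun hne => ?_, fun a hxy => ?_⟩
  · have := key x y (y r) (y r)
    rwa [if_pos rfl, Function.update_eq_self, if_neg hne] at this
  · have := key (Function.update x r a) y a (x r)
    rw [if_pos hxy.symm, Function.update_self, if_pos rfl, Function.update_idem,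
      Function.update_eq_self] at this
    exact this

/-! ### Rows and blocks -/

lemma site_zero_apply_cons (Y : Matrix (Fin 3) (Fin 3) F) (i j : Fin 3) (u v : Ix n) :
    site (0 : Fin (n + 1)) Y (Fin.cons i u : Ix (n + 1)) (Fin.cons j v : Ix (n + 1)) =
      if u = v then Y i j else 0 := by
  split_ifs with h
  · subst h
    rw [site_apply_of_eq _ (fun k hk => by
      obtain ⟨k', rfl⟩ := Fin.exists_succ_eq.2 hk
      simp)]
    simp
  · obtain ⟨k, hk⟩ := Function.ne_iff.1 h
    exact site_apply_of_ne _ (Fin.succ_ne_zero k) (by simpa using hk)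

lemma fr_val (i : Fin 3) : ((fr F i : GL (Fin 3) F) : Matrix (Fin 3) (Fin 3) F) =
    diagonal fun j => if j = i then (1 : F) else -1 := rfl

lemma liftMat_apply_cons (w : Matrix (Ix n) (Ix n) F) (i j : Fin 3) (u v : Ix n) :
    liftMat w (Fin.cons i u : Ix (n + 1)) (Fin.cons j v : Ix (n + 1)) =
      if i = j then w u v else 0 := by
  simp [liftMat]

lemma liftG_gs (r : Fin n) (h : GL (Fin 3) F) :
    liftG (gs r h : GL (Ix n) F) = gs r.succ h := by
  refine Units.ext (Matrix.ext fun x y => ?_)
  show liftMat (site r (h : Matrix (Fin 3) (Fin 3) F)) x y = site r.succ _ x y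
  rw [← Fin.cons_self_tail x, ← Fin.cons_self_tail y, liftMat_apply_cons, NotMax.prod_update_apply,
    NotMax.prod_update_apply]
  have he : (Finset.univ.erase r.succ : Finset (Fin (n + 1))) =
      insert 0 ((Finset.univ.erase r).image Fin.succ) := by
    ext k
    cases k using Fin.cases <;> simp [Fin.succ_ne_zero, (Fin.succ_ne_zero r).symm]
  rw [he, Finset.prod_insert (by simp [Fin.succ_ne_zero]),
    Finset.prod_image (fun a _ b _ h => Fin.succ_injective n h)]
  simp only [Fin.cons_zero, Fin.cons_succ, Fin.tail]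
  split_ifs
  · rw [one_mul]; congr 1
  · simp

lemma isBlk_liftG (w : GL (Ix n) F) :
    IsBlk (liftG w : GL (Ix (n + 1)) F) fun _ => (w : Matrix (Ix n) (Ix n) F) :=
  fun i j u v => liftMat_apply_cons _ i j u v

lemma isRow_liftG (w : GL (Ix n) F) :
    IsRow (liftG w : GL (Ix (n + 1)) F) (w : Matrix (Ix n) (Ix n) F) :=
  fun i u v => liftMat_apply_cons _ i 0 u v

lemma isRow_gs_zero {h : GL (Fin 3) F} (hh : ∀ i, i ≠ 0 → (h : Matrix (Fin 3) (Fin 3) F) i 0 = 0) :
    IsRow (gs (0 : Fin (n + 1)) h) ((h : Matrix (Fin 3) (Fin 3) F) 0 0 • 1) := by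
  intro i u v
  rw [gs_val, site_zero_apply_cons, Matrix.smul_apply, Matrix.one_apply, smul_eq_mul, mul_ite,
    mul_one, mul_zero]
  by_cases hi : i = 0
  · subst hi; simp
  · simp [hi, hh i hi]

lemma isRow_one : IsRow (1 : GL (Ix (n + 1)) F) 1 := by
  have := isRow_liftG (F := F) (n := n) 1
  simpa using this

lemma IsBlk.row {g : GL (Ix (n + 1)) F} {A : Fin 3 → Matrix (Ix n) (Ix n) F} (h : IsBlk g A) :
    IsRow g (A 0) := fun i u v => by
  rw [h]
  by_cases hi : i = 0
  · subst hi; rfl
  · rw [if_neg hi, if_neg hi]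

lemma IsRow.mul {g g' : GL (Ix (n + 1)) F} {w w' : Matrix (Ix n) (Ix n) F} (h : IsRow g w)
    (h' : IsRow g' w') : IsRow (g * g') (w * w') := by
  intro i u v
  rw [Units.val_mul, Matrix.mul_apply, sum_sigma_cons, Finset.sum_eq_single 0]
  · by_cases hi : i = 0
    · subst hi
      rw [if_pos rfl, Matrix.mul_apply]
      exact Finset.sum_congr rfl fun z _ => by rw [h, h', if_pos rfl, if_pos rfl]
    · rw [if_neg hi]
      exact Finset.sum_eq_zero fun z _ => by rw [h, if_neg hi, zero_mul]
  · intro j _ hj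
    exact Finset.sum_eq_zero fun z _ => by rw [h', if_neg hj, mul_zero]
  · simp

lemma IsRow.unique {g : GL (Ix (n + 1)) F} {w w' : Matrix (Ix n) (Ix n) F} (h : IsRow g w)
    (h' : IsRow g w') : w = w' :=
  Matrix.ext fun u v => by have := (h 0 u v).symm.trans (h' 0 u v); simpa using this

lemma IsBlk.mul {g g' : GL (Ix (n + 1)) F} {A A' : Fin 3 → Matrix (Ix n) (Ix n) F}
    (h : IsBlk g A) (h' : IsBlk g' A') : IsBlk (g * g') fun i => A i * A' i := by
  intro i j u v
  rw [Units.val_mul, Matrix.mul_apply, sum_sigma_cons, Finset.sum_eq_single i]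
  · by_cases hij : i = j
    · subst hij
      simp only [if_true, Matrix.mul_apply]
      exact Finset.sum_congr rfl fun z _ => by rw [h, h', if_pos rfl, if_pos rfl]
    · rw [if_neg hij]
      exact Finset.sum_eq_zero fun z _ => by rw [h', if_neg hij, mul_zero]
  · intro k _ hk
    exact Finset.sum_eq_zero fun z _ => by rw [h, if_neg hk.symm, zero_mul]
  · simp

lemma IsBlk.unique {g : GL (Ix (n + 1)) F} {A A' : Fin 3 → Matrix (Ix n) (Ix n) F}
    (h : IsBlk g A) (h' : IsBlk g A') (i : Fin 3) : A i = A' i :=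
  Matrix.ext fun u v => by have := (h i i u v).symm.trans (h' i i u v); simpa using this

lemma IsBlk.ext {g g' : GL (Ix (n + 1)) F} {A : Fin 3 → Matrix (Ix n) (Ix n) F}
    (h : IsBlk g A) (h' : IsBlk g' A) : g = g' :=
  Units.ext (Matrix.ext fun x y => by
    rw [← Fin.cons_self_tail x, ← Fin.cons_self_tail y, h, h'])

lemma IsBlk.inv (h2 : (2 : F) ≠ 0) {g : GL (Ix (n + 1)) F}
    {A : Fin 3 → Matrix (Ix n) (Ix n) F} (hg : g ∈ OG F (n + 1)) (h : IsBlk g A) :
    IsBlk g⁻¹ fun i => (A i)ᵀ := by
  intro i j u v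
  have e := isometry_transpose_mul h2 hg
  have e' : ((g⁻¹ : GL (Ix (n + 1)) F) : Matrix (Ix (n + 1)) (Ix (n + 1)) F) =
      (g : Matrix (Ix (n + 1)) (Ix (n + 1)) F)ᵀ := by
    exact Units.inv_eq_of_mul_eq_one_left e
  rw [e', transpose_apply, h]
  by_cases hij : i = j
  · subst hij; rw [if_pos rfl, if_pos rfl]; rfl
  · rw [if_neg hij, if_neg (Ne.symm hij)]

lemma apply_eq_zero_of_comm (h2 : (2 : F) ≠ 0) {g : GL (Ix (n + 1)) F} {k : Fin 3}
    (hc : g * fa 0 k = fa 0 k * g) {i j : Fin 3} (hij : i = k ∧ j ≠ k ∨ i ≠ k ∧ j = k)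
    (u v : Ix n) : (g : Matrix (Ix (n + 1)) (Ix (n + 1)) F)
      (Fin.cons i u : Ix (n + 1)) (Fin.cons j v : Ix (n + 1)) = 0 := by
  have h := congrArg (fun x : GL (Ix (n + 1)) F => (x : Matrix (Ix (n + 1)) (Ix (n + 1)) F)
    (Fin.cons i u : Ix (n + 1)) (Fin.cons j v : Ix (n + 1))) hc
  simp only [fa, Units.val_mul, gs_val, Matrix.mul_apply, sum_sigma_cons, site_zero_apply_cons,
    fr_val, diagonal_apply, mul_ite, ite_mul, mul_zero, zero_mul, Finset.sum_ite_eq,
    Finset.sum_ite_eq', Finset.mem_univ, if_true] at h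
  rcases hij with ⟨h1, h3⟩ | ⟨h1, h3⟩
  · rw [if_pos h1, if_neg h3] at h
    exact (mul_eq_zero.1 (by linear_combination -h : (2 : F) * _ = 0)).resolve_left h2
  · rw [if_neg h1, if_pos h3] at h
    exact (mul_eq_zero.1 (by linear_combination h : (2 : F) * _ = 0)).resolve_left h2

/-- An isometry commuting with the coordinate half turn has a row. -/
lemma exists_row (h2 : (2 : F) ≠ 0) {g : GL (Ix (n + 1)) F} (hg : g ∈ OG F (n + 1))
    (hc : g * fa 0 0 = fa 0 0 * g) :
    ∃ w ∈ OG F n, IsRow g (w : Matrix (Ix n) (Ix n) F) := by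
  set W : Matrix (Ix n) (Ix n) F := fun u v => (g : Matrix (Ix (n + 1)) (Ix (n + 1)) F)
    (Fin.cons 0 u : Ix (n + 1)) (Fin.cons 0 v : Ix (n + 1)) with hW
  have hrow : IsRow g W := fun i u v => by
    by_cases hi : i = 0
    · subst hi; rw [if_pos rfl]
    · rw [if_neg hi]; exact apply_eq_zero_of_comm h2 hc (Or.inr ⟨hi, rfl⟩) u v
  have hWW : Wᵀ * W = 1 := by
    ext u v
    have e := congrFun (congrFun (isometry_transpose_mul h2 hg) (Fin.cons 0 u : Ix (n + 1)))
      (Fin.cons 0 v : Ix (n + 1))
    rw [Matrix.mul_apply, sum_sigma_cons, Finset.sum_eq_single 0] at e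
    · rw [Matrix.mul_apply]
      simp only [transpose_apply] at e ⊢
      simpa [Matrix.one_apply, hW] using e
    · intro i _ hi
      exact Finset.sum_eq_zero fun z _ => by rw [transpose_apply, hrow, if_neg hi, zero_mul]
    · simp
  exact ⟨⟨W, Wᵀ, mul_eq_one_comm.1 hWW, hWW⟩, mem_isometry_of _ hWW, hrow⟩

/-- An isometry commuting with the coordinate frame of the first factor is block diagonal. -/
lemma exists_blk (h2 : (2 : F) ≠ 0) {g : GL (Ix (n + 1)) F} (hg : g ∈ OG F (n + 1))
    (hc : ∀ k, g * fa 0 k = fa 0 k * g) :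
    ∃ w : Fin 3 → GL (Ix n) F, (∀ i, w i ∈ OG F n) ∧
      IsBlk g fun i => (w i : Matrix (Ix n) (Ix n) F) := by
  set A : Fin 3 → Matrix (Ix n) (Ix n) F := fun i u v =>
    (g : Matrix (Ix (n + 1)) (Ix (n + 1)) F)
      (Fin.cons i u : Ix (n + 1)) (Fin.cons i v : Ix (n + 1)) with hA
  have hblk : IsBlk g A := fun i j u v => by
    by_cases hij : i = j
    · subst hij; rw [if_pos rfl]
    · rw [if_neg hij]; exact apply_eq_zero_of_comm h2 (hc i) (Or.inl ⟨rfl, Ne.symm hij⟩) u v
  have e : ∀ i, (A i)ᵀ * A i = 1 := fun i => by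
    have h := ((hblk.inv h2 hg).mul hblk).unique (A' := fun _ => 1)
      (by rw [inv_mul_cancel]; simpa using isBlk_liftG (F := F) (n := n) 1) i
    exact h
  exact ⟨fun i => ⟨A i, (A i)ᵀ, mul_eq_one_comm.1 (e i), e i⟩,
    fun i => mem_isometry_of _ (e i), hblk⟩

lemma IsBlk.comm_fa {g : GL (Ix (n + 1)) F} {A : Fin 3 → Matrix (Ix n) (Ix n) F}
    (h : IsBlk g A) (k : Fin 3) : g * fa 0 k = fa 0 k * g := by
  refine Units.ext (Matrix.ext fun x y => ?_)
  rw [← Fin.cons_self_tail x, ← Fin.cons_self_tail y]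
  simp only [fa, Units.val_mul, gs_val, Matrix.mul_apply, sum_sigma_cons, h _ _ _ _,
    site_zero_apply_cons, fr_val, diagonal_apply]
  rw [Finset.sum_eq_single (x 0), Finset.sum_eq_single (Fin.tail y),
    Finset.sum_eq_single (x 0), Finset.sum_eq_single (Fin.tail x)]
  · by_cases hxy : x 0 = y 0
    · rw [hxy]; simp only [if_true]; ring
    · simp [hxy]
  all_goals intros
  all_goals first
    | exact absurd (Finset.mem_univ _) ‹_›
    | exact Finset.sum_eq_zero fun _ _ => by simp [Ne.symm, *]
    | simp [Ne.symm, *] at *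

/-! ### Axes and their factors -/

/-- Axes of different factors are different. -/
lemma axisAt_unique (h2 : (2 : F) ≠ 0) {r s : Fin t} {x : GL (Ix t) F} (hr : IsAxisAt r x)
    (hs : IsAxisAt s x) : r = s := by
  by_contra hne
  obtain ⟨h, hh, rfl⟩ := hr
  obtain ⟨k, -, hk⟩ := hs
  refine half_not_scalar h2 hh ((k : Matrix (Fin 3) (Fin 3) F) 0 0) (Matrix.ext fun i j => ?_)
  have := congrArg (fun x : GL (Ix t) F => (x : Matrix (Ix t) (Ix t) F)
    (Function.update (fun _ => 0) r i) (Function.update (fun _ => 0) r j)) hk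
  simp only [gs_val] at this
  rw [site_apply_of_eq _ (fun l hl => by rw [Function.update_of_ne hl, Function.update_of_ne hl]),
    Function.update_self, Function.update_self] at this
  rw [this, Matrix.smul_apply, Matrix.one_apply, smul_eq_mul, mul_ite, mul_one, mul_zero]
  split_ifs with hij
  · subst hij
    rw [site_apply_of_eq _ (fun _ _ => rfl)]
    simp [Function.update_of_ne (Ne.symm hne)]
  · exact site_apply_of_ne _ hne (by simpa using hij)

lemma Moves.mul {g g' : GL (Ix t) F} {π π' : Equiv.Perm (Fin t)} (h : Moves g π)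
    (h' : Moves g' π') : Moves (g * g') (π * π') := fun r x hx => by
  have := h (π' r) _ (h' r x hx)
  rwa [show g * g' * x * (g * g')⁻¹ = g * (g' * x * g'⁻¹) * g⁻¹ by group]

lemma Moves.unique (h2 : (2 : F) ≠ 0) {g : GL (Ix t) F} {π π' : Equiv.Perm (Fin t)}
    (h : Moves g π) (h' : Moves g π') : π = π' :=
  Equiv.ext fun r => axisAt_unique h2 (h r _ (isAxisAt_fa r 0)) (h' r _ (isAxisAt_fa r 0))

lemma Moves.one : Moves (1 : GL (Ix t) F) 1 := fun r x hx => by simpa using hx

end Cfsg.Agent.MaxSub.OWT
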