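import Cfsg.Agent.MaxSub.OrthWreathThree.Slice
import Cfsg.Agent.MaxSub.OrthWreathThree.Setting
import Cfsg.Agent.MaxSub.OrthWreathThree.Items
import Cfsg.Agent.MaxSub.OrthWreathThree.Norm

/-!
An overgroup in which the centralisers of axes preserve the decomposition preserves it.
-/

set_option autoImplicit false
set_option linter.unusedSectionVars false

namespace Cfsg.Agent.MaxSub.OWT

open Matrix Cfsg.Geo Cfsg.Agent.GeoClasses
open scoped MatrixGroups

section Abstract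

variable {Γ : Type*} [Group Γ]

/-- Two involutions not conjugate under their product share a central involution. -/
lemma dihedral_pair [Finite Γ] {u v : Γ} (hu : u * u = 1) (hv : v * v = 1)
    (hnc : ∀ k : ℕ, (u * v) ^ k * u * ((u * v) ^ k)⁻¹ ≠ v) :
    ∃ c, (∃ m : ℕ, c = (u * v) ^ m) ∧ c ≠ 1 ∧ c * c = 1 ∧ c * u = u * c ∧ c * v = v * c ∧
      ((∃ k : ℕ, (u * v) ^ k * u * ((u * v) ^ k)⁻¹ = c * u) ∧
          (∃ k : ℕ, (u * v) ^ k * v * ((u * v) ^ k)⁻¹ = c * v) ∨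
        (∃ k : ℕ, (u * v) ^ k * u * ((u * v) ^ k)⁻¹ = c * v) ∧
          ∃ k : ℕ, (u * v) ^ k * v * ((u * v) ^ k)⁻¹ = c * u) := by
  set r := u * v with hr
  have hui : u⁻¹ = u := inv_eq_of_mul_eq_one_right hu
  have hvi : v⁻¹ = v := inv_eq_of_mul_eq_one_right hv
  have hur : u * r = r⁻¹ * u := by
    rw [hr, _root_.mul_inv_rev, hui, hvi, ← mul_assoc, hu, one_mul, mul_assoc, hu, mul_one]
  have hvr : v * r = r⁻¹ * v := by rw [hr, _root_.mul_inv_rev, hui, hvi, mul_assoc]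
  have hcz : ∀ z : Γ, z * r = r⁻¹ * z → ∀ k : ℕ, z * r ^ k = (r ^ k)⁻¹ * z := fun z hz k => by
    rw [← inv_pow]; exact (SemiconjBy.pow_right hz k).eq
  have hconj : ∀ z : Γ, z * r = r⁻¹ * z → ∀ k : ℕ, r ^ k * z * (r ^ k)⁻¹ = r ^ (k + k) * z := by
    intro z hz k
    rw [mul_inv_eq_iff_eq_mul, mul_assoc (r ^ (k + k)), hcz z hz, pow_add, ← mul_assoc,
      mul_inv_cancel_right]
  have hm := pow_orderOf_eq_one r
  have hpos := orderOf_pos r
  rcases Nat.even_or_odd' (orderOf r) with ⟨l, hl | hl⟩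
  · have hlm : r ^ l * r ^ l = 1 := by rw [← pow_add, ← two_mul, ← hl, hm]
    have hinv : (r ^ l)⁻¹ = r ^ l := inv_eq_of_mul_eq_one_right hlm
    refine ⟨r ^ l, ⟨l, rfl⟩, fun h => ?_, hlm, by rw [hcz u hur, hinv],
      by rw [hcz v hvr, hinv], ?_⟩
    · have := Nat.le_of_dvd (by omega) (orderOf_dvd_of_pow_eq_one h)
      omega
    rcases Nat.even_or_odd' l with ⟨j, hj | hj⟩
    · exact Or.inl ⟨⟨j, by rw [hconj u hur, hj, two_mul]⟩, ⟨j, by rw [hconj v hvr, hj, two_mul]⟩⟩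
    · refine Or.inr ⟨⟨j, ?_⟩, ⟨j + 1, ?_⟩⟩
      · rw [hconj u hur, hj, pow_succ, two_mul, mul_assoc _ r v, hr, mul_assoc u v v, hv, mul_one]
      · have hrv : r * v = u := by rw [hr, mul_assoc, hv, mul_one]
        rw [hconj v hvr, hj, show j + 1 + (j + 1) = 2 * j + 1 + 1 by omega, pow_succ _ (2 * j + 1),
          mul_assoc, hrv]
  · exfalso
    refine hnc l ?_
    rw [hl, two_mul, pow_succ] at hm
    rw [hconj u hur, eq_inv_of_mul_eq_one_left hm, hr, _root_.mul_inv_rev, hui, hvi, mul_assoc, hu,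
      mul_one]

lemma conj_mul_conj (g x y : Γ) : g * x * g⁻¹ * (g * y * g⁻¹) = g * (x * y) * g⁻¹ := by group

lemma conj_conj (g h x : Γ) : g * (h * x * h⁻¹) * g⁻¹ = g * h * x * (g * h)⁻¹ := by group

lemma conj_commute {g x : Γ} (h : g * x = x * g) : g * x * g⁻¹ = x := by
  rw [h, mul_inv_cancel_right]

lemma commute_of_conj {g x : Γ} (h : g * x * g⁻¹ = x) : g * x = x * g :=
  mul_inv_eq_iff_eq_mul.1 h

lemma conj_comm_iff (h : Γ) {x y : Γ} (e : x * y = y * x) :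
    h * x * h⁻¹ * (h * y * h⁻¹) = h * y * h⁻¹ * (h * x * h⁻¹) := by
  rw [conj_mul_conj, conj_mul_conj, e]

lemma inv_conj_conj (h x : Γ) : h⁻¹ * (h * x * h⁻¹) * h = x := by group

end Abstract

variable {F : Type*} [Field F] [Finite F] {t : ℕ} {X : Subgroup (GL (Ix t) F)}

lemma axis_mem_WO (h2 : (2 : F) ≠ 0) {x : GL (Ix t) F} (hx : IsAxis x) : x ∈ WO F t := by
  obtain ⟨r, h, hh, rfl⟩ := hx
  have hm := half_mem h2 hh
  exact ⟨gs_mem_Wr h2 r (U3m_le hm), (gs_mem_Om_iff h2 r (U3m_le hm)).2 hm⟩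

lemma axis_mul_self {x : GL (Ix t) F} (hx : IsAxis x) : x * x = 1 := by
  obtain ⟨r, h, hh, rfl⟩ := hx
  rw [← map_mul, half_mul_self hh, map_one]

lemma axisAt_comm {r s : Fin t} (hrs : r ≠ s) {x y : GL (Ix t) F} (hx : IsAxisAt r x)
    (hy : IsAxisAt s y) : x * y = y * x := by
  obtain ⟨h, -, rfl⟩ := hx
  obtain ⟨k, -, rfl⟩ := hy
  exact gs_comm hrs h k

lemma axisAt_mul (h2 : (2 : F) ≠ 0) {r : Fin t} {x y : GL (Ix t) F} (hx : IsAxisAt r x)
    (hy : IsAxisAt r y) (hc : x * y = y * x) (hne : x ≠ y) : IsAxisAt r (x * y) := by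
  obtain ⟨h, hh, rfl⟩ := hx
  obtain ⟨k, hk, rfl⟩ := hy
  have hcm : h * k = k * h := gs_injective r (by rw [map_mul, map_mul, hc])
  refine ⟨h * k, isHalf_of_invol h2 ((U3m F).mul_mem (half_mem h2 hh) (half_mem h2 hk)) ?_ ?_,
    (map_mul _ _ _).symm⟩
  · rw [mul_assoc, ← mul_assoc k, ← hcm, mul_assoc h k k, half_mul_self hk, mul_one,
      half_mul_self hh]
  · intro h1
    refine hne (congrArg (gs r) ?_)
    rw [eq_inv_of_mul_eq_one_left h1, inv_eq_of_mul_eq_one_right (half_mul_self hk)]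

section Stages

variable (h2 : (2 : F) ≠ 0) (hq : 5 ≤ Nat.card F) (ht : 3 ≤ t) (hX : Good X) (hA : AxisC X)
include h2 hq ht hX hA

lemma item_of_conj {h x : GL (Ix t) F} (hh : h ∈ X) (hx : IsAxis x)
    (hw : h * x * h⁻¹ ∈ Wr F t) : IsItem (h * x * h⁻¹) :=
  ⟨⟨hw, hX.top (X.mul_mem (X.mul_mem hh (hX.le (axis_mem_WO h2 hx))) (X.inv_mem hh))⟩,
    by rw [conj_mul_conj, axis_mul_self hx, mul_one, mul_inv_cancel], h, x, hx, rfl⟩

/-- A conjugate of an axis in the stabiliser is an axis. -/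
lemma conj_axis {h x : GL (Ix t) F} (hh : h ∈ X) (hx : IsAxis x) (hw : h * x * h⁻¹ ∈ Wr F t) :
    IsAxis (h * x * h⁻¹) ∧ h ∈ Wr F t := by
  have hwo : ∀ {y : GL (Ix t) F}, IsAxis y → y ∈ X := fun hy => hX.le (axis_mem_WO h2 hy)
  have hax : IsAxis (h * x * h⁻¹) := by
    rcases item_cases h2 (by omega) (item_of_conj h2 hq ht hX hA hh hx hw) with
      h1 | ⟨i, j, hij, hmv, hc⟩
    · exact h1
    obtain ⟨r, hr⟩ : (({i, j} : Finset (Fin t))ᶜ).Nonempty := by
      rw [← Finset.card_pos, Finset.card_compl, Fintype.card_fin]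
      have := Finset.card_le_two (a := i) (b := j)
      omega
    simp only [Finset.mem_compl, Finset.mem_insert, Finset.mem_singleton, not_or] at hr
    obtain ⟨hri, hrj⟩ := hr
    set y : GL (Ix t) F := fa r 0 with hy
    have hyA : IsAxis (y : GL (Ix t) F) := ⟨r, isAxisAt_fa r 0⟩
    have hσy : h * x * h⁻¹ * y = y * (h * x * h⁻¹) := hc r hri hrj _
    set L := h⁻¹ * y * h with hL
    have hLX : L ∈ X := X.mul_mem (X.mul_mem (X.inv_mem hh) (hwo hyA)) hh
    have hLx : L * x = x * L := by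
      have := conj_comm_iff h⁻¹ hσy
      simp only [inv_inv, inv_conj_conj] at this
      exact this.symm
    have hLW := hA L hLX x hx hLx
    have hLI : IsItem L := by
      have := item_of_conj h2 hq ht hX hA (X.inv_mem hh) hyA (by rwa [inv_inv])
      rwa [inv_inv] at this
    by_cases hLxe : L = x
    · rw [← hLxe, hL]
      simpa [mul_assoc] using hyA
    obtain ⟨r0, hr0⟩ := hx
    obtain ⟨b, hb, hbx, hbne, hLb⟩ :
        ∃ b, IsAxisAt r0 b ∧ b * x = x * b ∧ b ≠ x ∧ L * b = b * L := by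
      obtain ⟨h0, hh0, rfl⟩ := hr0
      obtain ⟨g, hg, rfl⟩ := exists_conj_half h2 hh0
      have hb : IsAxisAt r0 (gs r0 (g * fr F 1 * g⁻¹) : GL (Ix t) F) :=
        ⟨_, isHalf_conj hg (isHalf_fr 1), rfl⟩
      have hb1 : gs r0 (g * fr F 1 * g⁻¹) * gs r0 (g * fr F 0 * g⁻¹) =
          gs r0 (g * fr F 0 * g⁻¹) * gs r0 (g * fr F 1 * g⁻¹) := by
        rw [← map_mul, ← map_mul, conj_mul_conj, conj_mul_conj,
          fr_mul (by decide) (by decide) (by decide : (0 : Fin 3) ≠ 2),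
          fr_mul (by decide) (by decide) (by decide : (1 : Fin 3) ≠ 2)]
      have hb2 : (gs r0 (g * fr F 1 * g⁻¹) : GL (Ix t) F) ≠ gs r0 (g * fr F 0 * g⁻¹) := fun e => by
        have e' : fr F 1 = fr F 0 := mul_left_cancel (mul_right_cancel (gs_injective r0 e))
        have := congrArg (fun a : GL (Fin 3) F => (a : Matrix (Fin 3) (Fin 3) F) 0 0) e'
        simp [fr_val] at this
        exact one_ne_neg_one h2 this.symm
      rcases item_cases h2 (by omega) hLI with ⟨s, hs⟩ | ⟨k, l, hkl, hmv', hc'⟩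
      · by_cases hsr : s = r0
        · subst hsr
          exact ⟨L, hs, hLx, hLxe, rfl⟩
        · exact ⟨_, hb, hb1, hb2, axisAt_comm hsr hs hb⟩
      · have h0 : IsAxisAt r0 (gs r0 (g * fr F 0 * g⁻¹) : GL (Ix t) F) := ⟨_, hh0, rfl⟩
        have h' := hmv' r0 _ h0
        rw [conj_commute hLx] at h'
        have hfix : Equiv.swap k l r0 = r0 := axisAt_unique h2 h' h0
        refine ⟨_, hb, hb1, hb2, hc' r0 ?_ ?_ _⟩
        · rintro rfl
          rw [Equiv.swap_apply_left] at hfix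
          exact hkl hfix.symm
        · rintro rfl
          rw [Equiv.swap_apply_right] at hfix
          exact hkl hfix
    have hcy : h * b * h⁻¹ * y = y * (h * b * h⁻¹) := by
      have := conj_comm_iff h hLb
      rw [show h * L * h⁻¹ = y by rw [hL]; group] at this
      exact this.symm
    have hbW := hA _ (X.mul_mem (X.mul_mem hh (hwo ⟨r0, hb⟩)) (X.inv_mem hh)) y hyA hcy
    have hxb : IsAxis (x * b) := ⟨r0, axisAt_mul h2 hr0 hb hbx.symm hbne.symm⟩
    have h1 := item_of_conj h2 hq ht hX hA hh ⟨r0, hb⟩ hbW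
    have h3 : IsItem (h * x * h⁻¹ * (h * b * h⁻¹)) := by
      rw [conj_mul_conj]
      refine item_of_conj h2 hq ht hX hA hh hxb ?_
      rw [← conj_mul_conj]
      exact (Wr F t).mul_mem hw hbW
    exact (axes_triple h2 hq (item_of_conj h2 hq ht hX hA hh ⟨r0, hr0⟩ hw) h1 h3).1
  refine ⟨hax, ?_⟩
  obtain ⟨r, hr⟩ := hax
  obtain ⟨r0, hr0⟩ := hx
  obtain ⟨w, hw', he⟩ := exists_conj_axis h2 hr0 hr
  have hc : (w⁻¹ * h) * x = x * (w⁻¹ * h) := by
    refine commute_of_conj ?_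
    rw [← conj_conj, ← he]
    group
  have := hA _ (X.mul_mem (X.inv_mem (hX.le hw')) hh) x ⟨r0, hr0⟩ hc
  simpa using (Wr F t).mul_mem hw'.1 this

lemma axis_of_mem {s h x : GL (Ix t) F} (hh : h ∈ X) (hx : IsAxis x) (e : h * x * h⁻¹ = s)
    (hs : s ∈ Wr F t) : IsAxis s := by
  subst e
  exact (conj_axis h2 hq ht hX hA hh hx hs).1

/-- An axis whose product with a commuting product of two axes is an axis is one of them. -/
lemma eq_of_mul_two {r s : Fin t} (hrs : r ≠ s) {x y q : GL (Ix t) F} (hx : IsAxisAt r x)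
    (hy : IsAxisAt s y) (hq' : IsAxis q) (hc : q * (x * y) = x * y * q)
    (hz : IsAxis (q * (x * y))) : q = x ∨ q = y := by
  obtain ⟨p, hp⟩ := hq'
  by_cases hpr : p = r
  · subst hpr
    have hqy := axisAt_comm hrs hp hy
    have hqx : q * x = x * q := by
      rw [← mul_assoc, mul_assoc x, ← hqy, ← mul_assoc] at hc
      exact mul_right_cancel hc
    by_contra hne
    push Not at hne
    exact two_not_conj_axis h2 hrs (axisAt_mul h2 hp hx hqx hne.1) hy hz 1 (by simp [mul_assoc])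
  by_cases hps : p = s
  · subst hps
    have hqx := axisAt_comm hrs.symm hp hx
    have hqy : q * y = y * q := by
      rw [← mul_assoc, hqx, mul_assoc, mul_assoc] at hc
      exact mul_left_cancel hc
    by_contra hne
    push Not at hne
    refine two_not_conj_axis h2 hrs hx (axisAt_mul h2 hp hy hqy hne.2) hz 1 ?_
    rw [one_mul, inv_one, mul_one, ← mul_assoc, ← hqx, mul_assoc]
  exact absurd (show (1 : GL (Ix t) F) * (q * x * y) * 1⁻¹ = q * (x * y) by simp [mul_assoc])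
    (three_not_conj_axis h2 hpr hps hrs hp hx hy hz 1)

/-- Members centralising a product of two axes preserve the decomposition. -/
theorem cent_two {r s : Fin t} (hrs : r ≠ s) {x y g : GL (Ix t) F} (hx : IsAxisAt r x)
    (hy : IsAxisAt s y) (hg : g ∈ X) (hc : g * (x * y) = x * y * g) : g ∈ Wr F t := by
  have hwo : ∀ {y : GL (Ix t) F}, IsAxis y → y ∈ X := fun hy => hX.le (axis_mem_WO h2 hy)
  obtain ⟨v, hv⟩ : ∃ v, v = g * x * g⁻¹ := ⟨_, rfl⟩
  by_cases hvW : v ∈ Wr F t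
  · exact (conj_axis h2 hq ht hX hA hg ⟨r, hx⟩ (hv ▸ hvW)).2
  exfalso
  obtain ⟨z, hz⟩ : ∃ z, z = x * y := ⟨_, rfl⟩
  rw [← hz] at hc
  have hgz : g * z * g⁻¹ = z := conj_commute hc
  have hxy := axisAt_comm hrs hx hy
  have hzx : z * x = x * z := by
    rw [hz, mul_assoc, ← hxy, ← mul_assoc]
  have hvz : v * z = g * y * g⁻¹ := by
    conv_lhs => rw [← hgz, hv, conj_mul_conj, hz, ← mul_assoc x x y, axis_mul_self ⟨r, hx⟩, one_mul]
  have hvcz : v * z = z * v := by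
    have := conj_comm_iff g hzx.symm
    rwa [hgz, ← hv] at this
  -- an axis in the factor `r` orthogonal to `x`
  obtain ⟨b, hb, hbx, hbne⟩ : ∃ b, IsAxisAt r b ∧ b * x = x * b ∧ b ≠ x := by
    obtain ⟨h0, hh0, rfl⟩ := hx
    obtain ⟨k, hk, rfl⟩ := exists_conj_half h2 hh0
    refine ⟨gs r (k * fr F 1 * k⁻¹), ⟨_, isHalf_conj hk (isHalf_fr 1), rfl⟩, ?_, fun e => ?_⟩
    · rw [← map_mul, ← map_mul, conj_mul_conj, conj_mul_conj,
        fr_mul (by decide) (by decide) (by decide : (0 : Fin 3) ≠ 2),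
        fr_mul (by decide) (by decide) (by decide : (1 : Fin 3) ≠ 2)]
    · have e' : fr F 1 = fr F 0 := mul_left_cancel (mul_right_cancel (gs_injective r e))
      have := congrArg (fun a : GL (Fin 3) F => (a : Matrix (Fin 3) (Fin 3) F) 0 0) e'
      simp [fr_val] at this
      exact one_ne_neg_one h2 this.symm
  have hbX := hwo ⟨r, hb⟩
  have hvX : v ∈ X := hv ▸ X.mul_mem (X.mul_mem hg (hwo ⟨r, hx⟩)) (X.inv_mem hg)
  have hbz : b * z = z * b := by
    rw [hz, ← mul_assoc, hbx, mul_assoc, axisAt_comm hrs hb hy, ← mul_assoc]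
  have hbb := axis_mul_self ⟨r, hb⟩
  have hvv : v * v = 1 := by
    rw [hv, conj_mul_conj, axis_mul_self ⟨r, hx⟩, mul_one, mul_inv_cancel]
  have hbzT : ∃ b', IsAxisAt r b' ∧ b * z = b' * y :=
    ⟨b * x, axisAt_mul h2 hb hx hbx hbne, by rw [hz, mul_assoc]⟩
  have hpow : ∀ k : ℕ, (b * v) ^ k * z = z * (b * v) ^ k := fun k =>
    ((Commute.mul_left hbz hvcz).pow_left k).eq
  have hpX : ∀ k : ℕ, (b * v) ^ k ∈ X := fun k => X.pow_mem (X.mul_mem hbX hvX) k
  obtain ⟨c, ⟨m, hm⟩, hc1, hcc, hcb, hcv, hcase⟩ := dihedral_pair hbb hvv (fun k hk => by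
    obtain ⟨b', hb', e⟩ := hbzT
    refine two_not_conj_axis h2 hrs hb' hy ⟨s, hy⟩ (g⁻¹ * (b * v) ^ k) ?_
    rw [← e]
    calc g⁻¹ * (b * v) ^ k * (b * z) * (g⁻¹ * (b * v) ^ k)⁻¹
        = g⁻¹ * ((b * v) ^ k * b * ((b * v) ^ k)⁻¹ * ((b * v) ^ k * z * ((b * v) ^ k)⁻¹)) * g := by
          group
      _ = g⁻¹ * (v * z) * g := by rw [hk, conj_commute (hpow k)]
      _ = y := by rw [hvz]; group)
  have hcX : c ∈ X := hm ▸ hpX m
  have hcW := hA c hcX b ⟨r, hb⟩ hcb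
  have hcz : c * z = z * c := hm ▸ hpow m
  rcases hcase with ⟨⟨k, hk⟩, ⟨k', hk'⟩⟩ | ⟨-, ⟨k', hk'⟩⟩
  · set L := g⁻¹ * (c * v) * g with hL
    have hLX : L ∈ X := X.mul_mem (X.mul_mem (X.inv_mem hg) (X.mul_mem hcX hvX)) hg
    have hLx : L * x = x * L := by
      have h1 : c * v * v = v * (c * v) := by rw [← mul_assoc v, ← hcv]
      have := conj_comm_iff g⁻¹ h1
      simp only [inv_inv, hv, inv_conj_conj] at this
      rwa [hL, hv]
    have hLW := hA L hLX x ⟨r, hx⟩ hLx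
    have hLA : IsAxis L := axis_of_mem h2 hq ht hX hA (X.mul_mem (X.inv_mem hg)
      (X.mul_mem (hpX k') hg)) ⟨r, hx⟩ (by
        rw [hL, ← hk', hv]; group) hLW
    have hLzc : L * (x * y) = x * y * L := by
      have := conj_comm_iff g⁻¹ (x := c * v) (y := z)
        (Commute.mul_left hcz hvcz).eq
      simp only [inv_inv] at this
      rw [← hz]
      rwa [show g⁻¹ * z * g = z by rw [mul_assoc, ← hc, inv_mul_cancel_left]] at this
    have hLzA : IsAxis (L * (x * y)) := by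
      refine axis_of_mem h2 hq ht hX hA (X.mul_mem (X.inv_mem hg) (X.mul_mem (hpX k') hg))
        ⟨s, hy⟩ ?_ ((Wr F t).mul_mem hLW ((Wr F t).mul_mem (axis_mem_WO h2 ⟨r, hx⟩).1
          (axis_mem_WO h2 ⟨s, hy⟩).1))
      calc _ = g⁻¹ * ((b * v) ^ k' * (g * y * g⁻¹) * ((b * v) ^ k')⁻¹) * g := by group
        _ = g⁻¹ * (c * v * z) * g := by
          rw [← hvz, ← conj_mul_conj, conj_commute (hpow k'), hk']
        _ = L * (g⁻¹ * z * g) := by rw [hL]; group
        _ = L * (x * y) := by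
          rw [show g⁻¹ * z * g = z by rw [mul_assoc, ← hc, inv_mul_cancel_left], hz]
    rcases eq_of_mul_two h2 hq ht hX hA hrs hx hy hLA hLzc hLzA with h | h
    · have e : c * v = v := by
        calc c * v = g * L * g⁻¹ := by rw [hL]; group
          _ = v := by rw [h, ← hv]
      exact hc1 (mul_eq_right.1 e)
    · have e : c * v = v * z := by
        calc c * v = g * L * g⁻¹ := by rw [hL]; group
          _ = v * z := by rw [h, ← hvz]
      have hcz' : c = z := by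
        calc c = c * v * v := by rw [mul_assoc, hvv, mul_one]
          _ = v * z * v := by rw [e]
          _ = z := by rw [hvcz, mul_assoc, hvv, mul_one]
      obtain ⟨b', hb', e'⟩ := hbzT
      refine two_not_conj_axis h2 hrs hb' hy ⟨r, hb⟩ ((b * v) ^ k)⁻¹ ?_
      rw [← e', hbz, ← hcz', ← hk]
      group
  · set q := c * b with hq'
    have hqW : q ∈ Wr F t := (Wr F t).mul_mem hcW (axis_mem_WO h2 ⟨r, hb⟩).1
    have hqA : IsAxis q := axis_of_mem h2 hq ht hX hA (X.mul_mem (hpX k') hg) ⟨r, hx⟩ (by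
      rw [← conj_conj, ← hv, hk']) hqW
    have hqzA : IsAxis (q * (x * y)) := by
      refine axis_of_mem h2 hq ht hX hA (X.mul_mem (hpX k') hg) ⟨s, hy⟩ ?_
        ((Wr F t).mul_mem hqW ((Wr F t).mul_mem (axis_mem_WO h2 ⟨r, hx⟩).1
          (axis_mem_WO h2 ⟨s, hy⟩).1))
      rw [← conj_conj, ← hvz, ← hz, ← conj_mul_conj, conj_commute (hpow k'), hk']
    have hqz : q * (x * y) = x * y * q := by rw [← hz, hq']; exact (Commute.mul_left hcz hbz).eq
    have hcq : c = q * b := by rw [hq', mul_assoc, hbb, mul_one]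
    rcases eq_of_mul_two h2 hq ht hX hA hrs hx hy hqA hqz hqzA with h | h
    · refine hvW (hA v hvX c ?_ hcv.symm)
      rw [hcq, h]
      exact ⟨r, axisAt_mul h2 hx hb hbx.symm hbne.symm⟩
    · refine hvW (hA v hvX (c * z) ?_ (Commute.mul_right hcv.symm hvcz).eq)
      rw [hcq, h, hz, ← axisAt_comm hrs hb hy, mul_assoc b y, hxy, ← mul_assoc y y,
        axis_mul_self ⟨s, hy⟩, one_mul]
      exact ⟨r, axisAt_mul h2 hb hx hbx hbne⟩

lemma mem_of_comm_pair {p q g : GL (Ix t) F} (hp : IsAxis p) (hq' : IsAxis q)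
    (hpq : p * q = q * p) (hne : p ≠ q) (hg : g ∈ X) (hc : g * (p * q) = p * q * g) :
    g ∈ Wr F t := by
  obtain ⟨i, hi⟩ := hp
  obtain ⟨j, hj⟩ := hq'
  by_cases hij : i = j
  · subst hij
    exact hA g hg _ ⟨i, axisAt_mul h2 hi hj hpq hne⟩ hc
  · exact cent_two h2 hq ht hX hA hij hi hj hg hc

lemma mem_WO_of_two {r s : Fin t} {x y : GL (Ix t) F} (hx : IsAxisAt r x) (hy : IsAxisAt s y) :
    x * y ∈ WO F t :=
  (WO F t).mul_mem (axis_mem_WO h2 ⟨r, hx⟩) (axis_mem_WO h2 ⟨s, hy⟩)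

/-- A conjugate of a product of two axes in the stabiliser commuting with an axis is one. -/
lemma two_of_mem {r s : Fin t} (hrs : r ≠ s) {x y h u q : GL (Ix t) F} (hx : IsAxisAt r x)
    (hy : IsAxisAt s y) (hh : h ∈ X) (e : h * (x * y) * h⁻¹ = q) (hu : IsAxis u)
    (_hqW : q ∈ Wr F t) (hc : u * q = q * u) :
    ∃ (i j : Fin t) (p p' : GL (Ix t) F), i ≠ j ∧ IsAxisAt i p ∧ IsAxisAt j p' ∧ q = p * p' := by
  have huX : u ∈ X := hX.le (axis_mem_WO h2 hu)
  have h1 : h⁻¹ * u * h * (x * y) = x * y * (h⁻¹ * u * h) := by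
    have := conj_comm_iff h⁻¹ hc
    simpa [← e, mul_assoc] using this
  have h3 := cent_two h2 hq ht hX hA hrs hx hy (X.mul_mem (X.mul_mem (X.inv_mem hh) huX) hh) h1
  have h4 := (conj_axis h2 hq ht hX hA (X.inv_mem hh) hu (by rwa [inv_inv])).2
  obtain ⟨π, hπ⟩ := moves_of_mem_Wr h2 ((inv_mem_iff (H := Wr F t)).1 h4)
  exact ⟨π r, π s, h * x * h⁻¹, h * y * h⁻¹, π.injective.ne hrs, hπ r x hx, hπ s y hy,
    by rw [conj_mul_conj, e]⟩

/-- An overgroup in which centralisers of axes preserve the decomposition preserves it. -/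
theorem le_Wr : X ≤ Wr F t := by
  intro h hh
  by_contra hhW
  have hwo : ∀ {y : GL (Ix t) F}, IsAxis y → y ∈ X := fun hy => hX.le (axis_mem_WO h2 hy)
  obtain ⟨r, s, hrs⟩ : ∃ r s : Fin t, r ≠ s := ⟨⟨0, by omega⟩, ⟨1, by omega⟩, by simp [Fin.ext_iff]⟩
  -- a conjugate of a product of two axes outside the stabiliser
  obtain ⟨y, hy, hvW⟩ : ∃ y, IsAxisAt s y ∧ h * (fa r 0 * y) * h⁻¹ ∉ Wr F t := by
    by_contra hcon
    push Not at hcon
    have h1 := hcon _ (isAxisAt_fa s 0)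
    have h1' := hcon _ (isAxisAt_fa s 1)
    have h3 := (Wr F t).mul_mem h1 h1'
    rw [conj_mul_conj] at h3
    have e : fa r 0 * fa s 0 * (fa r 0 * fa s 1) = (fa s 0 * fa s 1 : GL (Ix t) F) := by
      rw [← mul_assoc, mul_assoc (fa r 0) (fa s 0), axisAt_comm hrs.symm (isAxisAt_fa s 0)
        (isAxisAt_fa r 0), ← mul_assoc, axis_mul_self ⟨r, isAxisAt_fa r 0⟩, one_mul]
    rw [e, fa, fa, ← map_mul, fr_mul (by decide) (by decide) (by decide : (1 : Fin 3) ≠ 2)] at h3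
    exact hhW (conj_axis h2 hq ht hX hA hh ⟨s, isAxisAt_fa s 2⟩ h3).2
  obtain ⟨x, hxdef⟩ : ∃ x : GL (Ix t) F, x = fa r 0 := ⟨_, rfl⟩
  rw [← hxdef] at hvW
  have hx : IsAxisAt r x := hxdef ▸ isAxisAt_fa r 0
  obtain ⟨v, hv⟩ : ∃ v, v = h * (x * y) * h⁻¹ := ⟨_, rfl⟩
  rw [← hv] at hvW
  have hxy := axisAt_comm hrs hx hy
  have hzz : x * y * (x * y) = 1 := by
    rw [mul_assoc, ← mul_assoc y, ← hxy, mul_assoc x y y, axis_mul_self ⟨s, hy⟩, mul_one,
      axis_mul_self ⟨r, hx⟩]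
  have hvv : v * v = 1 := by rw [hv, conj_mul_conj, hzz, mul_one, mul_inv_cancel]
  have hvX : v ∈ X :=
    hv ▸ X.mul_mem (X.mul_mem hh (hX.le (mem_WO_of_two h2 hq ht hX hA hx hy))) (X.inv_mem hh)
  -- an axis is not conjugate to `v`
  have hncj : ∀ u c, IsAxis u → c * u * c⁻¹ ≠ v := fun u c hu e => by
    refine two_not_conj_axis h2 hrs hx hy hu (c⁻¹ * h) ?_
    rw [← conj_conj, ← hv, ← e]
    group
  -- the first central involution
  obtain ⟨c, ⟨m, hm⟩, hc1, hcc, hcu, hcv, hcase⟩ :=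
    dihedral_pair (axis_mul_self ⟨r, hx⟩) hvv fun k hk => hncj x _ ⟨r, hx⟩ hk
  have hxX := hwo ⟨r, hx⟩
  have hpX : ∀ k : ℕ, (x * v) ^ k ∈ X := fun k => X.pow_mem (X.mul_mem hxX hvX) k
  have hcW := hA c (hm ▸ hpX m) x ⟨r, hx⟩ hcu
  have hcuW : c * x ∈ Wr F t := (Wr F t).mul_mem hcW (axis_mem_WO h2 ⟨r, hx⟩).1
  have hxx := axis_mul_self ⟨r, hx⟩
  have hxcx : x * (c * x) = c * x * x := by rw [← mul_assoc, ← hcu]
  have hce : c = c * x * x := by rw [mul_assoc, hxx, mul_one]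
  rcases hcase with ⟨⟨k, hk⟩, -⟩ | ⟨⟨k, hk⟩, ⟨k', hk'⟩⟩
  · -- the centraliser of a product of two axes
    refine hvW (mem_of_comm_pair h2 hq ht hX hA
      (axis_of_mem h2 hq ht hX hA (hpX k) ⟨r, hx⟩ hk hcuW) ⟨r, hx⟩ hxcx.symm
      (fun e => hc1 (mul_eq_right.1 e)) hvX ?_)
    rw [← hce, hcv]
  obtain ⟨i, j, P, Q, hij, hP, hQ, hPQ⟩ := two_of_mem h2 hq ht hX hA hrs hx hy
    (X.mul_mem (hpX k') hh) (show (x * v) ^ k' * h * (x * y) * ((x * v) ^ k' * h)⁻¹ = c * x by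
      rw [← conj_conj, ← hv, hk']) ⟨r, hx⟩ hcuW hxcx
  have hPQc := axisAt_comm hij hP hQ
  rw [hPQ] at hce hxcx
  have hvc : v * c = c * v := hcv.symm
  by_cases hir : i = r
  · subst hir
    have hxQ := axisAt_comm hij hx hQ
    have hxP : P * x = x * P := by
      refine mul_right_cancel (b := Q) ?_
      rw [mul_assoc, hxQ, ← mul_assoc, mul_assoc x P Q]
      exact hxcx.symm
    by_cases hPx : P = x
    · rw [hPx, mul_assoc, ← hxQ, ← mul_assoc, hxx, one_mul] at hce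
      exact hvW (hA v hvX Q ⟨j, hQ⟩ (hce ▸ hvc))
    · have e : c = P * x * Q := by rw [hce, mul_assoc, ← hxQ, ← mul_assoc]
      exact hvW (cent_two h2 hq ht hX hA hij (axisAt_mul h2 hP hx hxP hPx) hQ hvX (e ▸ hvc))
  by_cases hjr : j = r
  · subst hjr
    have hxP := axisAt_comm (Ne.symm hij) hx hP
    have hxQ : Q * x = x * Q := by
      refine mul_left_cancel (a := P) ?_
      rw [← mul_assoc, ← mul_assoc P x, ← hxP, mul_assoc x P Q]
      exact hxcx.symm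
    by_cases hQx : Q = x
    · rw [hQx, mul_assoc, hxx, mul_one] at hce
      exact hvW (hA v hvX P ⟨i, hP⟩ (hce ▸ hvc))
    · have e : c = P * (Q * x) := by rw [hce, mul_assoc]
      exact hvW (cent_two h2 hq ht hX hA hij hP (axisAt_mul h2 hQ hx hxQ hQx) hvX (e ▸ hvc))
  -- three axes
  obtain ⟨b, hbdef⟩ : ∃ b : GL (Ix t) F, b = fa r 1 := ⟨_, rfl⟩
  have hb : IsAxisAt r b := hbdef ▸ isAxisAt_fa r 1
  have hbx : b * x = (fa r 2 : GL (Ix t) F) := by
    rw [hbdef, hxdef, fa, fa, ← map_mul,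
      fr_mul (by decide) (by decide) (by decide : (0 : Fin 3) ≠ 2)]
    rfl
  have hxb : x * b = (fa r 2 : GL (Ix t) F) := by
    rw [hbdef, hxdef, fa, fa, ← map_mul,
      fr_mul (by decide) (by decide) (by decide : (1 : Fin 3) ≠ 2)]
    rfl
  have hce' : c = x * P * Q := by rw [mul_assoc, hxcx, ← hce]
  have hbc : b * c = fa r 2 * P * Q := by rw [hce', ← mul_assoc, ← mul_assoc, hbx]
  have hcb' : b * c = c * b := by
    rw [hbc, hce', mul_assoc _ Q b, axisAt_comm hjr hQ hb, ← mul_assoc _ b Q, mul_assoc x P b,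
      axisAt_comm hir hP hb, ← mul_assoc x b P, hxb]
  obtain ⟨d, ⟨m', hm'⟩, hd1, hdd, hdb, hdv, hdcase⟩ :=
    dihedral_pair (axis_mul_self ⟨r, hb⟩) hvv fun k hk => hncj b _ ⟨r, hb⟩ hk
  have hbvX : ∀ k : ℕ, (b * v) ^ k ∈ X := fun k => X.pow_mem (X.mul_mem (hwo ⟨r, hb⟩) hvX) k
  have hbvc : ∀ k : ℕ, (b * v) ^ k * c = c * (b * v) ^ k := fun k =>
    ((Commute.mul_left hcb' hvc).pow_left k).eq
  have hdW := hA d (hm' ▸ hbvX m') b ⟨r, hb⟩ hdb
  have hbW := (axis_mem_WO h2 ⟨r, hb⟩).1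
  have hbb := axis_mul_self ⟨r, hb⟩
  rcases hdcase with ⟨⟨l, hl⟩, -⟩ | ⟨-, ⟨l', hl'⟩⟩
  · have hd : d = d * b * b := by rw [mul_assoc, hbb, mul_one]
    refine hvW (mem_of_comm_pair h2 hq ht hX hA
      (axis_of_mem h2 hq ht hX hA (hbvX l) ⟨r, hb⟩ hl ((Wr F t).mul_mem hdW hbW)) ⟨r, hb⟩
      (by rw [← mul_assoc b, ← hdb]) (fun e => hd1 (mul_eq_right.1 e)) hvX ?_)
    rw [← hd, hdv]
  · -- `d * b` is conjugate to `v`
    have hdc : d * c = c * d := hm' ▸ hbvc m'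
    obtain ⟨p, hpdef⟩ : ∃ p, p = d * b * c := ⟨_, rfl⟩
    have hpW : p ∈ Wr F t := hpdef ▸ (Wr F t).mul_mem ((Wr F t).mul_mem hdW hbW) hcW
    have hpA : IsAxis p := axis_of_mem h2 hq ht hX hA (X.mul_mem (hbvX l') (hpX k)) ⟨r, hx⟩ (by
      rw [← conj_conj, hk, ← conj_mul_conj, conj_commute (hbvc l'), hl', hpdef, hdb,
        ← mul_assoc c, ← hcb', mul_assoc b c d, ← hdc, ← mul_assoc]) hpW
    have hpb : p * b = b * p := by
      rw [hpdef]
      exact ((Commute.mul_left (Commute.mul_left hdb (Commute.refl b)) hcb'.symm)).eq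
    have hpbd : p * b = d * c := by
      rw [hpb, hpdef, ← mul_assoc, ← mul_assoc, ← hdb, mul_assoc d b b, hbb, mul_one]
    by_cases hne : p = b
    · have e1 : d = c := by
        have : d * c = 1 := by rw [← hpbd, hne, hbb]
        rw [eq_inv_of_mul_eq_one_left this, inv_eq_of_mul_eq_one_right hcc]
      refine three_not_conj_two h2 (Ne.symm hir) (Ne.symm hjr) hij (isAxisAt_fa r 2) hP hQ
        hrs hx hy (((b * v) ^ l' * h)⁻¹) ?_
      rw [← hbc, hcb', ← e1, ← hl', hv]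
      group
    · refine hvW (mem_of_comm_pair h2 hq ht hX hA hpA ⟨r, hb⟩ hpb hne hvX ?_)
      rw [hpbd, ← mul_assoc, ← hdv, mul_assoc, hvc, ← mul_assoc]

end Stages

end Cfsg.Agent.MaxSub.OWT
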